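import Cfsg.Agent.Co.A3

/-! Frames of an extraspecial group of order 512. -/

set_option autoImplicit false
set_option maxRecDepth 100000

namespace Cfsg.Co2

open Subgroup Cfsg.H6 Cfsg.Co.Rc

variable {G : Type*} [Group G]

/-- The centraliser of `z` has the self-centralising extraspecial normal subgroup `Q`. -/
structure ES (z : G) (Q : Subgroup G) : Prop where
  z1 : z ≠ 1
  zz : z * z = 1
  zQ : z ∈ Q
  qz : ∀ q ∈ Q, q * z = z * q
  nrm : ∀ c, c * z = z * c → ∀ q ∈ Q, c * q * c⁻¹ ∈ Q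
  cen : ∀ c, c * z = z * c → (∀ q ∈ Q, c * q = q * c) → c = 1 ∨ c = z
  comm : ∀ p ∈ Q, ∀ q ∈ Q, q * p = p * q ∨ q * p = z * (p * q)
  sq : ∀ q ∈ Q, q * q = 1 ∨ q * q = z
  card : Nat.card Q = 512
  cardC : Nat.card (centralizer ({z} : Set G)) = 512 * 1451520

variable {z : G} {Q : Subgroup G}

/-- A subgroup of `Q` with the same centre. -/
structure Gd (z : G) (Q S : Subgroup G) (n : ℕ) : Prop where
  le : S ≤ Q
  zS : z ∈ S
  cen : ∀ s ∈ S, (∀ t ∈ S, s * t = t * s) → s = 1 ∨ s = z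
  card : n ≤ Nat.card S

theorem ES.ne (E : ES z Q) (x : G) : z * x ≠ x := fun h => E.z1 (by simpa using h)

theorem ES.zinv (E : ES z Q) : z⁻¹ = z := inv_eq_of_mul_eq_one_right E.zz

theorem ES.zzm (E : ES z Q) (x : G) : z * (z * x) = x := by rw [← mul_assoc, E.zz, one_mul]

theorem ES.anti (E : ES z Q) {x s t : G} (hs : s * z = z * s) (h1 : s * x = z * (x * s))
    (h2 : t * x = z * (x * t)) : s * t * x = x * (s * t) := by
  rw [mul_assoc, h2, ← mul_assoc, hs, mul_assoc, ← mul_assoc s, h1, mul_assoc z, E.zzm, mul_assoc]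

theorem ES.card_le [Finite G] (E : ES z Q) {S : Subgroup G} (hS : S ≤ Q) {x : G} (hx : x ∈ Q) :
    Nat.card S ≤ 2 * Nat.card (S ⊓ centralizer {x} : Subgroup G) :=
  card_le_two fun s hs t ht h1 h2 => mem_cen.mpr (E.anti (E.qz s (hS hs))
    ((E.comm x hx s (hS hs)).resolve_left fun h => h1 (mem_cen.mpr h))
    ((E.comm x hx t (hS ht)).resolve_left fun h => h2 (mem_cen.mpr h)))

theorem ES.flip (E : ES z Q) {x y : G} (h : y * x = z * (x * y)) : x * y = z * (y * x) := by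
  rw [h, E.zzm]

theorem Gd.step [Finite G] (E : ES z Q) {S : Subgroup G} {n : ℕ} (h : Gd z Q S (4 * n)) {x y : G}
    (hx : x ∈ S) (hy : y ∈ S) (e : y * x = z * (x * y)) :
    Gd z Q (S ⊓ centralizer {x} ⊓ centralizer {y}) n := by
  refine ⟨inf_le_left.trans (inf_le_left.trans h.le), ⟨⟨h.zS, mem_cen.mpr (E.qz x (h.le hx)).symm⟩,
    mem_cen.mpr (E.qz y (h.le hy)).symm⟩, fun s hs hc => h.cen s hs.1.1 fun t ht => ?_, ?_⟩
  · have sx : Commute s x := mem_cen.mp hs.1.2
    have sy : Commute s y := mem_cen.mp hs.2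
    have k : ∀ t ∈ S, t * x = x * t → Commute s t := fun t ht h1 => by
      rcases E.comm y (h.le hy) t (h.le ht) with h2 | h2
      · exact hc t ⟨⟨ht, mem_cen.mpr h1⟩, mem_cen.mpr h2⟩
      · have : Commute s (t * x) := hc _ ⟨⟨S.mul_mem ht hx, mem_cen.mpr (by
          rw [mul_assoc, ← mul_assoc x, ← h1, mul_assoc])⟩,
          mem_cen.mpr (E.anti (E.qz t (h.le ht)) h2 (E.flip e))⟩
        simpa using this.mul_right sx.inv_right
    rcases E.comm x (h.le hx) t (h.le ht) with h1 | h1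
    · exact k t ht h1
    · have := k _ (S.mul_mem ht hy) (E.anti (E.qz t (h.le ht)) h1 e)
      have := this.mul_right sy.inv_right
      rwa [mul_inv_cancel_right] at this
  · have h1 := E.card_le h.le (h.le hx)
    have h2 := E.card_le (S := S ⊓ centralizer {x}) (inf_le_left.trans h.le) (h.le hy)
    have := h.card
    omega

theorem Gd.partner (E : ES z Q) {S : Subgroup G} {n : ℕ} (h : Gd z Q S n) {x : G} (hx : x ∈ S)
    (h1 : x ≠ 1) (h2 : x ≠ z) : ∃ y ∈ S, y * x = z * (x * y) := by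
  by_contra hc
  push Not at hc
  rcases h.cen x hx fun t ht =>
    ((E.comm x (h.le hx) t (h.le ht)).resolve_right (hc t ht)).symm with e | e
  · exact h1 e
  · exact h2 e

theorem ES.sq_mul (E : ES z Q) {x y : G} (hx : x ∈ Q) (e : y * x = z * (x * y)) :
    x * y * (x * y) = z * (x * x * (y * y)) := by
  calc x * y * (x * y) = x * (y * x) * y := by group
    _ = x * z * (x * y * y) := by rw [e]; group
    _ = _ := by rw [E.qz x hx]; group

theorem Gd.partner' (E : ES z Q) {S : Subgroup G} {n : ℕ} (h : Gd z Q S n) {x : G} (hx : x ∈ S)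
    (h1 : x ≠ 1) (h2 : x ≠ z) (h3 : x * x = 1) : ∃ y ∈ S, y * x = z * (x * y) ∧ y * y = 1 := by
  obtain ⟨y, hy, e⟩ := h.partner E hx h1 h2
  rcases E.sq y (h.le hy) with h4 | h4
  · exact ⟨y, hy, e, h4⟩
  · refine ⟨x * y, S.mul_mem hx hy, ?_, by rw [E.sq_mul (h.le hx) e, h3, h4, one_mul, E.zz]⟩
    rw [mul_assoc, e, ← mul_assoc, E.qz x (h.le hx), mul_assoc]

theorem Gd.nc {S : Subgroup G} (h : Gd z Q S 3) : ∃ x ∈ S, x ≠ 1 ∧ x ≠ z := by
  by_contra hc
  push Not at hc
  have h1 : (S : Set G) ⊆ {1, z} := fun x hx => by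
    by_cases e : x = 1
    · exact Or.inl e
    · exact Or.inr (hc x hx e)
  have h2 := Set.ncard_le_ncard h1 (Set.toFinite _)
  have h3 : ({1, z} : Set G).ncard ≤ 2 := (Set.ncard_insert_le _ _).trans (by simp)
  have h4 := h.card
  have h5 : Nat.card S = (S : Set G).ncard := rfl
  omega

theorem Gd.mono {S : Subgroup G} {n k : ℕ} (h : Gd z Q S n) (e : k ≤ n) : Gd z Q S k :=
  ⟨h.le, h.zS, h.cen, e.trans h.card⟩

theorem Gd.inv [Finite G] (E : ES z Q) {S : Subgroup G} (h : Gd z Q S 12) :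
    ∃ x ∈ S, x ≠ 1 ∧ x ≠ z ∧ x * x = 1 := by
  obtain ⟨x, hx, x1, xz⟩ := (h.mono (by norm_num)).nc
  rcases E.sq x (h.le hx) with h1 | h1
  · exact ⟨x, hx, x1, xz, h1⟩
  obtain ⟨y, hy, e⟩ := h.partner E hx x1 xz
  obtain ⟨u, hu, u1, uz⟩ := (Gd.step (n := 3) E h hx hy e).nc
  rcases E.sq u (h.le hu.1.1) with h2 | h2
  · exact ⟨u, hu.1.1, u1, uz, h2⟩
  have ux : u * x = x * u := mem_cen.mp hu.1.2
  have uy : u * y = y * u := mem_cen.mp hu.2
  have k : y * (x * u) ≠ x * u * y := by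
    rw [← mul_assoc, e, mul_assoc x u, uy, mul_assoc, mul_assoc x]
    exact E.ne _
  refine ⟨x * u, S.mul_mem hx hu.1.1, fun h3 => k (by simp [h3]),
    fun h3 => k (by rw [h3, E.qz y (h.le hy)]), ?_⟩
  calc x * u * (x * u) = x * (u * x) * u := by group
    _ = x * x * (u * u) := by rw [ux]; group
    _ = 1 := by rw [h1, h2, E.zz]

theorem Gd.last (E : ES z Q) {S : Subgroup G} (h : Gd z Q S 3) :
    ∃ (m : Bool) (x y : G), x ∈ S ∧ y ∈ S ∧ y * x = z * (x * y) ∧
      (x * x = if m = true then z else 1) ∧ y * y = if m = true then z else 1 := by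
  obtain ⟨x, hx, x1, xz⟩ := h.nc
  rcases E.sq x (h.le hx) with h1 | h1
  · obtain ⟨y, hy, e, h2⟩ := h.partner' E hx x1 xz h1
    exact ⟨false, x, y, hx, hy, e, h1, h2⟩
  obtain ⟨y, hy, e⟩ := h.partner E hx x1 xz
  rcases E.sq y (h.le hy) with h2 | h2
  · refine ⟨false, x * y, y, S.mul_mem hx hy, hy, by rw [← mul_assoc, e, mul_assoc], ?_, h2⟩
    rw [E.sq_mul (h.le hx) e, h1, h2, mul_one, E.zz]
    rfl
  · exact ⟨true, x, y, hx, hy, e, h1, h2⟩

theorem ES.exists_fr [Finite G] (E : ES z Q) {x0 : G} (hx : x0 ∈ Q) (h1 : x0 ≠ 1) (h2 : x0 ≠ z)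
    (h3 : x0 * x0 = 1) : ∃ m a, Fr z Q m a ∧ a 0 = x0 := by
  have g0 : Gd z Q Q (4 * 128) := ⟨le_rfl, E.zQ, fun s hs h => E.cen s (E.qz s hs) h, E.card.ge⟩
  obtain ⟨y0, hy0, e0, s0⟩ := g0.partner' E hx h1 h2 h3
  have g1 := g0.step E hx hy0 e0
  obtain ⟨x1, hx1, n1, n1', r1⟩ := (g1.mono (by norm_num)).inv E
  obtain ⟨y1, hy1, e1, s1⟩ := g1.partner' E hx1 n1 n1' r1
  have g2 := Gd.step (n := 32) E g1 hx1 hy1 e1
  obtain ⟨x2, hx2, n2, n2', r2⟩ := (g2.mono (by norm_num)).inv E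
  obtain ⟨y2, hy2, e2, s2⟩ := g2.partner' E hx2 n2 n2' r2
  have g3 := Gd.step (n := 8) E g2 hx2 hy2 e2
  obtain ⟨m, x3, y3, hx3, hy3, e3, r3, s3⟩ := (g3.mono (by norm_num)).last E
  simp only [mem_inf, mem_cen] at hx1 hy1 hx2 hy2 hx3 hy3
  obtain ⟨⟨q1, a1⟩, a2⟩ := hx1
  obtain ⟨⟨q2, a3⟩, a4⟩ := hy1
  obtain ⟨⟨⟨⟨q3, b1⟩, b2⟩, b3⟩, b4⟩ := hx2
  obtain ⟨⟨⟨⟨q4, b5⟩, b6⟩, b7⟩, b8⟩ := hy2
  obtain ⟨⟨⟨⟨⟨⟨q5, c1⟩, c2⟩, c3⟩, c4⟩, c5⟩, c6⟩ := hx3
  obtain ⟨⟨⟨⟨⟨⟨q6, d1⟩, d2⟩, d3⟩, d4⟩, d5⟩, d6⟩ := hy3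
  have f0 := E.flip e0
  have f1 := E.flip e1
  have f2 := E.flip e2
  have f3 := E.flip e3
  refine ⟨m, fun i => [x0, x1, x2, x3, y0, y1, y2, y3].getD i 1, ⟨fun i hi => ?_, fun i hi => ?_,
    fun i hi j hj => ?_⟩, rfl⟩
  · interval_cases i <;> assumption
  · interval_cases i <;> first | simpa using r3 | simpa using s3 | simpa
  · interval_cases i <;> interval_cases j <;>
      first | rfl | assumption | (symm; assumption)


variable {m : Bool} {a : ℕ → G}

variable (E : ES z Q) (F : Fr z Q m a)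
include E F

theorem fa_mem (l : ℕ) : fa z a l ∈ Q := by
  unfold fa
  split_ifs with h1 h2
  · exact E.zQ
  · exact F.mem _ (by omega)
  · exact Q.one_mem

theorem ev_mem (w : List ℕ) : evL (fa z a) w ∈ Q := evL_mem_of_letters fun l _ => fa_mem E F l

theorem co_mul {p q : G} (hp : p ∈ Q) (hq : q ∈ Q) : co a (p * q) = co a p ^^^ co a q := by
  refine eq_of_bits (co_lt _ _) (xor_lt (co_lt _ _) (co_lt _ _)) fun i hi => ?_
  have h1 := co_bit a p hi
  have h2 := co_bit a q hi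
  rw [co_bit a _ hi, Nat.testBit_xor]
  have hx := F.mem _ (pr_lt i)
  generalize a (pr i) = x at *
  have t : ∀ {b : Bool} {y : G}, (b = true ↔ x * y ≠ y * x) → y * x = z * (x * y) → b = true :=
    fun h e => h.mpr (by rw [e]; exact (E.ne _).symm)
  have f : ∀ {b : Bool} {y : G}, (b = true ↔ x * y ≠ y * x) → y * x = x * y → b = false :=
    fun h e => Bool.eq_false_iff.mpr fun k => h.mp k e.symm
  rcases E.comm x hx p hp with e1 | e1 <;> rcases E.comm x hx q hq with e2 | e2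
  · rw [f h1 e1, f h2 e2, mul_assoc, e2, ← mul_assoc p, e1, mul_assoc]
    simp
  · rw [f h1 e1, t h2 e2, mul_assoc, e2, ← mul_assoc p, E.qz p hp, mul_assoc, ← mul_assoc p, e1,
      mul_assoc]
    simpa using E.z1
  · rw [t h1 e1, f h2 e2, mul_assoc, e2, ← mul_assoc p, e1, mul_assoc, mul_assoc]
    simpa using E.z1
  · rw [t h1 e1, t h2 e2, E.anti (E.qz p hp) e1 e2]
    simp

theorem co_z : co a z = 0 := co_zero fun i hi => E.qz _ (F.mem i hi)

theorem co_a {i : ℕ} (hi : i < 8) : co a (a i) = 2 ^ i := by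
  refine eq_of_bits (co_lt _ _) (Nat.pow_lt_pow_right (a := 2) (n := 8) (by norm_num) hi)
    fun j hj => ?_
  rw [co_bit a _ hj, F.cm i hi _ (pr_lt j), Nat.testBit_two_pow, decide_eq_true_iff]
  have : pr j = pr i ↔ i = j := by unfold pr; omega
  split_ifs with h
  · simpa [this.mp h] using E.z1
  · simpa using fun e => h (this.mpr e)

theorem co_fa (l : ℕ) : co a (fa z a l) = x1 l := by
  unfold fa x1
  split_ifs with h1 h2 h2
  · omega
  · exact co_z E F
  · exact co_a E F (by omega)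
  · exact co_one

theorem co_ev (w : List ℕ) : co a (evL (fa z a) w) = xs w := by
  induction w with
  | nil => exact co_one
  | cons l w ih => rw [evL_cons, co_mul E F (fa_mem E F l) (ev_mem E F w), ih, co_fa E F]; rfl

theorem co_bw {v : ℕ} (hv : v < 256) : co a (evL (fa z a) (bw v)) = v := by
  rw [co_ev E F, xs_bw v hv]

theorem co_zm {q : G} (hq : q ∈ Q) : co a (z * q) = co a q := by
  rw [co_mul E F E.zQ hq, co_z E F, Nat.zero_xor]

theorem eq_of_co_zero [Finite G] {q : G} (hq : q ∈ Q) (h : co a q = 0) : q = 1 ∨ q = z := by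
  by_contra hc
  push Not at hc
  have k : ∀ i : Fin 3, ![1, z, q] i ∈ Q ∧ co a (![1, z, q] i) = 0 := fun i => by
    fin_cases i
    exacts [⟨Q.one_mem, co_one⟩, ⟨E.zQ, co_z E F⟩, ⟨hq, h⟩]
  have := Nat.card_le_card_of_injective (fun x : Fin 256 × Fin 3 =>
    (⟨evL (fa z a) (bw x.1) * ![1, z, q] x.2, Q.mul_mem (ev_mem E F _) (k _).1⟩ : Q))
    fun x y e => by
      have e1 := congrArg Subtype.val e
      have e2 := congrArg (co a) e1
      simp only [co_mul E F (ev_mem E F _) (k _).1, (k _).2, Nat.xor_zero, co_bw E F (Fin.is_lt _)]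
        at e2
      obtain ⟨u, i⟩ := x
      obtain ⟨v, j⟩ := y
      obtain rfl : u = v := Fin.ext e2
      have e3 := mul_left_cancel e1
      have a1 := E.z1
      have a2 := hc.1
      have a3 := hc.2
      fin_cases i <;> fin_cases j <;>
        first | rfl | exact absurd e3 a1 | exact absurd e3 a2 | exact absurd e3 a3
              | exact absurd e3 a1.symm | exact absurd e3 a2.symm | exact absurd e3 a3.symm
  rw [E.card] at this
  simp at this

theorem co_inv {q : G} (hq : q ∈ Q) : co a q⁻¹ = co a q := by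
  have := co_mul E F (Q.inv_mem hq) hq
  rw [inv_mul_cancel, co_one] at this
  exact Nat.xor_eq_zero_iff.mp this.symm

theorem eq_of_co [Finite G] {p q : G} (hp : p ∈ Q) (hq : q ∈ Q) (h : co a p = co a q) :
    p = q ∨ p = z * q := by
  refine (eq_of_co_zero E F (Q.mul_mem hp (Q.inv_mem hq)) ?_).imp mul_inv_eq_one.mp
    mul_inv_eq_iff_eq_mul.mp
  rw [co_mul E F hp (Q.inv_mem hq), co_inv E F hq, h, Nat.xor_self]

theorem nf [Finite G] {q : G} (hq : q ∈ Q) :
    q = evL (fa z a) (bw (co a q)) ∨ q = z * evL (fa z a) (bw (co a q)) :=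
  eq_of_co E F hq (ev_mem E F _) (co_bw E F (co_lt _ _)).symm

omit F in
theorem sq_zm {q : G} (hq : q ∈ Q) : z * q * (z * q) = q * q := by
  rw [mul_assoc, ← mul_assoc q, E.qz q hq, mul_assoc, E.zzm]

theorem sq_ev (w : List ℕ) :
    evL (fa z a) w * evL (fa z a) w = if sqf m w = true then z else 1 := by
  have k : ∀ w : List ℕ, (w.foldr (fun l (s : ℕ × Bool) => (x1 l ^^^ s.1,
      xor (decide (2 ≤ l ∧ l < 10) && xor (m && (l - 2) % 4 == 3) (s.1.testBit (pr (l - 2)))) s.2))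
      (0, false)).1 = xs w := fun w => by
    induction w with
    | nil => rfl
    | cons l w ih => exact congrArg (x1 l ^^^ ·) ih
  induction w with
  | nil => simp [sqf, evL_nil]
  | cons l w ih =>
    have e : sqf m (l :: w) = xor (decide (2 ≤ l ∧ l < 10) && xor (m && (l - 2) % 4 == 3)
        ((xs w).testBit (pr (l - 2)))) (sqf m w) := by rw [← k w]; rfl
    rw [e, evL_cons]
    have hw := ev_mem E F w
    have hc := co_ev E F w
    generalize evL (fa z a) w = W at *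
    generalize sqf m w = s at *
    unfold fa
    by_cases h1 : l = 1
    · rw [if_pos h1, sq_zm E hw, ih]
      simp [h1]
    by_cases h2 : 2 ≤ l ∧ l < 10
    · rw [if_neg h1, if_pos h2]
      have hl : l - 2 < 8 := by omega
      have h3 := co_bit a W (pr_lt (l - 2))
      rw [pr_pr _ hl, hc] at h3
      have h4 := F.sq _ hl
      have hz := E.zz
      rcases E.comm _ (F.mem _ hl) W hw with e1 | e1
      · have : a (l - 2) * W * (a (l - 2) * W) = a (l - 2) * a (l - 2) * (W * W) := by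
          rw [mul_assoc, ← mul_assoc W, e1]; group
        rw [this, h4, ih]
        have h5 : (xs w).testBit (pr (l - 2)) = false := by simpa [e1] using h3
        cases m <;> cases s <;> by_cases h6 : (l - 2) % 4 = 3 <;> simp [h2, h5, h6, hz]
      · rw [E.sq_mul (F.mem _ hl) e1, h4, ih]
        have h5 : (xs w).testBit (pr (l - 2)) = true := h3.mpr (by rw [e1]; exact (E.ne _).symm)
        cases m <;> cases s <;> by_cases h6 : (l - 2) % 4 = 3 <;> simp [h2, h5, h6, hz]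
    · rw [if_neg h1, if_neg h2, one_mul, ih]
      simp [h2]

theorem sq_co [Finite G] {q : G} (hq : q ∈ Q) :
    q * q = if qf m (co a q) = true then z else 1 := by
  rw [qf_eq m _ (co_lt _ _), ← sq_ev E F]
  rcases nf E F hq with h | h
  · rw [← h]
  · rw [← sq_zm E (ev_mem E F _), ← h]

/-- Adjusting an element by an inner automorphism. -/
theorem adj {c : G} (hc : c * z = z * c) {t : ℕ → G}
    (h : ∀ j < 8, c * a j * c⁻¹ = t j ∨ c * a j * c⁻¹ = z * t j) :
    ∃ p ∈ Q, ∀ j < 8, c * p * a j * (c * p)⁻¹ = t j := by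
  classical
  let u := Nat.ofBits (n := 8) fun i => decide (c * a (pr i) * c⁻¹ ≠ t (pr i))
  have hu : u < 256 := Nat.ofBits_lt_two_pow (n := 8) _
  refine ⟨evL (fa z a) (bw u), ev_mem E F _, fun j hj => ?_⟩
  have h1 := co_bit a (evL (fa z a) (bw u)) (pr_lt j)
  rw [co_bw E F hu, Nat.testBit_ofBits_lt _ _ (pr_lt j), decide_eq_true_iff] at h1
  simp only [pr_pr j hj] at h1
  have hp := ev_mem E F (bw u)
  generalize evL (fa z a) (bw u) = p at *
  rcases E.comm _ (F.mem j hj) p hp with e | e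
  · have : c * a j * c⁻¹ = t j := by simpa [e] using h1
    rw [← this, mul_assoc c, e]; group
  · have h2 := (h j hj).resolve_left (h1.mpr (by rw [e]; exact (E.ne _).symm))
    calc c * p * a j * (c * p)⁻¹ = c * (p * a j) * p⁻¹ * c⁻¹ := by group
      _ = c * z * a j * c⁻¹ := by rw [e]; group
      _ = z * (c * a j * c⁻¹) := by rw [hc]; group
      _ = t j := by rw [h2, E.zzm]

theorem cen_a [Finite G] {c : G} (hc : c * z = z * c) (h : ∀ j < 8, c * a j * c⁻¹ = a j) :
    c = 1 ∨ c = z := by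
  refine E.cen c hc fun q hq => ?_
  have k : ∀ w, evL (fa z a) w ∈ centralizer {c} := fun w => evL_mem_of_letters fun l _ => by
    unfold fa
    split_ifs with h1 h2
    · exact mem_cen.mpr hc.symm
    · exact mem_cen.mpr (mul_inv_eq_iff_eq_mul.mp (h _ (by omega))).symm
    · exact one_mem _
  rcases nf E F hq with e | e <;> rw [e]
  · exact (mem_cen.mp (k _)).symm
  · exact (mem_cen.mp (mul_mem (mem_cen.mpr hc.symm) (k _))).symm

theorem mem_of_triv [Finite G] {c : G} (hc : c * z = z * c)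
    (h : ∀ j < 8, co a (c * a j * c⁻¹) = 2 ^ j) : c ∈ Q := by
  obtain ⟨p, hp, e⟩ := adj E F hc (t := a) fun j hj =>
    eq_of_co E F (E.nrm c hc _ (F.mem j hj)) (F.mem j hj) (by rw [h j hj, co_a E F hj])
  have h1 : c * p * z = z * (c * p) := by rw [mul_assoc, E.qz p hp, ← mul_assoc, hc, mul_assoc]
  refine (Q.mul_mem_cancel_right hp).mp ?_
  rcases cen_a E F h1 e with h2 | h2 <;> rw [h2]
  exacts [Q.one_mem, E.zQ]

theorem co_conj [Finite G] {c : G} (hc : c * z = z * c) {q : G} (hq : q ∈ Q) :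
    co a (c * q * c⁻¹) = rc z a c (co a q) := by
  rcases nf E F hq with e | e
  · rw [rc, ← e]
  · rw [rc, ← co_zm E F (E.nrm c hc _ (ev_mem E F _))]
    congr 1
    conv_lhs => rw [e, ← mul_assoc, hc]
    group

theorem rc_xor [Finite G] {c : G} (hc : c * z = z * c) {u v : ℕ} (hu : u < 256) (hv : v < 256) :
    rc z a c (u ^^^ v) = rc z a c u ^^^ rc z a c v := by
  have := co_conj E F hc (Q.mul_mem (ev_mem E F (bw u)) (ev_mem E F (bw v)))
  rw [co_mul E F (ev_mem E F _) (ev_mem E F _), co_bw E F hu, co_bw E F hv] at this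
  rw [← this, rc, rc, ← co_mul E F (E.nrm c hc _ (ev_mem E F _)) (E.nrm c hc _ (ev_mem E F _))]
  congr 1
  group

theorem rc_qf [Finite G] {c : G} (hc : c * z = z * c) {v : ℕ} (hv : v < 256) :
    qf m (rc z a c v) = qf m v := by
  have h1 := sq_co E F (ev_mem E F (bw v))
  have h2 := sq_co E F (E.nrm c hc _ (ev_mem E F (bw v)))
  rw [co_bw E F hv] at h1
  rw [show ∀ q : G, c * q * c⁻¹ * (c * q * c⁻¹) = c * (q * q) * c⁻¹ from fun q => by group, h1] at h2
  have := E.z1
  unfold rc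
  split_ifs at h2 with h3 h4 h4
  · rw [h3, h4]
  · rw [hc, mul_inv_cancel_right] at h2
    exact absurd h2 this
  · rw [mul_one, mul_inv_cancel] at h2
    exact absurd h2.symm this
  · rw [Bool.eq_false_iff.mpr h3, Bool.eq_false_iff.mpr h4]

theorem rc_mul [Finite G] {c d : G} (hc : c * z = z * c) (hd : d * z = z * d) (v : ℕ) :
    rc z a (c * d) v = rc z a c (rc z a d v) := by
  rw [rc, rc.eq_1 z a d, ← co_conj E F hc (E.nrm d hd _ (ev_mem E F _))]
  congr 1
  group

theorem rc_Q {p : G} (hp : p ∈ Q) {v : ℕ} (hv : v < 256) : rc z a p v = v := by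
  rw [rc, co_mul E F (Q.mul_mem hp (ev_mem E F _)) (Q.inv_mem hp), co_mul E F hp (ev_mem E F _),
    co_inv E F hp, co_bw E F hv, Nat.xor_comm, Nat.xor_xor_cancel_left]

/-- The action of the centraliser on the central quotient of `Q`. -/
noncomputable def rho [Finite G] : centralizer ({z} : Set G) →* Equiv.Perm (Fin 256) :=
  MonoidHom.toHomPerm
    { toFun := fun c v => ⟨rc z a c v, co_lt _ _⟩
      map_one' := funext fun v => Fin.ext (rc_Q E F Q.one_mem v.2)
      map_mul' := fun c d => funext fun v =>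
        Fin.ext (rc_mul E F (mem_cen.mp c.2) (mem_cen.mp d.2) v) }

theorem rho_val [Finite G] (c : centralizer ({z} : Set G)) (v : Fin 256) :
    (rho E F c v : ℕ) = rc z a c v := rfl

theorem rho_eq_one [Finite G] {c : centralizer ({z} : Set G)} : rho E F c = 1 ↔ (c : G) ∈ Q := by
  refine ⟨fun h => mem_of_triv E F (mem_cen.mp c.2) fun j hj => ?_,
    fun h => Equiv.ext fun v => Fin.ext (rc_Q E F h v.2)⟩
  rw [co_conj E F (mem_cen.mp c.2) (F.mem j hj), co_a E F hj]
  exact congrArg Fin.val (Equiv.congr_fun h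
    ⟨2 ^ j, Nat.pow_lt_pow_right (a := 2) (n := 8) (by norm_num) hj⟩)

theorem card_range [Finite G] : Nat.card (rho E F).range = 1451520 := by
  have h1 : (rho E F).ker = Q.subgroupOf _ := by
    ext c
    exact rho_eq_one E F
  have h2 := (rho E F).ker.card_mul_index
  rw [index_ker, h1, Nat.card_congr (subgroupOfEquivOfLe fun q hq => mem_cen.mpr (E.qz q hq)).toEquiv,
    E.card, E.cardC] at h2
  omega


theorem rho_mem [Finite G] (c : centralizer ({z} : Set G)) : rho E F c ∈ OG m :=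
  ⟨fun u v => Fin.ext (rc_xor E F (mem_cen.mp c.2) u.2 v.2),
    fun v => rc_qf E F (mem_cen.mp c.2) v.2⟩

end Cfsg.Co2
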