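import Cfsg.Agent.Co2.D0
import Cfsg.Agent.Co.C1

/-! Homomorphisms from the symplectic group and splitting of a double cover. -/

set_option autoImplicit false
set_option maxRecDepth 100000

namespace Cfsg.Co2

open Subgroup Cfsg.H6 Cfsg.Co3G

theorem ev0_pair {A B : Type*} [Group A] [Group B] (x : ℕ → A) (y : ℕ → B) :
    evL (ev0 (fun i => (x i, y i)) 1) [1, 3, 5, 7, 9, 11, 13] =
      (evL (ev0 x 1) [1, 3, 5, 7, 9, 11, 13], evL (ev0 y 1) [1, 3, 5, 7, 9, 11, 13]) := rfl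

theorem id9 {B : Type*} [Group B] {π : B →* Sp} (hπ : Function.Injective π) {y : ℕ → B}
    (h : ∀ i < 7, π (y i) = Co3G.evM (2 * i + 1)) :
    evL (ev0 y 1) [1, 3, 5, 7, 9, 11, 13] ^ 9 = 1 := by
  apply hπ
  rw [← evL_rp, map_ev0 h (by decide +kernel), map_one]
  exact oraM _ (by decide +kernel)

theorem sp9 : evL (ev0 (fun i => Co3G.evM (2 * i + 1)) 1) [1, 3, 5, 7, 9, 11, 13] ^ 9 = 1 :=
  id9 (π := MonoidHom.id Sp) (fun _ _ h => h) fun _ _ => rfl

theorem sp_hom {A : Type*} [Group A] {x : ℕ → A} (h1 : ∀ i < 7, x i * x i = 1)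
    (h2 : ∀ e ∈ edges, x e.1 * x e.2 * x e.1 = x e.2 * x e.1 * x e.2)
    (h3 : ∀ e ∈ pairs, x e.1 * x e.2.1 * (x e.1)⁻¹ * (x e.2.1)⁻¹ = 1)
    (h4 : evL (ev0 x 1) [1, 3, 5, 7, 9, 11, 13] ^ 9 = 1) :
    ∃ σ : Sp →* A, ∀ i < 7, σ (Co3G.evM (2 * i + 1)) = x i := by
  let y : ℕ → A × Sp := fun i => (x i, Co3G.evM (2 * i + 1))
  have sq : ∀ i < 7, Co3G.evM (2 * i + 1) * Co3G.evM (2 * i + 1) = 1 := fun i hi => by
    have e : ∀ i < 7, fixB imS 16 bS [2 * i + 1, 2 * i + 1] = true := by decide +kernel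
    simpa only [evL_cons, evL_nil, mul_one] using oraM _ (e i hi)
  obtain ⟨θ, t1, t2⟩ := lift0 (x := y) (z := 1) (mul_one 1) (fun i hi => Prod.ext (h1 i hi) (sq i hi))
    (fun e he => Prod.ext (h2 e he) (br (by revert e; decide +kernel) (by revert e; decide +kernel)
      (by revert e; decide +kernel)))
    (fun e he => Prod.ext (h3 e he) (by
      have l : e.1 < 7 ∧ e.2.1 < 7 := by revert e; decide
      have c : fixB imS 16 bS [2 * e.1 + 1, 2 * e.2.1 + 1, 2 * e.1 + 1, 2 * e.2.1 + 1] = true := by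
        clear l; revert e; decide +kernel
      have := oraM _ c
      simp only [evL_cons, evL_nil, mul_one, ← mul_assoc] at this
      change _ * _ * (Co3G.evM _)⁻¹ * (Co3G.evM _)⁻¹ = 1
      rw [inv_eq_of_mul_eq_one_right (sq _ l.1), inv_eq_of_mul_eq_one_right (sq _ l.2)]
      exact this))
    (by rw [ev0_pair, Prod.pow_mk, h4, sp9]; rfl)
  have hs : Function.Surjective ((MonoidHom.snd A Sp).comp θ) := by
    refine MonoidHom.range_eq_top.mp (top_le_iff.mp (gen_Sp ▸ gen_le fun w hw => ?_))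
    have e : ∀ w ∈ X7, ∃ i < 7, w = [2 * i + 1] := by decide
    obtain ⟨i, hi, rfl⟩ := e w hw
    exact ⟨_, by rw [MonoidHom.comp_apply, t2 i hi, evL_singleton]; rfl⟩
  obtain ⟨σ, hσ⟩ := Co.exists_hom_of_graph θ.range (fun b => by
    obtain ⟨p, rfl⟩ := hs b
    exact ⟨(θ p).1, p, rfl⟩) (by
    rintro a ⟨p, hp⟩
    have := H6.Co3.P.finite
    have k := ((MonoidHom.snd A Sp).comp θ).ker.card_mul_index
    rw [index_ker, MonoidHom.range_eq_top.mpr hs, card_top, card_Sp, H6.Co3.P.card] at k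
    obtain ⟨u, -, hu⟩ := (Nat.card_eq_two_iff' (1 : ((MonoidHom.snd A Sp).comp θ).ker)).mp (by omega)
    by_cases c : p = 1
    · rw [c, map_one] at hp
      exact (congrArg Prod.fst hp).symm
    · have a1 := hu ⟨p, by rw [MonoidHom.mem_ker, MonoidHom.comp_apply, hp]; rfl⟩
        fun e => c (congrArg Subtype.val e)
      have a2 := hu ⟨H6.Co3.P.ev 15, by rw [MonoidHom.mem_ker, MonoidHom.comp_apply, t1]; rfl⟩
        fun e => ne1_spec (w := [15]) (by decide +kernel)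
          ((evL_singleton _ _).trans (congrArg Subtype.val e))
      have a3 : p = H6.Co3.P.ev 15 := congrArg Subtype.val (a1.trans a2.symm)
      rw [a3, t1] at hp
      exact (congrArg Prod.fst hp).symm)
  exact ⟨σ, fun i hi => hσ _ _ ⟨_, t2 i hi⟩⟩

variable {C : Type*} [Group C] {π : C →* Sp} {d : C}

theorem dc_split (h : Dc π d) {u : C} (hu : u * u = 1)
    (hk : π u = evL Co3G.evM [1] ∨ π u = evL Co3G.evM [1, 3]) :
    ∃ σ : Sp →* C, ∀ y, π (σ y) = y := by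
  obtain ⟨x, hx, hb, h9⟩ := h.lifts
  have k1 : ∀ i < 7, π (x i * x i) = 1 := fun i hi => by
    have e : ∀ i < 7, fixB imS 16 bS [2 * i + 1, 2 * i + 1] = true := by decide +kernel
    have := oraM _ (e i hi)
    simpa only [evL_cons, evL_nil, mul_one, map_mul, hx i hi] using this
  have s1 : ∀ e ∈ edges, x e.1 * x e.1 = x e.2 * x e.2 := fun e he => by
    have l : e.1 < 7 := by revert e; decide
    have c := h.cenk (k1 _ l) (x e.1 * x e.2)
    have b : x e.2 = x e.1 * x e.2 * x e.1 * (x e.1 * x e.2)⁻¹ := by rw [hb e he]; group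
    calc x e.1 * x e.1 = x e.1 * x e.2 * (x e.1 * x e.1) * (x e.1 * x e.2)⁻¹ := by rw [c]; group
      _ = (x e.1 * x e.2 * x e.1 * (x e.1 * x e.2)⁻¹) * (x e.1 * x e.2 * x e.1 * (x e.1 * x e.2)⁻¹) := by
        group
      _ = _ := by rw [← b]
  simp only [edges, List.forall_mem_cons] at s1
  obtain ⟨a1, a2, a3, a4, a5, a6, -⟩ := s1
  have h1 : ∀ i < 7, x i * x i = x 0 * x 0 := fun i hi => by
    interval_cases i
    · rfl
    · rw [a3, ← a2, ← a1]
    · rw [← a1]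
    · rw [← a2, ← a1]
    · rw [← a4, ← a2, ← a1]
    · rw [← a5, ← a4, ← a2, ← a1]
    · rw [← a6, ← a5, ← a4, ← a2, ← a1]
  have hg := good_ev0 x (z := 1) (mul_one 1)
  have cj : ∀ {u v w : List ℕ}, (inR 15 (invW nv0 w ++ u ++ w) && inR 15 v &&
      fixB imS 16 bS (invW nv0 w ++ u ++ w ++ invW nv0 v)) = true →
      π ((evL (ev0 x 1) w)⁻¹ * evL (ev0 x 1) u * evL (ev0 x 1) w) = π (evL (ev0 x 1) v) :=
    fun {u v w} c => by
      simp only [Bool.and_eq_true] at c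
      have gM : Good Co3G.evM nv0 :=
        oraM.good (dif_neg (by omega)) (fun l hl => dif_neg (by omega)) (by decide +kernel)
      have := oraM _ c.2
      rw [evL_append, evL_invW gM, mul_inv_eq_one] at this
      rw [← evL_invW hg, ← evL_append, ← evL_append, map_ev0 hx c.1.1, map_ev0 hx c.1.2, this]
  have k2 : π (x 0 * x 1 * (x 0)⁻¹ * (x 1)⁻¹) = 1 := by
    have := map_ev0 hx (w := [1, 3, 2, 4]) (by decide)
    rw [oraM _ (by decide +kernel)] at this
    simpa only [mul_assoc, mul_one] using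
      (show π (x 0 * (x 1 * ((x 0)⁻¹ * ((x 1)⁻¹ * 1)))) = 1 from this)
  have h3 : ∀ e ∈ pairs, x e.1 * x e.2.1 * (x e.1)⁻¹ * (x e.2.1)⁻¹ =
      x 0 * x 1 * (x 0)⁻¹ * (x 1)⁻¹ := fun e he => by
    have l : e.1 < 7 ∧ e.2.1 < 7 := by revert e; decide
    have c1 := cj (u := [2 * e.1 + 1]) (v := [2 * 0 + 1]) (w := e.2.2) (by revert e; decide +kernel)
    have c2 := cj (u := [2 * e.2.1 + 1]) (v := [2 * 1 + 1]) (w := e.2.2)
      (by clear c1; revert e; decide +kernel)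
    rw [evL_singleton, evL_singleton, ev0_a x 1 l.1, ev0_a x 1 (by norm_num)] at c1
    rw [evL_singleton, evL_singleton, ev0_a x 1 l.2, ev0_a x 1 (by norm_num)] at c2
    have c3 := h.cm_eq c1 c2
    have c4 := h.cenk k2 (evL (ev0 x 1) e.2.2)
    rw [← mul_inv_eq_iff_eq_mul, ← c3] at c4
    rw [← c3, ← c4]
    group
  generalize x 0 * x 1 * (x 0)⁻¹ * (x 1)⁻¹ = z2 at k2 h3
  have k0 := k1 0 (by norm_num)
  generalize x 0 * x 0 = z1 at k0 h1
  have sw : ∀ i j, (i, j) ∈ pairs.map (fun e => (e.1, e.2.1)) → ∀ u, x j * (x i * u) =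
      z2 * (x i * (x j * u)) := fun i j hij u => by
    obtain ⟨e, he, c⟩ := List.mem_map.mp hij
    obtain ⟨rfl, rfl⟩ := Prod.mk.inj c
    have a := h3 e he
    rw [mul_inv_eq_iff_eq_mul, mul_inv_eq_iff_eq_mul] at a
    rw [← mul_assoc (x e.1), a, ← mul_assoc z2, ← mul_assoc z2, ← mul_assoc z2, h.sqk k2]
    group
  have mv : ∀ {z : C}, π z = 1 → ∀ u v, u * (z * v) = z * (u * v) := fun hz u v => by
    rw [← mul_assoc, h.cenk hz u, mul_assoc]
  have sq : ∀ i < 7, ∀ u, x i * (x i * u) = z1 * u := fun i hi u => by rw [← mul_assoc, h1 i hi]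
  have zz : ∀ {z : C}, π z = 1 → ∀ u, z * (z * u) = u := fun hz u => by
    rw [← mul_assoc, h.sqk hz, one_mul]
  have e4 : x 1 * (x 2 * (x 4 * x 6)) * (x 1 * (x 2 * (x 4 * x 6))) = 1 := by
    have : x 1 * (x 2 * (x 4 * (x 6 * (x 1 * (x 2 * (x 4 * (x 6 * 1))))))) = 1 := by
      simp only [sw 1 6 (by decide), sw 1 4 (by decide), sw 1 2 (by decide), sw 2 6 (by decide),
        sw 2 4 (by decide), sw 4 6 (by decide), mv k2 (x _), mv k0 (x _), mv k0 z2, zz k0, zz k2,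
        sq 1 (by norm_num), sq 2 (by norm_num), sq 4 (by norm_num), sq 6 (by norm_num)]
    simpa only [mul_assoc, mul_one] using this
  have e3 : x 0 * (x 1 * x 4) * (x 0 * (x 1 * x 4)) = z1 * z2 := by
    have : x 0 * (x 1 * (x 4 * (x 0 * (x 1 * (x 4 * 1))))) = z1 * (z2 * 1) := by
      simp only [sw 0 4 (by decide), sw 0 1 (by decide), sw 1 4 (by decide), mv k2 (x _),
        mv k0 (x _), mv k0 z2, zz k0, zz k2, sq 0 (by norm_num), sq 1 (by norm_num),
        sq 4 (by norm_num)]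
    simpa only [mul_assoc, mul_one] using this
  have e5 := h.sq_eq (cj (u := [3, 5, 9, 13]) (v := [1, 3, 9]) (w := [1,7,3,5,1,7,5,9,11,9,7,3,5,1,7,5,9,7,3,11,9,7,5,13,11,9,7,5]) (by decide +kernel))
  have f4 : evL (ev0 x 1) [3, 5, 9, 13] = x 1 * (x 2 * (x 4 * x 6)) := by
    change x 1 * (x 2 * (x 4 * (x 6 * 1))) = _
    rw [mul_one]
  have f3 : evL (ev0 x 1) [1, 3, 9] = x 0 * (x 1 * x 4) := by
    change x 0 * (x 1 * (x 4 * 1)) = _
    rw [mul_one]
  have e6 : z2 = z1 := by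
    rw [f4, f3, e3] at e5
    have : z1 * z2 = 1 := by
      rw [← e5]
      calc _ = (evL (ev0 x 1) [1,7,3,5,1,7,5,9,11,9,7,3,5,1,7,5,9,7,3,11,9,7,5,13,11,9,7,5])⁻¹ * (x 1 * (x 2 * (x 4 * x 6)) * (x 1 * (x 2 * (x 4 * x 6)))) *
          evL (ev0 x 1) [1,7,3,5,1,7,5,9,11,9,7,3,5,1,7,5,9,7,3,11,9,7,5,13,11,9,7,5] := by group
        _ = 1 := by rw [e4]; group
    rw [← inv_eq_of_mul_eq_one_right this, inv_eq_of_mul_eq_one_right (h.sqk k0)]
  subst e6
  have e7 : z2 = 1 := by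
    rcases hk with c | c
    · rw [← h1 0 (by norm_num), ← hu]
      exact h.sq_eq (by rw [hx 0 (by norm_num), c, evL_singleton])
    · have a : x 0 * x 1 * (x 0 * x 1) = u * u := h.sq_eq (by
        rw [map_mul, hx 0 (by norm_num), hx 1 (by norm_num), c, evL_cons, evL_singleton])
      have b : x 0 * (x 1 * (x 0 * (x 1 * 1))) = z2 * 1 := by
        simp only [sw 0 1 (by decide), mv k0 (x _), zz k0, sq 0 (by norm_num), sq 1 (by norm_num)]
      rw [hu, mul_assoc] at a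
      rw [mul_one, mul_one, a] at b
      exact b.symm
  subst e7
  obtain ⟨σ, hσ⟩ := sp_hom h1 hb h3 h9
  refine ⟨σ, fun y => ?_⟩
  have : gen Co3G.evM X7 ≤ (π.comp σ).eqLocus (MonoidHom.id _) := gen_le fun w hw => by
    have e : ∀ w ∈ X7, ∃ i < 7, w = [2 * i + 1] := by decide
    obtain ⟨i, hi, rfl⟩ := e w hw
    rw [evL_singleton]
    exact (congrArg π (hσ i hi)).trans (hx i hi)
  exact this (gen_Sp ▸ mem_top y)

end Cfsg.Co2
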