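import Cfsg.Agent.Co2.A3

/-! The centraliser is that of the model. -/

set_option autoImplicit false
set_option maxRecDepth 100000
set_option linter.unusedSectionVars false

namespace Cfsg.Co2

open Subgroup Cfsg.H6 Cfsg.Co.Rc
open Cfsg.Co2.P (Grp hev)
open Cfsg.Co3G (Sp Dc)

theorem ev0_list {A : Type*} [Group A] (x : ℕ → A) :
    evL (Co3G.ev0 x 1) [1, 3, 5, 7, 9, 11, 13] = evL x [0, 1, 2, 3, 4, 5, 6] := rfl

theorem exists_s0 : ∃ σ : Sp →* Grp, ∀ i < 7, σ (Co3G.evM (2 * i + 1)) = P.ev (10 + i) := by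
  refine sp_hom (x := fun i => P.ev (10 + i)) (fun i _ => sq_ev0 _) (fun e he => ?_)
    (fun e he => ?_) ?_
  · have : eqw [10 + e.1, 10 + e.2, 10 + e.1] [10 + e.2, 10 + e.1, 10 + e.2] = true := by
      revert e; decide +kernel
    simpa only [evL_cons, evL_nil, mul_one, mul_assoc] using eqw_spec this
  · have : eq1 [10 + e.1, 10 + e.2.1, 10 + e.1, 10 + e.2.1] = true := by
      revert e; decide +kernel
    simpa only [evL_cons, evL_nil, mul_one, mul_assoc, ev_inv] using eq1_spec this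
  · rw [ev0_list, ← evL_map, ← evL_rp]
    exact eq1_spec (by decide +kernel)

/-- The letters as words in the first sixteen. -/
def DW (l : ℕ) : List ℕ := ([[], [1], [2], [3], [4], [5], [6], [7], [8], [9], [10], [11], [12], [13], [14], [15], [16], [1,11,12,13,11,12,13,14,13,11,12,13,14], [11,12,13,11,12,13,14,13,11,12,13,14,15,14,13,11,12,13,14,15], [10,11,12,10,13,11,12,10,13,12,14,13,11,12,10,13,12,14,13,11], [1,3,8,9,11,13,11,14,13,11], [2,12,13,11,12,13,14,13,11,12,13], [3,4,6,7,8,9,14,13,11,12,13,14], [1,4,5,7,8,9,13,11,12,13,14,13,11,12,13,14], [3,4,7,8,9], [4,5], [3,4], [4,7], [11,12], [11,14]] : List (List ℕ)).getD l []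

theorem hDW : ∀ l < 30, inR 17 (DW l) = true ∧ (l = 0 ∨ eqw [l] (DW l) = true) ∧
    (l < 17 → l = 0 ∨ DW l = [l]) := by decide +kernel

variable {G : Type*} [Group G] [Finite G] {z : G} {Q : Subgroup G} {a : ℕ → G}
  {π : centralizer ({z} : Set G) →* Sp}

/-- The graph of an isomorphism of the centraliser with that of the model. -/
structure Gr (z : G) (a : ℕ → G) (π : centralizer ({z} : Set G) →* Sp)
    (Γ : Subgroup (G × Grp)) (g : ℕ → G) : Prop where
  fst : ∀ c, (c, 1) ∈ Γ → c = 1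
  snd : ∀ c0, (1, c0) ∈ Γ → c0 = 1
  cen : ∀ d ∈ Γ, d.1 * z = z * d.1
  sur : ∀ c, c * z = z * c → ∃ c0, (c, c0) ∈ Γ
  mem : ∀ l < 30, (g l, P.ev l) ∈ Γ
  gen : ∀ K : Subgroup (G × Grp), (∀ l < 17, (g l, P.ev l) ∈ K) → Γ ≤ K
  fr : ∀ l < 10, g l = fa z a l
  pi : ∀ j < 7, ∀ hc, π ⟨g (10 + j), hc⟩ = Co3G.evM (2 * j + 1)

variable (h : Ch 0 z Q a π)
include h

theorem exists_lift {j : ℕ} (hj : j < 7) : ∃ c, π c = Co3G.evM (2 * j + 1) ∧
    (c.1, P.ev (10 + j)) ∈ NN h.es h.fr := by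
  have E := h.es
  have F : Fr z Q false a := h.fr
  obtain ⟨c, hc⟩ := h.surj (Co3G.evM (2 * j + 1))
  have hr := h.act c [2 * j + 1] (inR_iff.mpr (by simp; omega)) (by rw [hc, evL_singleton])
  rw [evL_singleton] at hr
  have hz := mem_cen.mp c.2
  obtain ⟨p, hp, k⟩ := adj E F hz (t := fun i => evL (fa z a) (CW j (i + 2))) fun i hi => by
    refine eq_of_co E F (E.nrm _ hz _ (F.mem i hi)) (ev_mem E F _) ?_
    rw [co_ev E F, (hCW j hj (i + 2) (by omega) (by omega)).2.2, ← co_fa E F, fa_a hi,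
      co_conj E F hz (F.mem i hi), ← rho_val E F c ⟨_, co_lt a _⟩]
    refine (congrArg (fun σ : Equiv.Perm (Fin 256) => (σ ⟨_, co_lt a (a i)⟩ : ℕ)) hr).trans ?_
    rw [MM_apply (by norm_num) (by omega)]
    exact Nat.mod_eq_of_lt (invM 0 (by norm_num) _ (by omega) ⟨_, co_lt a _⟩).2
  let p' : centralizer ({z} : Set G) := ⟨p, mem_cen.mpr (E.qz p hp)⟩
  refine ⟨c * p', by rw [map_mul, hc, (h.ker p').mpr hp, mul_one], ?_⟩
  refine mem_NN E F (mem_cen.mp (c * p').2) fun i hi h1 => ?_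
  obtain ⟨k1, k2, -⟩ := hCW j hj i hi h1
  refine ⟨_, k1, ?_, by simpa [evL_singleton] using eqw_conj k2⟩
  by_cases e : i = 1
  · have : ∀ j < 7, CW j 1 = [1] := by decide +kernel
    rw [e, this j hj, evL_singleton]
    exact mul_inv_eq_iff_eq_mul.mpr (mem_cen.mp (c * p').2)
  · obtain ⟨i, rfl⟩ : ∃ j, i = j + 2 := ⟨i - 2, by omega⟩
    rw [fa_a (by omega)]
    exact k i (by omega)

omit h in
theorem sp_ind {K : Subgroup Sp} (k : ∀ i < 7, Co3G.evM (2 * i + 1) ∈ K) (y : Sp) : y ∈ K := by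
  have : gen Co3G.evM Co3G.X7 ≤ K := gen_le fun w hw => by
    have e : ∀ w ∈ Co3G.X7, ∃ i < 7, w = [2 * i + 1] := by decide
    obtain ⟨i, hi, rfl⟩ := e w hw
    rw [evL_singleton]
    exact k i hi
  exact this (Co3G.gen_Sp ▸ mem_top y)

omit h in
theorem sq3 : ∀ v < 256, new (Co.Rc.bw v ++ [10, 11] ++ Co.Rc.bw v ++ [11, 10]) [1] = true ∧
    new (1 :: Co.Rc.bw v ++ [10, 11] ++ 1 :: Co.Rc.bw v ++ [11, 10]) [1] = true := by decide +kernel

theorem exists_gr {p : centralizer ({z} : Set G)} (hp : p * p = 1) 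
    (h3 : ∃ y, y * π p * y⁻¹ = evL Co3G.evM [1, 3]) :
    ∃ Γ g, Gr z a π Γ g := by
  have E := h.es
  have F : Fr z Q false a := h.fr
  obtain ⟨σ0, h0⟩ := exists_s0
  let H : Subgroup (centralizer ({z} : Set G)) :=
    (NN E F).comap ((Subgroup.subtype _).prod (σ0.comp π))
  let z' : centralizer ({z} : Set G) := ⟨z, mem_cen.mpr rfl⟩
  have pz : π z' = 1 := (h.ker z').mpr E.zQ
  have zH : z' ∈ H := by
    change (z, σ0 (π z')) ∈ NN E F
    rw [pz, map_one]
    exact z_NN E F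
  have dc : Dc (π.comp H.subtype) ⟨z', zH⟩ := by
    refine ⟨MonoidHom.range_eq_top.mp (eq_top_iff.mpr fun y _ => sp_ind (fun j hj => ?_) y),
      Subtype.ext (Subtype.ext E.zz), fun x => Subtype.ext (Subtype.ext (mem_cen.mp x.1.2)),
      fun x hx => ?_, pz⟩
    · obtain ⟨c, k1, k2⟩ := exists_lift h hj
      refine ⟨⟨c, ?_⟩, k1⟩
      change (c.1, σ0 (π c)) ∈ NN E F
      rwa [k1, h0 j hj]
    · have : (x.1.1, σ0 (π x.1)) ∈ NN E F := x.2
      rw [show π x.1 = 1 from hx, map_one] at this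
      exact (NN_K E F this).imp (fun e => Subtype.ext (Subtype.ext e))
        fun e => Subtype.ext (Subtype.ext e)
  obtain ⟨u, hu⟩ := dc.surj (evL Co3G.evM [1, 3])
  have u2 : u * u = 1 := by
    have hu' : π u.1 = evL Co3G.evM [1, 3] := hu
    obtain ⟨y, hy⟩ := h3
    obtain ⟨y, rfl⟩ := h.surj y
    have k1 : π (y * p * y⁻¹) = π u.1 := by rw [hu', map_mul, map_mul, map_inv]; exact hy
    have k2 : y * p * y⁻¹ * (y * p * y⁻¹) = 1 := by
      calc _ = y * (p * p) * y⁻¹ := by group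
        _ = 1 := by rw [hp]; group
    generalize y * p * y⁻¹ = p at k1 k2
    have k3 : (p * u.1⁻¹).1 ∈ Q := (h.ker _).mp (by rw [map_mul, map_inv, k1, mul_inv_cancel])
    refine (dc.ker (u * u) (by
      rw [map_mul, hu, ← evL_append]; exact Co3G.oraM _ (by decide +kernel))).resolve_right fun c => ?_
    have c' : u.1.1 * u.1.1 = z := congrArg (fun x : H => x.1.1) c
    have k4 : (u.1.1, evL P.ev [10, 11]) ∈ NN E F := by
      have : (u.1.1, σ0 (π u.1)) ∈ NN E F := u.2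
      rwa [hu', evL_cons, evL_singleton, map_mul, h0 0 (by norm_num), h0 1 (by norm_num),
        ← evL_singleton P.ev (10 + 1), ← evL_cons] at this
    have k5 : ∀ w, inR 10 w = true → (p * u.1⁻¹).1 = evL (fa z a) w →
        evL P.ev (w ++ [10, 11] ++ w ++ [11, 10]) = evL P.ev [1] := fun w hw e => by
      have m := mem_Qh E F hw
      have m2 := mul_mem (inv_mem (mem_Qh E F (w := [1]) rfl)) (mul_mem m (NN_nrm E F k4 m))
      have e1 : (evL (fa z a) [1])⁻¹ * (evL (fa z a) w * (u.1.1 * evL (fa z a) w * u.1.1⁻¹)) = 1 := by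
        have k2' : p.1 * p.1 = 1 := congrArg Subtype.val k2
        rw [← e, evL_singleton, show fa z a 1 = z from rfl]
        calc _ = z⁻¹ * (p.1 * p.1) * (u.1.1 * u.1.1)⁻¹ := by
              simp only [coe_mul, coe_inv]; group
          _ = 1 := by rw [k2', c', E.zinv, mul_one, E.zz]
      rw [Prod.inv_mk, Prod.inv_mk, Prod.mk_mul_mk, Prod.mk_mul_mk, Prod.mk_mul_mk, Prod.mk_mul_mk,
        e1] at m2
      have := Qh_fst E F m2
      rw [inv_mul_eq_one] at this
      rw [this, evL_append, evL_append, evL_append, ← ev_rev]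
      simp only [mul_assoc]
      rfl
    obtain ⟨v, hv, e | e⟩ := nfw E F k3
    · exact new_spec (sq3 v hv).1 (k5 _ (bw_inR v hv) e)
    · exact new_spec (sq3 v hv).2 (k5 (1 :: bw v) (bw_inR v hv) e)
  obtain ⟨σ, hσ⟩ := dc_split dc u2 (Or.inr hu)
  have hσ' : ∀ y, π (σ y).1 = y := hσ
  let τ : Sp →* G × Grp := ((Subgroup.subtype _).comp (H.subtype.comp σ)).prod σ0
  have τN : ∀ y, τ y ∈ NN E F := fun y => by
    have : ((σ y).1.1, σ0 (π (σ y).1)) ∈ NN E F := (σ y).2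
    rwa [hσ'] at this
  let Γ : Subgroup (G × Grp) :=
    { carrier := {d | ∃ y, ∃ q ∈ Qh E F, d = q * τ y}
      one_mem' := ⟨1, 1, one_mem _, by simp⟩
      mul_mem' := by
        rintro _ _ ⟨x, q, hq, rfl⟩ ⟨y, r, hr, rfl⟩
        exact ⟨x * y, _, mul_mem hq (NN_nrm E F (τN x) hr), by rw [map_mul]; group⟩
      inv_mem' := by
        rintro _ ⟨x, q, hq, rfl⟩
        exact ⟨x⁻¹, _, NN_nrm E F (τN x⁻¹) (inv_mem hq), by rw [map_inv]; group⟩ }
  have ky : ∀ y, ∀ q ∈ Qh E F, (q * τ y).1 ∈ Q → y = 1 := fun y q hq c => by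
    rw [← hσ' y, h.ker]
    exact (Q.mul_mem_cancel_left (Qh_mem E F hq)).mp c
  let g0 : ℕ → G := fun l => if l < 10 then fa z a l else (τ (Co3G.evM (2 * (l - 10) + 1))).1
  have m0 : ∀ l < 17, 1 ≤ l → pr2 g0 l ∈ Γ := fun l hl h1 => by
    by_cases c : l < 10
    · refine ⟨1, _, mem_Qh E F (w := [l]) (inR_iff.mpr (by simp; omega)), ?_⟩
      rw [map_one, mul_one, evL_singleton, evL_singleton]
      exact Prod.ext (if_pos c) rfl
    · refine ⟨Co3G.evM (2 * (l - 10) + 1), 1, one_mem _, ?_⟩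
      rw [one_mul]
      refine Prod.ext (if_neg c) ?_
      change P.ev l = σ0 _
      rw [h0 _ (by omega), show 10 + (l - 10) = l by omega]
  have g1 : ∀ l < 17, 1 ≤ l → evL g0 (DW l) = g0 l := fun l hl h1 => by
    rw [((hDW l (by omega)).2.2 hl).resolve_left (by omega), evL_singleton]
  refine ⟨Γ, fun l => evL g0 (DW l), ?_, ?_, ?_, fun c hc => ?_, fun l hl => ?_, fun K hK => ?_,
    fun l hl => ?_, fun j hj hc => ?_⟩
  · rintro c ⟨y, q, hq, e⟩
    have k := mul_mem (Qh_le E F hq) (τN y)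
    rw [← e] at k
    have := ky y q hq (by
      rw [← e]
      rcases NN_K E F k with c | c <;> rw [c]
      exacts [Q.one_mem, E.zQ])
    rw [this, map_one, mul_one] at e
    exact Qh_snd E F (e ▸ hq)
  · rintro c ⟨y, q, hq, e⟩
    have := ky y q hq (by rw [← e]; exact Q.one_mem)
    rw [this, map_one, mul_one] at e
    exact Qh_fst E F (e ▸ hq)
  · rintro _ ⟨y, q, hq, rfl⟩
    exact NN_cen E F (mul_mem (Qh_le E F hq) (τN y))
  · let c' : centralizer ({z} : Set G) := ⟨c, mem_cen.mpr hc⟩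
    have k : (c' * (σ (π c')).1⁻¹).1 ∈ Q :=
      (h.ker _).mp (by rw [map_mul, map_inv, hσ', mul_inv_cancel])
    obtain ⟨q0, hq⟩ := exists_Qh E F k
    exact ⟨_, π c', _, hq, Prod.ext (inv_mul_cancel_right c _).symm rfl⟩
  · obtain ⟨k1, k2, -⟩ := hDW l hl
    have := evL_mem_of_letters (K := Γ) (ev := pr2 g0) (w := DW l) fun x hx =>
      m0 x (inR_spec k1 x hx).2 (inR_spec k1 x hx).1
    rw [evL_pr2] at this
    rcases k2 with rfl | k2
    · rw [hev.zero]
      exact one_mem _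
    · rwa [← eqw_spec k2, evL_singleton] at this
  · rintro _ ⟨y, q, ⟨w, hw, rfl⟩, rfl⟩
    refine mul_mem (evL_mem_of_letters fun l hl => ?_) (sp_ind (K := K.comap τ) (fun j hj => ?_) y)
    · have k := inR_spec hw l hl
      have := hK l (by omega)
      rwa [g1 l (by omega) k.1, show g0 l = fa z a l from if_pos k.2] at this
    · have := hK (10 + j) (by omega)
      rw [g1 _ (by omega) (by omega), show g0 (10 + j) = _ from if_neg (by omega), ← h0 j hj,
        Nat.add_sub_cancel_left] at this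
      exact this
  · by_cases c : l = 0
    · rw [c]; rfl
    · rw [g1 l (by omega) (by omega)]
      exact if_pos hl
  · rw [← hσ' (Co3G.evM (2 * j + 1))]
    refine congrArg π (Subtype.ext ?_)
    change evL g0 (DW (10 + j)) = _
    rw [g1 _ (by omega) (by omega), show g0 (10 + j) = _ from if_neg (by omega),
      Nat.add_sub_cancel_left]
    rfl

end Cfsg.Co2
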