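import Cfsg.Agent.Co2.S5

/-! The configuration of two commuting conjugate involutions. -/

set_option autoImplicit false

namespace Cfsg.Co2

open Subgroup Cfsg.H6 Cfsg.Co.Rc
open Cfsg.Co3G (Sp)

/-- The central involution of the group of type `D₄`. -/
def d4 : List ℕ := [3, 5, 7, 3, 5, 7, 9, 7, 3, 5, 7, 9]

/-- The other involutions of the extraspecial subgroup of the group of type `D₄`. -/
def AS : List (List ℕ) := [[3, 7, 3, 9, 7, 3], [5, 7, 3, 9, 7, 5], [5, 7, 3, 5, 7, 9, 7, 3, 5, 7],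
  [3, 9], [3, 5, 7, 3, 9, 7, 3, 5], [7, 3, 9, 7], [9, 7, 3, 5, 7, 9], [3, 5, 7, 3, 5, 7],
  [5, 7, 5, 9, 7, 5], [3, 7, 5, 9, 7, 3], [7, 3, 5, 7, 9, 7, 3, 5, 7, 9], [3, 5], [5, 9],
  [3, 7, 3, 5, 7, 9, 7, 3, 5, 7], [7, 3, 5, 7], [3, 5, 9, 7, 3, 5, 7, 9], [3, 5, 7, 5, 9, 7, 3, 5],
  [7, 5, 9, 7]]

/-- The commutator space of `d4`. -/
def W4 : List ℕ := [0, 12, 230, 234]

variable {G : Type*} [Group G] [Finite G]

/-- Two commuting conjugate involutions, each over the second class in the other's chart. -/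
structure Sit (z s : G) (Q Q' : Subgroup G) (a a' : ℕ → G)
    (π : centralizer ({z} : Set G) →* Sp) (π' : centralizer ({s} : Set G) →* Sp) : Prop where
  h : Ch 0 z Q a π
  h' : Ch 0 s Q' a' π'
  e : s * z = z * s
  ne : s ≠ z
  cj : IsConj z s
  k : π ⟨s, mem_cen.mpr e⟩ = evL Co3G.evM d4
  k' : π' ⟨z, mem_cen.mpr e.symm⟩ = evL Co3G.evM d4

end Cfsg.Co2
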