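import Cfsg.Agent.Co2.B0

/-! Properties of the configuration of two commuting conjugate involutions. -/

set_option autoImplicit false
set_option maxRecDepth 100000
set_option synthInstance.maxSize 4096
set_option linter.unusedSectionVars false

namespace Cfsg.Co2

open Subgroup Cfsg.H6 Cfsg.Co.Rc
open Cfsg.Co3G (Sp)

/-- A basis of singular vectors of the fixed space of `d4`. -/
def Kb : List ℕ := [1, 6, 10, 16, 36, 194]

/-- Six involutions that centralise the images of `P`. -/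
def J6 : List ℕ := [3428, 3429, 5102, 4154, 3735, 3734]

theorem fP : ∀ i < 5104, (∀ v ∈ Kb, v ^^^ ap8 (LM i) v ∈ W4) →
    (∀ j ∈ J6, ∀ v ∈ b8, ap8 (LM i) (ap8 (LM j) v) = ap8 (LM j) (ap8 (LM i) v)) ∧
    ((∀ v ∈ b8, ap8 (LM i) v = v) ∨ (∀ v ∈ b8, ap8 (LM i) v = tM d4 v) ∨
      (∃ w ∈ AS, ∀ v ∈ b8, ap8 (LM i) v = tM w v) ∨
      ∃ j ∈ J6, ∀ v ∈ b8, pr3 (LM i) ([3, 7], [7, 3]) v = ap8 (LM j) v) ∧
    ((∀ v ∈ Kb, ap8 (LM i) v = v) → i ∈ [4155, 5103]) :=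
  chkL_spec (P := fun i A => (∀ v ∈ Kb, v ^^^ ap8 A v ∈ W4) →
    (∀ j ∈ J6, ∀ v ∈ b8, ap8 A (ap8 (LM j) v) = ap8 (LM j) (ap8 A v)) ∧
    ((∀ v ∈ b8, ap8 A v = v) ∨ (∀ v ∈ b8, ap8 A v = tM d4 v) ∨
      (∃ w ∈ AS, ∀ v ∈ b8, ap8 A v = tM w v) ∨
      ∃ j ∈ J6, ∀ v ∈ b8, pr3 A ([3, 7], [7, 3]) v = ap8 (LM j) v) ∧
    ((∀ v ∈ Kb, ap8 A v = v) → i ∈ [4155, 5103])) (by decide +kernel)

theorem cl_d4 : Cl (evL Co3G.evM d4) 2 := by
  have := Co3G.oraM ([11, 13, 1, 5, 7, 9, 11, 3, 7, 9, 5, 7, 1, 5, 3, 7, 9, 11, 5, 7, 1, 5, 3, 7].reverse ++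
    d4 ++ [11, 13, 1, 5, 7, 9, 11, 3, 7, 9, 5, 7, 1, 5, 3, 7, 9, 11, 5, 7, 1, 5, 3, 7].reverse.reverse ++
    (rep 2).reverse) (by decide +kernel)
  rw [evL_append, evL_append, evL_append, evL_rev (rep 2), evL_rev (List.reverse _),
    mul_inv_eq_one] at this
  exact ⟨_, this⟩

variable {G : Type*} [Group G] [Finite G] {z s : G} {Q Q' : Subgroup G} {a a' : ℕ → G}
  {π : centralizer ({z} : Set G) →* Sp} {π' : centralizer ({s} : Set G) →* Sp}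

section
variable (h : Ch 0 z Q a π)
include h

theorem reD {x : centralizer ({z} : Set G)} (hx : Cl (π x) 2) :
    ∃ a' π', Ch 0 z Q a' π' ∧ π' x = evL Co3G.evM d4 := by
  obtain ⟨y, hy⟩ := hx
  obtain ⟨u, hu⟩ := cl_d4
  obtain ⟨c, hc⟩ := h.surj (u⁻¹ * y)
  obtain ⟨a', π', h1, -, h2⟩ := h.re c
  refine ⟨a', π', h1, ?_⟩
  rw [h2, hc, show u⁻¹ * y * π x * (u⁻¹ * y)⁻¹ = u⁻¹ * (y * π x * y⁻¹) * u by group, hy, ← hu]
  group

theorem cl_ne {u : G} (hu : u * z = z * u) {k : ℕ} (hk : k = 2 ∨ k = 4)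
    (c : Cl (π ⟨u, mem_cen.mpr hu⟩) k) : u ≠ z := by
  rintro rfl
  obtain ⟨a, π, h, l, -⟩ := h.reC c
  have := rc_rep h l h.es.zz 16 (by norm_num)
  rw [rc_Q h.es h.fr h.es.zQ (by norm_num)] at this
  rcases hk with rfl | rfl <;> exact absurd this (by decide +kernel)

theorem nz4 {u : G} (hu : u * z = z * u) (c : Cl (π ⟨u, mem_cen.mpr hu⟩) 4) : ¬ IsConj z u :=
  fun k => by
    obtain ⟨g, rfl⟩ := isConj_iff.mp k
    obtain ⟨Q', a', π', h', -⟩ := h.conj g rfl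
    exact not4 h hu h' (cl_ne h hu (Or.inr rfl) c) k c

theorem nz2' {u : G} (hu : u * z = z * u) (c : Cl (π ⟨u, mem_cen.mpr hu⟩) 2) (k : IsConj z u) :
    ¬ IsConj z (z * u) := fun l => by
  have ne := cl_ne h hu (Or.inl rfl) c
  obtain ⟨g, rfl⟩ := isConj_iff.mp k
  obtain ⟨Q', a', π', h', -⟩ := h.conj g rfl
  obtain ⟨a, π, h, m, -⟩ := h.reC c
  have hT := rc_rep h m h'.es.zz
  exact not_half h hu h' ne k hT (l.symm.trans k)

theorem nz2 {u : G} (hu : u * z = z * u) (c : Cl (π ⟨u, mem_cen.mpr hu⟩) 2) {q : G} (hq : q ∈ Q)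
    (e : u * q = z * (q * u)) : ¬ IsConj z u := fun k =>
  nz2' h hu c k (k.trans (isConj_iff.mpr ⟨q⁻¹, by
    rw [inv_inv, mul_assoc, e, ← mul_assoc, h.es.qz _ (inv_mem hq)]; group⟩))

theorem fullG {u : G} (hu : u * z = z * u) (c : Cl (π ⟨u, mem_cen.mpr hu⟩) 2) (k : IsConj z u)
    {v : ℕ} (hv : v < 256) (l : rc z a u v = v) : cz a Q u v :=
  by_contra fun n => nz2' h hu c k (k.trans (conj_zs h hu hv l n).symm)

theorem rc_d4 {c : centralizer ({z} : Set G)} (hc : π c = evL Co3G.evM d4) :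
    ∀ v < 256, rc z a c v = tM d4 v :=
  rc_word h (by decide) (hc.trans (eq_inv_of_mul_eq_one_left (by
    rw [← evL_append]; exact Co3G.oraM _ (by decide +kernel))))

theorem rc_ext {c d : G} (hc : c * z = z * c) (hd : d * z = z * d)
    (k : ∀ v ∈ b8, rc z a c v = rc z a d v) : c * d⁻¹ ∈ Q := by
  refine (rho_eq_one h.es h.fr (c := ⟨c, mem_cen.mpr hc⟩ * (⟨d, mem_cen.mpr hd⟩ :
    centralizer ({z} : Set G))⁻¹)).mp ?_
  rw [map_mul, map_inv, mul_inv_eq_one]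
  ext v
  rw [rho_val, rho_val]
  exact lin_ext (fun _ hu _ hv => rc_xor h.es h.fr hc hu hv) (fun _ hu _ hv => rc_xor h.es h.fr hd hu hv)
    k v v.2

theorem conj_Q (e : s * z = z * s) {p : G} (hp : p ∈ Q) {u : ℕ} (hu : u < 256)
    (k : co a p = u ^^^ rc z a s u) : ∃ x ∈ Q, x * s * x⁻¹ = p * s ∨ x * (z * s) * x⁻¹ = p * s := by
  obtain ⟨q, hq, rfl⟩ := exv h hu
  obtain ⟨h1, h2⟩ := co_n h e hq
  refine ⟨q, hq, ?_⟩
  rcases eq_of_co h.es h.fr hp h1 (k.trans h2.symm) with rfl | rfl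
  · exact Or.inl (by group)
  · refine Or.inr ?_
    rw [← mul_assoc q, h.es.qz q hq]
    group

theorem exists_sit {g0 : G} (e : g0 * z * g0⁻¹ * z = z * (g0 * z * g0⁻¹)) (ne : g0 * z * g0⁻¹ ≠ z) :
    ∃ s Q' a a' π π', Sit z s Q Q' a a' π π' := by
  obtain ⟨g, hs, hs', k, k'⟩ := good h e ne
  obtain ⟨Q', a', π', h', -, -, h4⟩ := h.conj g rfl
  have c : Cl (π ⟨_, hs⟩) 2 := ⟨1, by simpa using k⟩
  obtain ⟨a1, π1, h1, k1⟩ := reD h c
  obtain ⟨a2, π2, h2, k2⟩ := reD h' (x := ⟨z, mem_cen.mpr (mem_cen.mp hs).symm⟩)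
    ⟨1, by rw [h4 ⟨_, hs'⟩ _ (by simp [mul_assoc]), k']; simp⟩
  exact ⟨_, Q', a1, a2, π1, π2, h1, h2, mem_cen.mp hs, cl_ne h (mem_cen.mp hs) (Or.inl rfl) c,
    isConj_iff.mpr ⟨g, rfl⟩, k1, k2⟩

end

namespace Sit

variable (S : Sit z s Q Q' a a' π π')
include S

theorem symm : Sit s z Q' Q a' a π' π := ⟨S.h', S.h, S.e.symm, S.ne.symm, S.cj.symm, S.k', S.k⟩

theorem cl : Cl (π ⟨s, mem_cen.mpr S.e⟩) 2 := S.k ▸ cl_d4

theorem hT : ∀ v < 256, rc z a s v = tM d4 v := by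
  have := rc_d4 S.h S.k
  exact this

theorem zn : z ∉ Q' := Co2.zn S.h S.e S.h' S.ne S.cj

theorem czK {v : ℕ} (hv : v < 256) (k : tM d4 v = v) : cz a Q s v :=
  fullG S.h S.e S.cl S.cj hv ((S.hT v hv).trans k)

theorem czB : ∀ v ∈ Kb, v < 256 ∧ qf false v = false ∧ cz a Q s v := fun v hv => by
  have : ∀ v ∈ Kb, v < 256 ∧ qf false v = false ∧ tM d4 v = v := by decide +kernel
  exact ⟨(this v hv).1, (this v hv).2.1, S.czK (this v hv).1 (this v hv).2.2⟩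

theorem full {q : G} (hq : q ∈ Q) : q * s = s * q ↔ tM d4 (co a q) = co a q :=
  ⟨fun k => by rw [← S.hT _ (co_lt _ _), ← co_conj S.h.es S.h.fr S.e hq, ← k, mul_inv_cancel_right],
    fun k => S.czK (co_lt _ _) k q hq rfl⟩

omit S in
theorem perpK : ∀ u < 256, (∀ v ∈ Kb, bf u v = false) → u ∈ W4 := by decide +kernel

theorem R_W {r : G} (hr : r ∈ Q) (hr' : r ∈ Q') : co a r ∈ W4 :=
  perpK _ (co_lt _ _) fun v hv => R_bf S.h S.h' S.e S.zn hr hr' (S.czB v hv).1 (S.czB v hv).2.2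

theorem R_zero {r : G} (hr : r ∈ Q) (hr' : r ∈ Q') (k : co a r = 0) : r = 1 :=
  (eq_of_co_zero S.h.es S.h.fr hr k).resolve_right fun l => S.zn (l ▸ hr')

/-- Elements of the symplectic group that commute with `d4` lift to the centraliser of both. -/
theorem exX {γ : Sp} (hγ : γ * evL Co3G.evM d4 = evL Co3G.evM d4 * γ) :
    ∃ x, ∃ xz : x * z = z * x, x * s = s * x ∧ π ⟨x, mem_cen.mpr xz⟩ = γ := by
  obtain ⟨c, rfl⟩ := S.h.surj γ
  have k : π (c * ⟨s, mem_cen.mpr S.e⟩ * c⁻¹) = evL Co3G.evM d4 := by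
    rw [map_mul, map_mul, map_inv, S.k, hγ, mul_inv_cancel_right]
  have tz := mem_cen.mp (c * ⟨s, mem_cen.mpr S.e⟩ * c⁻¹).2
  have c1 : IsConj z (c.1 * s * c.1⁻¹) := S.cj.trans (isConj_iff.mpr ⟨_, rfl⟩)
  have hq : c.1 * s * c.1⁻¹ * s⁻¹ ∈ Q := (S.h.ker (c * ⟨s, mem_cen.mpr S.e⟩ * c⁻¹ *
    (⟨s, mem_cen.mpr S.e⟩ : centralizer ({z} : Set G))⁻¹)).mp (by
      rw [map_mul, k, map_inv, S.k, mul_inv_cancel])
  have hW := perpK _ (co_lt a (c.1 * s * c.1⁻¹ * s⁻¹)) fun v hv => by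
    obtain ⟨v1, -, v2⟩ := S.czB v hv
    obtain ⟨b, hb, rfl⟩ := exv S.h v1
    refine (comm_iff S.h hq hb).mp ?_
    have b1 := v2 b hb rfl
    have b2 := fullG S.h tz (k ▸ cl_d4) c1 v1 ((rc_d4 S.h k _ v1).trans ((S.full hb).mp b1)) b hb rfl
    exact (mem_cen.mp (mul_mem (mem_cen.mpr b2.symm) (inv_mem (mem_cen.mpr b1.symm)))).symm
  have : ∀ w ∈ W4, ∃ u < 256, w = u ^^^ tM d4 u := by decide +kernel
  obtain ⟨u, u1, u2⟩ := this _ hW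
  obtain ⟨x, hx, l | l⟩ := conj_Q S.h S.e hq u1 (by rw [S.hT u u1, ← u2]) <;>
    rw [inv_mul_cancel_right] at l
  · have xz := mem_cen.mpr (S.h.es.qz x hx)
    refine ⟨x⁻¹ * c, mem_cen.mp (mul_mem (inv_mem xz) c.2), ?_, ?_⟩
    · calc _ = x⁻¹ * (c.1 * s * c.1⁻¹) * c := by group
        _ = _ := by rw [← l]; group
    · have := (S.h.ker ⟨x, xz⟩).mpr hx
      rw [← one_mul (π c), ← inv_one, ← this, ← map_inv, ← map_mul]
      rfl
  · exact absurd (c1.trans (isConj_iff.mpr ⟨x, l⟩ : IsConj (z * s) _).symm) (nz2' S.h S.e S.cl S.cj)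

theorem ex3 : ∃ x, x * z = z * x ∧ x * s = s * x ∧ (∀ v < 256, rc z a x v = tM [3, 7] v) ∧
    ∀ v < 256, rc z a x⁻¹ v = tM [7, 3] v := by
  obtain ⟨x, xz, xs, k⟩ := S.exX (γ := evL Co3G.evM [7, 3]) (by
    have := Co3G.oraM ([7, 3] ++ d4 ++ (d4 ++ [7, 3]).reverse) (by decide +kernel)
    rwa [evL_append, evL_rev, mul_inv_eq_one, evL_append, evL_append] at this)
  exact ⟨x, xz, xs, rc_word S.h (c := ⟨x, mem_cen.mpr xz⟩) (by decide) (k.trans (evL_rev [3, 7])),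
    rc_word S.h (c := (⟨x, mem_cen.mpr xz⟩ : centralizer ({z} : Set G))⁻¹) (by decide)
      (by rw [map_inv, k])⟩

theorem lst {p : G} (hp : p ∈ Q') (pz : p * z = z * p) {i : ℕ}
    (k : ∀ v < 256, rc z a p v = ap8 (LM i) v) :
    ∀ v ∈ Kb, ∃ r ∈ Q, r ∈ Q' ∧ co a r = v ^^^ ap8 (LM i) v := fun v hv => by
  rw [← k v (S.czB v hv).1]
  exact mvR S.h S.h' S.e hp pz (S.czB v hv).1 (S.czB v hv).2.2

theorem lstW {p : G} (hp : p ∈ Q') (pz : p * z = z * p) {i : ℕ}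
    (k : ∀ v < 256, rc z a p v = ap8 (LM i) v) : ∀ v ∈ Kb, v ^^^ ap8 (LM i) v ∈ W4 := fun v hv => by
  obtain ⟨r, r1, r2, r3⟩ := S.lst hp pz k v hv
  exact r3 ▸ S.R_W r1 r2

theorem R_full : ∀ w ∈ W4, ∃ r ∈ Q, r ∈ Q' ∧ co a r = w := fun w hw => by
  classical
  obtain ⟨r, r1, r2, r3⟩ : ∃ r ∈ Q, r ∈ Q' ∧ co a r ≠ 0 := by
    by_contra n
    replace n : ∀ r ∈ Q, r ∈ Q' → co a r = 0 := fun r r1 r2 => by_contra fun l => n ⟨r, r1, r2, l⟩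
    obtain ⟨T, T1, -, T2⟩ := bigS S.h' S.e.symm S.h.es.zz S.zn
    have := pig S.h (F := {1}) (fun p hp => (T2 p hp).2.1) (fun p hp => (T2 p hp).2.2)
      (fun p hp p' hp' k => by
        have m := mul_mem (inv_mem (T2 p hp).1) (T2 p' hp').1
        exact Finset.mem_singleton.mpr (S.R_zero k m (n _ k m))) fun p hp i hi k _ =>
      (fP i hi (S.lstW (T2 p hp).1 (T2 p hp).2.1 k)).2.2 fun v hv => by
        obtain ⟨r, r1, r2, r3⟩ := S.lst (T2 p hp).1 (T2 p hp).2.1 k v hv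
        exact (Nat.eq_of_xor_eq_zero (r3.symm.trans (n r r1 r2))).symm
    simp only [List.length_cons, List.length_nil, Finset.card_singleton] at this
    omega
  obtain ⟨x, xz, xs, x1, x2⟩ := S.ex3
  have xz' := mem_cen.mp (inv_mem (mem_cen.mpr xz))
  have : ∀ u ∈ W4, ∀ w ∈ W4, u = 0 ∨ w = 0 ∨ u = w ∨ tM [3, 7] u = w ∨ tM [7, 3] u = w := by
    decide +kernel
  rcases this _ (S.R_W r1 r2) w hw with l | rfl | l | l | l
  · exact absurd l r3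
  · exact ⟨1, one_mem _, one_mem _, co_one⟩
  · exact ⟨r, r1, r2, l⟩
  · exact ⟨_, S.h.es.nrm _ xz _ r1, S.h'.es.nrm _ xs _ r2,
      by rw [co_conj S.h.es S.h.fr xz r1, x1 _ (co_lt _ _), l]⟩
  · exact ⟨_, S.h.es.nrm _ xz' _ r1, S.h'.es.nrm _ (mem_cen.mp (inv_mem (mem_cen.mpr xs))) _ r2,
      by rw [co_conj S.h.es S.h.fr xz' r1, x2 _ (co_lt _ _), l]⟩

theorem mem_W {q : G} (hq : q ∈ Q') (k : co a' q ∈ W4) : q ∈ Q ∨ q * s ∈ Q := by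
  obtain ⟨r, r1, r2, r3⟩ := S.symm.R_full _ k
  rcases eq_of_co S.h'.es S.h'.fr hq r1 r3.symm with rfl | rfl
  · exact Or.inl r2
  · refine Or.inr ?_
    rwa [mul_assoc, S.h'.es.qz r r1, S.h'.es.zzm]

theorem ZP {q : G} (hq : q ∈ Q') (h : ∀ p ∈ Q', p * z = z * p → p * p = 1 → q * p = p * q) :
    q ∈ Q ∨ q * s ∈ Q :=
  S.mem_W hq (perpK _ (co_lt _ _) fun v hv => by
    obtain ⟨v1, v2, v3⟩ := S.symm.czB v hv
    obtain ⟨p, hp, rfl⟩ := exv S.h' v1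
    exact (comm_iff S.h' hq hp).mp (h p hp (v3 p hp rfl) ((sq_iff S.h' hp).mpr v2)).symm)

theorem inv_P {p : G} (hp : p ∈ Q') (pz : p * z = z * p) (h2 : p * p = 1) : p ∈ Q ∨ p * s ∈ Q ∨
    ∃ w ∈ AS, π ⟨p, mem_cen.mpr pz⟩ = evL Co3G.evM w := by
  have h := S.h
  have b1 : ∀ v ∈ b8, v < 256 := by decide
  have k0 : ∀ {u : G}, u * z = z * u → (∀ v ∈ b8, rc z a u v = tM d4 v) → u * s ∈ Q := fun uz k => by
    have := rc_ext h uz S.e fun v hv => by rw [k v hv, S.hT v (b1 v hv)]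
    rwa [inv_eq_of_mul_eq_one_right S.h'.es.zz] at this
  obtain ⟨i, hi, k, -⟩ := exL h pz (h2 ▸ one_mem _)
  rcases (fP i hi (S.lstW hp pz k)).2.1 with l | l | ⟨w, hw, l⟩ | ⟨j, hj, l⟩
  · exact Or.inl (by
      simpa using rc_ext h pz (d := 1) (by simp) fun v hv => by
        rw [k v (b1 v hv), l v hv, rc_Q h.es h.fr (one_mem _) (b1 v hv)])
  · exact Or.inr (Or.inl (k0 pz fun v hv => by rw [k v (b1 v hv), l v hv]))
  · refine Or.inr (Or.inr ⟨w, hw, ?_⟩)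
    obtain ⟨c, hc⟩ := h.surj (evL Co3G.evM w)⁻¹
    have := (h.ker (⟨p, mem_cen.mpr pz⟩ * c⁻¹)).mpr (rc_ext h pz (mem_cen.mp c.2) fun v hv => by
      rw [k v (b1 v hv), l v hv, rc_word h (by clear l hc; revert w; decide) hc v (b1 v hv)])
    rw [map_mul, map_inv, hc, inv_inv] at this
    rw [← inv_eq_of_mul_eq_one_right this, ← map_inv]
    exact congrArg π (Subtype.ext (inv_eq_of_mul_eq_one_right h2).symm)
  exfalso
  obtain ⟨c, c1, c2, c3, c4⟩ := S.ex3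
  have mp := mem_cen.mpr pz
  have mc := mem_cen.mpr c1
  have md := inv_mem mc
  have m1 := mul_mem (mul_mem mc mp) md
  have m2 := mul_mem (mul_mem md mp) (inv_mem md)
  have m3 := mem_cen.mp (mul_mem mp (mul_mem m1 m2))
  have m4 := mul_mem hp (mul_mem (S.h'.es.nrm _ c2 _ hp)
    (S.h'.es.nrm _ (mem_cen.mp (inv_mem (mem_cen.mpr c2))) _ hp))
  have k2 : ∀ v < 256, rc z a (p * (c * p * c⁻¹ * (c⁻¹ * p * c⁻¹⁻¹))) v = ap8 (LM j) v :=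
    lin_ext (fun _ hu _ hv => rc_xor h.es h.fr m3 hu hv) (fun _ _ _ _ => ap8_add _ _ _) fun v hv => by
      rw [rc_mul h.es h.fr pz (mem_cen.mp (mul_mem m1 m2)),
        rc_mul h.es h.fr (mem_cen.mp m1) (mem_cen.mp m2),
        rc_mul h.es h.fr (mem_cen.mp (mul_mem mc mp)) (mem_cen.mp md), rc_mul h.es h.fr c1 pz,
        rc_mul h.es h.fr (mem_cen.mp (mul_mem md mp)) (mem_cen.mp (inv_mem md)),
        rc_mul h.es h.fr (mem_cen.mp md) pz, inv_inv, k _ (rc_lt _ _), c3 _ (rc_lt _ _),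
        k _ (rc_lt _ _), c4 _ (rc_lt _ _), c4 _ (rc_lt _ _), k _ (rc_lt _ _), c3 _ (b1 v hv),
        ← l v hv]
      rfl
  generalize p * (c * p * c⁻¹ * (c⁻¹ * p * c⁻¹⁻¹)) = u at m3 m4 k2
  have fJ : ∀ j ∈ J6, (∃ v ∈ b8, ap8 (LM j) v ≠ v) ∧ ∃ v ∈ b8, ap8 (LM j) v ≠ tM d4 v := by
    decide +kernel
  obtain ⟨⟨v, v1, v2⟩, v', v3, v4⟩ := fJ j hj
  rcases S.ZP m4 fun x hx xz xx => by
    obtain ⟨i', hi', k', -⟩ := exL h xz (xx ▸ one_mem _)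
    refine (S.h'.es.comm x hx u m4).resolve_right fun n => S.symm.zn ?_
    have := rc_ext h (mem_cen.mp (mul_mem (mem_cen.mpr m3) (mem_cen.mpr xz)))
      (mem_cen.mp (mul_mem (mem_cen.mpr xz) (mem_cen.mpr m3))) fun v hv => by
        rw [rc_mul h.es h.fr m3 xz, rc_mul h.es h.fr xz m3, k2 _ (rc_lt _ _), k' _ (rc_lt _ _),
          k2 _ (b1 v hv), k' _ (b1 v hv), (fP i' hi' (S.lstW hx xz k')).1 j hj v hv]
    rwa [n, mul_inv_cancel_right] at this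
    with n | n
  · exact v2 ((k2 v (b1 v v1)).symm.trans (rc_Q h.es h.fr n (b1 v v1)))
  · refine v4 ?_
    have := rc_Q h.es h.fr n (rc_lt (z := z) (a := a) s v')
    rw [rc_mul h.es h.fr m3 S.e, ← rc_mul h.es h.fr S.e S.e, S.h'.es.zz,
      rc_Q h.es h.fr (one_mem _) (b1 v' v3)] at this
    rw [← k2 v' (b1 v' v3), this, S.hT v' (b1 v' v3)]

theorem ex_P : ∃ p ∈ Q', ∃ pz : p * z = z * p, p * p = 1 ∧
    ∃ w ∈ AS, π ⟨p, mem_cen.mpr pz⟩ = evL Co3G.evM w := by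
  obtain ⟨v1, v2, v3⟩ := S.symm.czB 1 (by decide)
  obtain ⟨p, hp, p1⟩ := exv S.h' v1
  have pz := v3 p hp p1
  have pp := (sq_iff S.h' hp).mpr (p1 ▸ v2)
  refine ⟨p, hp, pz, pp, ?_⟩
  rcases S.inv_P hp pz pp with l | l | l
  · exact absurd (p1 ▸ S.symm.R_W hp l) (by decide)
  · have := S.symm.R_W (mul_mem hp S.h'.es.zQ) l
    rw [co_mul S.h'.es S.h'.fr hp S.h'.es.zQ, co_z S.h'.es S.h'.fr, p1] at this
    exact absurd this (by decide)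
  · exact l

theorem ex_t {r1 r2 : G} (h1 : r1 ∈ Q) (h1' : r1 ∈ Q') (h2 : r2 ∈ Q) (h2' : r2 ∈ Q')
    (c1 : co a r1 = 230) (c2 : co a r2 = 12) :
    ∃ t ∈ Q', t * r1 = r1 * t ∧ t * r2 = s * (r2 * t) := by
  have : ∀ u ∈ W4, ∀ w ∈ W4, w ≠ 0 → u ^^^ w ≠ 0 → ∃ v < 256, bf u v = false ∧ bf w v = true := by
    decide +kernel
  obtain ⟨v, v1, v2, v3⟩ := this _ (S.symm.R_W h1' h1) _ (S.symm.R_W h2' h2) (fun l => by
    rw [S.symm.R_zero h2' h2 l, co_one] at c2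
    exact absurd c2 (by decide)) fun l => by
      rw [← co_mul S.h'.es S.h'.fr h1' h2'] at l
      have := congrArg (co a) (S.symm.R_zero (mul_mem h1' h2') (mul_mem h1 h2) l)
      rw [co_mul S.h.es S.h.fr h1 h2, c1, c2, co_one] at this
      exact absurd this (by decide)
  obtain ⟨t, ht, rfl⟩ := exv S.h' v1
  exact ⟨t, ht, (comm_iff S.h' h1' ht).mpr v2, (S.h'.es.comm r2 h2' t ht).resolve_left fun l => by
    simp [(comm_iff S.h' h2' ht).mp l] at v3⟩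

end Sit

end Cfsg.Co2
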