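import Cfsg.Agent.Co2.A1
import Cfsg.Agent.Co3.D

/-! The three modules of the symplectic group and charts. -/

set_option autoImplicit false
set_option maxRecDepth 100000

namespace Cfsg.Co2

open Subgroup Cfsg.H6 Cfsg.Co.Rc
open Cfsg.Co3G (Sp evM)

/-- The matrices of the letters: `0` spin, `1` and `2` with a fixed nonsingular vector. -/
noncomputable def RM (μ : ℕ) : ℕ → ℕ :=
  nthN (cond (Nat.beq μ 0) [9241421688590303745, 11619322601079638529, 11619322601079638529, 11628611979702505217, 11628611979702505217, 6303857486190281997, 6303857486190281997, 8505162315302853161, 8505162315302853161, 9603962601054929409, 9603962601054929409, 9250677198185387296, 9250677198185387296, 11847037635371798273, 11847037635371798273, 9241421688590303745]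
    (cond (Nat.beq μ 1) [9241421688590303745, 9313479871055528449, 9313479871055528449, 9385688609304347137, 9385688609304347137, 10394343193465586329, 10394343193465586329, 11619323018245090049, 11619323018245090049, 9713892830262592001, 9713892830262592001, 13853107708104540673, 13853107708104540673, 9569058561548616193, 9569058561548616193, 9241421688590303745]
      [9241421688590303745, 9313479321282937345, 9313479321282937345, 9385547871782437377, 9385547871782437377, 10394343193197150745, 10394343193197150745, 11619322467935595265, 11619322467935595265, 9677723295654609409, 9677723295654609409, 13853107707022410241, 13853107707022410241, 9533029764462543361, 9533029764462543361, 9241421688590303745]))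

/-- The type of the form. -/
def mt (μ : ℕ) : Bool := Nat.ble 2 μ

/-- The action of the letters on vectors. -/
noncomputable def imM (μ x p : ℕ) : ℕ := frc (fun A => ap8 A p) (RM μ x)

theorem invM : ∀ μ < 3, ∀ x < 16, ∀ v : Fin 256,
    fv (imM μ x (fv (imM μ x v))) = v ∧ imM μ x v < 256 := by
  decide +kernel

/-- The letters as permutations of the vectors. -/
noncomputable def MM (μ x : ℕ) : Equiv.Perm (Fin 256) :=
  if h : μ < 3 ∧ x < 16 then
    Function.Involutive.toPerm (fun v => fv (imM μ x v)) fun v => (invM μ h.1 x h.2 v).1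
  else 1

variable {μ : ℕ}

theorem MM_apply (hμ : μ < 3) {x : ℕ} (h : x < 16) (v : Fin 256) : MM μ x v = fv (imM μ x v) := by
  rw [MM, dif_pos ⟨hμ, h⟩]; rfl

theorem MM_mem (hμ : μ < 3) (x : ℕ) : MM μ x ∈ OG (mt μ) := by
  by_cases h : x < 16
  · have k : ∀ μ < 3, ∀ x < 16, ∀ v : Fin 256, qf (mt μ) (fv (imM μ x v)) = qf (mt μ) v := by
      decide +kernel
    refine ⟨fun u v => ?_, fun v => by rw [MM_apply hμ h, k μ hμ x h]⟩
    rw [MM_apply hμ h, MM_apply hμ h, MM_apply hμ h]
    unfold imM
    rw [frc_eq, frc_eq, frc_eq]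
    exact Fin.ext (ap8_xor _ _ _)
  · rw [MM, dif_neg fun e => h e.2]; exact one_mem _

theorem actM (hμ : μ < 3) : IsAct ph (MM μ) (imM μ) 256 16 := fun x _ h p hp => by
  have h1 := (invM μ hμ x h ⟨p, hp⟩).2
  refine ⟨?_, h1⟩
  have : (MM μ x)⁻¹ = MM μ x := by rw [MM, dif_pos ⟨hμ, h⟩]; rfl
  rw [← map_inv, this, ph_val _ ⟨p, hp⟩, MM_apply hμ h]
  exact Nat.mod_eq_of_lt h1

theorem evMM_mem (hμ : μ < 3) (w : List ℕ) : evL (MM μ) w ∈ OG (mt μ) :=
  evL_mem_of_letters fun x _ => MM_mem hμ x

theorem evMM_inv (hμ : μ < 3) {w : List ℕ} (hw : inR 16 w = true) (v : Fin 256) :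
    ((evL (MM μ) w)⁻¹ v : ℕ) = trF (imM μ) w v := by
  rw [← ph_val, map_inv, ((actM hμ).trF hw v.2).1]

/-- Representatives of the classes of involutions of the symplectic group. -/
def rep (k : ℕ) : List ℕ := [[], [1], [3, 13, 9], [1, 3], [1, 3, 13]].getD k []

variable {G : Type*} [Group G] [Finite G]

/-- A chart of the centraliser of `z`. -/
structure Ch (μ : ℕ) (z : G) (Q : Subgroup G) (a : ℕ → G)
    (π : centralizer ({z} : Set G) →* Sp) : Prop where
  lt : μ < 3
  es : ES z Q
  fr : Fr z Q (mt μ) a
  surj : Function.Surjective π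
  ker : ∀ c, π c = 1 ↔ c.1 ∈ Q
  act : ∀ c w, inR 16 w = true → π c = evL evM w → rho es fr c = evL (MM μ) w

end Cfsg.Co2
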