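import Cfsg.Agent.H6.HNR.Fis2

/-! An involution whose centraliser has a normal elementary subgroup with a transvection fixes
one point only. -/

set_option autoImplicit false
set_option maxHeartbeats 400000

namespace Cfsg.Co2.Le

open Cfsg.H6

variable {G : Type*} [Group G] {Ω : Type*} [MulAction G Ω]

/-- The data. -/
structure Tv (a : G) (V : Subgroup G) (α : Ω) (f e₁ e₂ τ : G) : Prop where
  a2 : a * a = 1
  aα : a • α = α
  nrm : ∀ y, Commute y a → y • α = α → ∀ v ∈ V, y * v * y⁻¹ ∈ V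
  sq : ∀ v ∈ V, v * v = 1
  cm : ∀ v ∈ V, Commute v a
  fx : ∀ v ∈ V, v • α = α
  only : ∀ v ∈ V, v ≠ 1 → ∀ γ, (a * v) • γ = γ → γ = α
  f2 : f * f = 1
  fa : Commute f a
  fα : f • α = α
  fo : ∀ γ, f • γ = γ → γ = α
  m1 : e₁ ∈ V
  m2 : e₂ ∈ V
  mτ : τ ∈ V
  n1 : e₁ ≠ 1
  n2 : e₂ ≠ 1
  n12 : e₂ ≠ e₁
  c1 : f * e₁ * f⁻¹ = e₁
  c2 : f * e₂ * f⁻¹ = e₂
  act : ∀ v ∈ V, f * v * f⁻¹ = v ∨ f * v * f⁻¹ = v * e₁
  actτ : f * τ * f⁻¹ = τ * e₁

/-- The class attached to a point. -/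
def PP (a : G) (V : Subgroup G) (α δ : Ω) (t : G) : Prop :=
  ∃ x, Commute x a ∧ x • α = δ ∧ ∃ v ∈ V, v ≠ 1 ∧ t = x * (a * v) * x⁻¹

theorem fix_of_comm {t c : G} {δ : Ω} (h : ∀ γ, t • γ = γ → γ = δ) (h0 : t • δ = δ)
    (e : Commute c t) : c • δ = δ := h _ (by rw [← mul_smul, ← e.eq, mul_smul, h0])

namespace Tv

variable {a : G} {V : Subgroup G} {α : Ω} {f e₁ e₂ τ : G} (S : Tv a V α f e₁ e₂ τ)
include S

theorem vinv {v : G} (hv : v ∈ V) : v⁻¹ = v := inv_eq_of_mul_eq_one_right (S.sq v hv)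

theorem ab {v w : G} (hv : v ∈ V) (hw : w ∈ V) : Commute v w := by
  have := S.vinv (V.mul_mem hv hw)
  rw [mul_inv_rev, S.vinv hv, S.vinv hw] at this
  exact this.symm

theorem base {v : G} (hv : v ∈ V) (h1 : v ≠ 1) : PP a V α α (a * v) :=
  ⟨1, Commute.one_left a, one_smul _ _, v, hv, h1, by group⟩

omit S in
theorem cj {δ : Ω} {t k : G} (h : PP a V α δ t) (hk : Commute k a) :
    PP a V α (k • δ) (k * t * k⁻¹) := by
  obtain ⟨x, x1, rfl, v, hv, v1, rfl⟩ := h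
  exact ⟨k * x, hk.mul_left x1, mul_smul _ _ _, v, hv, v1, by group⟩

theorem pfix {δ : Ω} {t : G} (h : PP a V α δ t) : t • δ = δ := by
  obtain ⟨x, -, rfl, v, hv, -, rfl⟩ := h
  rw [mul_smul, inv_smul_smul, mul_smul, mul_smul, S.fx v hv, S.aα]

theorem ponly {δ : Ω} {t : G} (h : PP a V α δ t) (γ : Ω) (hγ : t • γ = γ) : γ = δ := by
  obtain ⟨x, -, rfl, v, hv, v1, rfl⟩ := h
  rw [mul_smul, mul_smul, smul_eq_iff_eq_inv_smul] at hγ
  rw [← S.only v hv v1 _ hγ, smul_inv_smul]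

theorem psq {δ : Ω} {t : G} (h : PP a V α δ t) : t * t = 1 := by
  obtain ⟨x, -, rfl, v, hv, -, rfl⟩ := h
  calc _ = x * (a * (v * a) * v) * x⁻¹ := by group
    _ = 1 := by rw [(S.cm v hv).eq, ← mul_assoc a, S.a2, one_mul, S.sq v hv]; group

theorem pcm {δ : Ω} {t : G} (h : PP a V α δ t) : Commute t a := by
  obtain ⟨x, x1, -, v, hv, -, rfl⟩ := h
  exact (x1.mul_left ((Commute.refl a).mul_left (S.cm v hv))).mul_left x1.inv_left

theorem pa {δ : Ω} {t : G} (h : PP a V α δ t) : a • δ = δ :=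
  fix_of_comm (S.ponly h) (S.pfix h) (S.pcm h).symm

theorem norm {δ : Ω} {t x : G} (h : PP a V α δ t) (x1 : Commute x a) (x2 : x • α = δ) :
    ∃ v ∈ V, v ≠ 1 ∧ t = x * (a * v) * x⁻¹ := by
  obtain ⟨y, y1, y2, v, hv, v1, rfl⟩ := h
  have k : Commute (x⁻¹ * y) a := x1.inv_left.mul_left y1
  refine ⟨_, S.nrm _ k (by rw [mul_smul, y2, ← x2, inv_smul_smul]) v hv, fun e => v1 ?_, ?_⟩
  · rwa [mul_inv_eq_one, mul_eq_left] at e
  · rw [← mul_assoc a, ← mul_assoc a, ← k.eq]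
    group

theorem diff {δ : Ω} {t c : G} (h : PP a V α δ t) (h' : PP a V α δ (c * t)) (c1 : c ≠ 1) :
    PP a V α δ (a * c) := by
  obtain ⟨x, x1, x2, v, hv, v1, rfl⟩ := id h
  obtain ⟨w, hw, -, e⟩ := S.norm h' x1 x2
  have e1 : c = x * (w * v⁻¹) * x⁻¹ := by
    rw [eq_mul_inv_of_mul_eq e, ← (S.cm w hw).eq, ← (S.cm v hv).eq]
    calc _ = x * (w * (a * a⁻¹) * v⁻¹) * x⁻¹ := by group
      _ = _ := by group
  refine ⟨x, x1, x2, w * v⁻¹, V.mul_mem hw (V.inv_mem hv), fun e => c1 ?_, ?_⟩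
  · rw [e1, e]
    group
  · rw [e1, ← mul_assoc x a, x1.eq]
    group

theorem at_pt {δ γ : Ω} {t : G} (h : PP a V α δ t) (hγ : t • γ = γ) : PP a V α γ t :=
  S.ponly h γ hγ ▸ h

theorem swap [Finite G] {β : Ω} (hne : β ≠ α) {t s : G} (ht : PP a V α α t) (hs : PP a V α β s) :
    ∃ u, Commute u a ∧ u * t * u⁻¹ = s ∧ u • α = β ∧
      ∀ y, Commute y t → Commute y s → Commute y u := by
  have k : ∀ j : ℕ, Commute ((t * s) ^ j)⁻¹ a := fun j =>
    (((S.pcm ht).mul_left (S.pcm hs)).pow_left j).inv_left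
  rcases dihedral (S.psq ht) (S.psq hs) with ⟨j, e⟩ | ⟨c, c1, -, ct, cs, -, i, j, e⟩
  · refine ⟨_, k j, by rwa [inv_inv], S.ponly hs _ ?_, fun y y1 y2 =>
      ((y1.mul_right y2).pow_right j).inv_right⟩
    have := S.pfix (cj ht (k j))
    rwa [inv_inv, e] at this
  · have f1 := fix_of_comm (S.ponly ht) (S.pfix ht) ct
    have f2 := fix_of_comm (S.ponly hs) (S.pfix hs) cs
    have h1 : PP a V α α (c * t) := by
      have h2 : (c * t) • α = α := by rw [mul_smul, S.pfix ht, f1]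
      rcases e with ⟨e, -⟩ | ⟨e, -⟩
      · have := cj ht (k i)
        rw [inv_inv, ← e] at this
        exact S.at_pt this h2
      · have := cj hs (k i)
        rw [inv_inv, ← e] at this
        exact S.at_pt this h2
    exact absurd (S.ponly (S.diff ht h1 c1) β (by rw [mul_smul, f2, S.pa hs])) hne

theorem claimA [Finite G] {β : Ω} (hne : β ≠ α) {s y : G} (hs : PP a V α β s) (ya : Commute y a)
    (yβ : y • β = β) (y2 : y * y = 1) (yf : ∀ v ∈ V, y * v * y⁻¹ = f * v * f⁻¹) : False := by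
  have yi : y⁻¹ = y := inv_eq_of_mul_eq_one_right y2
  obtain ⟨t1, h1, c1⟩ : ∃ t1, PP a V α β t1 ∧ Commute y t1 := by
    by_cases h : y * s * y⁻¹ = s
    · exact ⟨s, hs, mul_inv_eq_iff_eq_mul.mp h⟩
    have h2 := cj hs ya
    rw [yβ] at h2
    have h3 := S.diff hs (c := y * s * y⁻¹ * s⁻¹) (by rwa [inv_mul_cancel_right])
      (by rwa [Ne, mul_inv_eq_one])
    refine ⟨_, h3, ya.mul_right ?_⟩
    have h4 := S.psq h3
    have si : s⁻¹ = s := inv_eq_of_mul_eq_one_right (S.psq hs)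
    have h5 : Commute (y * s * y⁻¹ * s⁻¹) a := (S.pcm h2).mul_left (S.pcm hs).inv_left
    rw [h5.mul_mul_mul_comm, S.a2, one_mul] at h4
    rw [yi, si] at h4 ⊢
    show y * (y * s * y * s) = y * s * y * s * y
    rw [← mul_assoc, ← mul_assoc, ← mul_assoc, y2, one_mul]
    calc s * y * s = (y * s * y * s * (y * s * y * s)) * (s * y * s) := by rw [h4, one_mul]
      _ = y * s * y * s * y * (s * (y * (s * s) * y) * s) := by group
      _ = _ := by rw [S.psq hs, mul_one, y2, mul_one, S.psq hs, mul_one]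
  have k : ∀ v ∈ V, f * v * f⁻¹ = v → Commute y (a * v) := fun v hv e =>
    ya.mul_right (mul_inv_eq_iff_eq_mul.mp ((yf v hv).trans e))
  have ht := S.base S.m1 S.n1
  obtain ⟨u, u1, u2, u3, u4⟩ := S.swap hne ht h1
  have u5 := u4 y (k _ S.m1 S.c1) c1
  have h2 := cj (S.base S.m2 S.n2) u1
  rw [u3] at h2
  have c2 : Commute y (u * (a * e₂) * u⁻¹) :=
    (u5.mul_right (k _ S.m2 S.c2)).mul_right u5.inv_right
  obtain ⟨w, w1, w2, w3, w4⟩ := S.swap hne ht h2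
  have w5 := w4 y (k _ S.m1 S.c1) c2
  have g1 : Commute (u⁻¹ * w) a := u1.inv_left.mul_left w1
  have g2 : (u⁻¹ * w) • α = α := by rw [mul_smul, w3, ← u3, inv_smul_smul]
  have g3 : Commute y (u⁻¹ * w) := u5.inv_right.mul_right w5
  generalize hg : u⁻¹ * w = g at g1 g2 g3
  have hv := S.nrm g g1 g2 τ S.mτ
  have e1 : f * (g * τ * g⁻¹) * f⁻¹ = g * τ * g⁻¹ * (g * e₁ * g⁻¹) := by
    rw [← yf _ hv]
    calc _ = y * g * τ * (y * g)⁻¹ := by group
      _ = g * (y * τ * y⁻¹) * g⁻¹ := by rw [g3.eq]; group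
      _ = _ := by rw [yf _ S.mτ, S.actτ]; group
  have e2 : g * e₁ * g⁻¹ = e₁ := by
    rcases S.act _ hv with e | e <;> rw [e1] at e
    · rw [mul_eq_left, mul_inv_eq_one, mul_eq_left] at e
      exact absurd e S.n1
    · exact mul_left_cancel e
  have e3 : g * (a * e₁) * g⁻¹ = a * e₁ := by
    rw [← mul_assoc, g1.eq, mul_assoc, mul_assoc, ← mul_assoc g, e2]
  have e4 : a * e₂ = a * e₁ := by
    rw [← e3, ← hg]
    calc _ = u⁻¹ * (u * (a * e₂) * u⁻¹) * u := by group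
      _ = _ := by rw [← w2]; group
  exact S.n12 (mul_left_cancel e4)

theorem main [Finite G] {β : Ω} {H : G} (H1 : Commute H a) (H2 : H • α = β) : β = α := by
  by_contra hne
  have hs := cj (S.base S.m1 S.n1) H1
  rw [H2] at hs
  generalize H * (a * e₁) * H⁻¹ = s at hs
  have k : ∀ j : ℕ, Commute ((f * s) ^ j) a := fun j => (S.fa.mul_left (S.pcm hs)).pow_left j
  have one := Commute.one_left a
  rcases dihedral S.f2 (S.psq hs) with ⟨j, e⟩ | ⟨c, c1, c2, cf, cs, ⟨l, hl⟩, i, j, e⟩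
  · have h1 := cj hs (k j)
    rw [show (f * s) ^ j * s * ((f * s) ^ j)⁻¹ = f by
      conv_lhs => enter [1, 2]; rw [← e]
      group] at h1
    obtain ⟨v, hv, -, e1⟩ := S.norm (S.at_pt h1 S.fα) one (one_smul _ _)
    have e2 := S.actτ
    rw [show f = a * v by rw [e1]; group,
      ((S.cm τ S.mτ).symm.mul_left (S.ab hv S.mτ)).eq, mul_inv_cancel_right, left_eq_mul] at e2
    exact S.n1 e2
  have f1 := fix_of_comm S.fo S.fα cf
  have f2 := fix_of_comm (S.ponly hs) (S.pfix hs) cs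
  have ca : Commute c a := hl ▸ k l
  rcases e with ⟨-, e⟩ | ⟨e, -⟩
  · have h1 := cj hs (k j).inv_left
    rw [inv_inv, ← e] at h1
    have h2 := S.diff hs (S.at_pt h1 (by rw [mul_smul, S.pfix hs, f2])) c1
    exact hne (S.ponly h2 α (by rw [mul_smul, f1, S.aα])).symm
  · have h1 := cj hs (k i).inv_left
    rw [inv_inv, ← e] at h1
    obtain ⟨v, hv, -, e1⟩ := S.norm (S.at_pt h1 (γ := α) (by rw [mul_smul, S.fα, f1])) one
      (one_smul _ _)
    have fi : f⁻¹ = f := inv_eq_of_mul_eq_one_right S.f2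
    have e2 : c = a * v * f := by
      rw [← fi, eq_mul_inv_iff_mul_eq, e1]
      group
    refine S.claimA hne hs ca f2 c2 fun w hw => ?_
    have h3 := S.nrm f S.fa S.fα w hw
    rw [e2, show a * v * f * w * (a * v * f)⁻¹ = a * v * (f * w * f⁻¹) * (a * v)⁻¹ by group,
      ((S.cm _ h3).symm.mul_left (S.ab hv h3)).eq, mul_inv_cancel_right]

end Tv

end Cfsg.Co2.Le
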