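import Cfsg.Agent.Co2.E1

/-! The elements of `Co₂` that fix the coordinates of an octad; traces. -/

set_option autoImplicit false
set_option maxRecDepth 100000
set_option maxHeartbeats 400000

namespace Cfsg.Co2.Le

open Cfsg.H4.Golay Cfsg.H6 Cfsg.H6.Leech Cfsg.H2 Cfsg.Co Subgroup

/-- Eight times the trace. -/
def tr (g : Co0) : ℤ := ∑ i, (g.1 (E i)).1 i

theorem tr_comm (g h : Co0) : tr (g * h) = tr (h * g) := by
  have k : ∀ g h : Co0, 8 * tr (g * h) = ∑ i, ∑ l, (h.1 (E i)).1 l * (g.1 (E l)).1 i :=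
    fun g h => by
      rw [tr, Finset.mul_sum]
      exact Finset.sum_congr rfl fun i _ => by rw [Co.mul_apply, coord8]
  have h1 := k g h
  have h2 := k h g
  rw [Finset.sum_comm] at h2
  simp only [mul_comm ((g.1 _).1 _)] at h2
  omega

theorem tr_conj {g h : Co0} (e : IsConj g h) : tr g = tr h := by
  obtain ⟨k, rfl⟩ := isConj_iff.mp e
  rw [tr_comm, inv_mul_cancel_left]

theorem tr_eps {c : GolayPt → ZMod 2} (hc : c ∈ golayCode) : tr (eps c hc) = 192 - 16 * wt c := by
  simp only [tr, eps_apply, E_self, sg, wt, sub_mul, Finset.sum_sub_distrib, Finset.mul_sum]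
  congr 1
  exact Finset.sum_congr rfl fun i _ => by ring

/-- A word of `FF` given by a mask. -/
def mF (m : ℕ) (h : H4.Golay.red basis m = 0 ∧ m.testBit 23 = false ∧ m.testBit 0 = false) : FF :=
  ⟨⟨wd m, wd_mem h.1⟩, if_neg (by rw [show idx none = 23 from rfl, h.2.1]; decide),
    if_neg (by rw [show idx (some 0) = 0 from rfl, h.2.2]; decide)⟩

/-- The standard octad. -/
def a0 : FF := mF 10558 (by decide +kernel)

/-- A word of weight sixteen. -/
def f0 : FF := mF 7536302 (by decide +kernel)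

/-- An octad disjoint from the standard one. -/
def o1 : FF := mF 6100032 (by decide +kernel)

/-- Another one. -/
def o2 : FF := mF 8077824 (by decide +kernel)

theorem wF_a0 : wF a0 = 8 := wt_reps.1

theorem wF_f0 : wF f0 = 16 := (wt_wd _).trans (by decide +kernel)

/-- The elements that fix the coordinates of the standard octad. -/
def EE : Subgroup Spor.Co2 where
  carrier := {g | ∀ i, wd 10558 i = 1 → (inc2 g).1 (E i) = E i}
  one_mem' := fun _ _ => rfl
  mul_mem' := fun {g h} hg hh i hi => by rw [map_mul, Co.mul_apply, hh i hi, hg i hi]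
  inv_mem' := fun {g} hg i hi => by
    conv_lhs => rw [← hg i hi]
    rw [map_inv, inv_apply]

theorem two_cases (x : ZMod 2) : x = 0 ∨ x = 1 := by revert x; decide

theorem EE_norm {y g : Spor.Co2} (hy : Commute y (e2 a0)) (hg : g ∈ EE) : y * g * y⁻¹ ∈ EE := by
  intro i hi
  have h1 : ∀ j, wd 10558 j = 0 → ((inc2 y)⁻¹.1 (E i)).1 j = 0 := fun j hj => by
    have := congrArg (fun z : Co0 => (z.1 (E i)).1 j) (hy.inv_left.map inc2).eq
    simp only [map_inv, Co.mul_apply, inc2_e2] at this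
    rw [eps_E, eps_apply, map_zsmul] at this
    change sg (wd 10558) i * _ = sg (wd 10558) j * _ at this
    rw [sg_of_one hi, sg_of_zero hj] at this
    omega
  have h2 : (inc2 g).1 ((inc2 y)⁻¹.1 (E i)) = (inc2 y)⁻¹.1 (E i) := Subtype.ext (funext fun j => by
    have a := coord8 (inc2 g) ((inc2 y)⁻¹.1 (E i)) j
    have b := coord8 1 ((inc2 y)⁻¹.1 (E i)) j
    rw [Finset.sum_congr rfl (g := fun l => ((inc2 y)⁻¹.1 (E i)).1 l * ((1 : Co0).1 (E l)).1 j)
      fun l _ => by
        rcases two_cases (wd 10558 l) with e | e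
        · rw [h1 l e, zero_mul, zero_mul]
        · rw [hg l e]; rfl, ← b] at a
    change _ = 8 * ((inc2 y)⁻¹.1 (E i)).1 j at a
    omega)
  rw [map_mul, map_mul, map_inv, Co.mul_apply, Co.mul_apply, h2, apply_inv]

theorem tr_a {g : Spor.Co2} (hg : g ∈ EE) : tr (inc2 (e2 a0 * g)) = tr (inc2 g) - 128 := by
  have h : ∑ i, 16 * lf (wd 10558) i = 128 := by
    rw [← Finset.mul_sum]
    change 16 * wt _ = _
    rw [wt_reps.1]; rfl
  rw [← h, tr, tr, ← Finset.sum_sub_distrib]
  refine Finset.sum_congr rfl fun i _ => ?_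
  rw [map_mul, Co.mul_apply, inc2_e2, eps_apply]
  change sg (wd 10558) i * _ = _
  rcases two_cases (wd 10558 i) with e | e
  · rw [sg_of_zero e, lf_eq_zero.mpr e]; ring
  · rw [sg_of_one e, lf_eq_one.mpr e, hg i e, E_self]; rfl

/-- The table of the translation. -/
def tT : ℕ := 21159163873795149579542675899648055

theorem tT_ok : Inverse tT tT ∧ okM tT = true := by decide +kernel

/-- The translation that exchanges the two special points. -/
noncomputable def t0 : M24 := mk24 tT_ok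

theorem rep_t0 : Rep t0 (tb tT) := rep_mk24 _

theorem t0_sq : t0 * t0 = 1 := (rep_t0.mul rep_t0).eq Rep.one (by decide +kernel)

theorem t0_inv : t0⁻¹ = t0 := inv_eq_of_mul_eq_one_right t0_sq

theorem t0_none : t0.1 none = some 0 := idx_inj ((rep_t0 _).trans (by decide +kernel))

theorem t0_zero : t0.1 (some 0) = none := idx_inj ((rep_t0 _).trans (by decide +kernel))

theorem t0_fix (i : GolayPt) (h : wd 10558 i = 1) : t0.1 i = i :=
  idx_inj ((rep_t0 _).trans (by revert i; decide +kernel))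

/-- The translation in `Co₂`. -/
noncomputable def τ2 : Spor.Co2 := mk2 (toCo0 t0) (perm_fix (Or.inr ⟨t0_none, t0_zero⟩))

theorem τ2_sq : τ2 * τ2 = 1 := inc2_inj (by
  rw [map_mul, map_one]
  change toCo0 t0 * toCo0 t0 = 1
  rw [← map_mul, t0_sq, map_one])

theorem τ2_mem : τ2 ∈ EE := fun i hi => by
  change (toCo0 t0).1 (E i) = _
  rw [toCo0_E, t0_fix i hi]

theorem τ2_e2 {c d : FF} (h : d.1.1 = c.1.1 ∘ t0.1) : τ2 * e2 c = e2 d * τ2 := inc2_inj (by
  rw [map_mul, map_mul]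
  change toCo0 t0 * eps _ c.1.2 = eps _ d.1.2 * toCo0 t0
  rw [toCo0_mul_eps]
  congr 1
  exact (eps_congr _ (by rw [t0_inv, h])).trans rfl)

theorem e2_mem {c : FF} (h : ∀ i, wd 10558 i = 1 → c.1.1 i = 0) : e2 c ∈ EE := fun i hi => by
  rw [inc2_e2, eps_E, sg_of_zero (h i hi), one_smul]

theorem o1_mem : e2 o1 ∈ EE := e2_mem (by
  change ∀ i, wd 10558 i = 1 → wd 6100032 i = 0
  decide +kernel)

theorem o2_mem : e2 o2 ∈ EE := e2_mem (by
  change ∀ i, wd 10558 i = 1 → wd 8077824 i = 0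
  decide +kernel)

theorem chain2 : chain [(8391797, 8399167), (1188915, 8399167), (11548936, 8399167),
    (11272490, 8399167), (13148440, 8399167), (8431757, 8399167), (8849458, 8399167),
    (797449, 8399167)] ([1, 2, 3, 4, 5, 8, 11, 13, 0, 23].map (2 ^ ·)) = true := by decide +kernel

theorem perm_one {π : M24} (h : ∀ i, wd 10558 i = 1 → π.1 i = i) (h1 : π.1 none = none)
    (h2 : π.1 (some 0) = some 0) : π = 1 := by
  refine Subtype.ext (eq_one_of_chain π.2 _ _ chain2 fun m hm => ?_)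
  obtain ⟨i, hi, rfl⟩ := List.mem_map.mp hm
  refine inv_pow (by revert i; decide) ?_
  have : ∀ i ∈ [1, 2, 3, 4, 5, 8, 11, 13, 0, 23], wd 10558 (pt i) = 1 ∨ pt i = none ∨
      pt i = some 0 := by decide +kernel
  rcases this i hi with e | e | e
  · exact h _ e
  · rw [e, h1]
  · rw [e, h2]

theorem inv_t0 {c : FF} (h : ∀ i, wd 10558 i = 1 → c.1.1 i = 0) : c.1.1 = c.1.1 ∘ t0.1 := by
  have k : allSpan (fun m => [1, 2, 3, 4, 5, 8, 11, 13, 0, 23].any m.testBit ||
      (List.range 24).all fun i => m.testBit i == m.testBit (tb tT i)) basis 0 = true := by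
    decide +kernel
  obtain ⟨m, h1, e⟩ := exists_mask k c.1.2
  simp only [Bool.or_eq_true, List.any_eq_true, List.all_eq_true, List.mem_range, beq_iff_eq] at h1
  rcases h1 with ⟨i, hi, h1⟩ | h1
  · have : ∀ i ∈ [1, 2, 3, 4, 5, 8, 11, 13, 0, 23], idx (pt i) = i ∧ (wd 10558 (pt i) = 1 ∨
        pt i = none ∨ pt i = some 0) := by decide +kernel
    have h2 : c.1.1 (pt i) = 0 := by
      rcases (this i hi).2 with e | e | e
      · exact h _ e
      · rw [e, c.2.1]
      · rw [e, c.2.2]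
    rw [e, wd, (this i hi).1, if_pos h1] at h2
    exact absurd h2 one_ne_zero
  · rw [e]
    exact rep_t0.wd h1

theorem EE_cls {g : Spor.Co2} (hg : g ∈ EE) :
    ∃ c : FF, c.1.1 = c.1.1 ∘ t0.1 ∧ (g = e2 c ∨ g = e2 c * τ2) := by
  obtain ⟨c, hc, π, e⟩ := mon_eq (mon_of_one (Or.inl (hg (some 1) (by decide +kernel))))
  have h1 : ∀ i, wd 10558 i = 1 → π.1 i = i ∧ c i = 0 := fun i hi => by
    have := congrArg (fun v : leechLattice => v.1 (π.1 i)) (hg i hi)
    simp only [e, Co.mul_apply, toCo0_E, eps_apply, E_self] at this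
    rw [E_apply] at this
    have s := sg_cases c (π.1 i)
    have h2 : π.1 i = i := by
      by_contra hne
      rw [if_neg hne] at this
      omega
    rw [if_pos h2, h2, sg] at this
    exact ⟨h2, lf_eq_zero.mp (by omega)⟩
  have h2 : ∀ i, i = none ∨ i = some 0 → (π.1 i = none ∨ π.1 i = some 0) ∧ c (π.1 i) = 0 :=
    fun i hi => by
      have := congrArg (fun v : leechLattice => v.1 (π.1 i)) (fix_u g)
      simp only [e, Co.mul_apply, eps_apply, toCo0_apply] at this
      rw [u_apply, u_apply, if_pos hi] at this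
      have s := sg_cases c (π.1 i)
      have h3 : π.1 i = none ∨ π.1 i = some 0 := by
        by_contra hne
        rw [if_neg hne] at this
        omega
      rw [if_pos h3, sg] at this
      exact ⟨h3, lf_eq_zero.mp (by omega)⟩
  obtain ⟨a1, a2⟩ := h2 _ (Or.inl rfl)
  obtain ⟨b1, b2⟩ := h2 _ (Or.inr rfl)
  have n : π.1 none ≠ π.1 (some 0) := fun e => by simpa using π.1.injective e
  rcases a1 with a1 | a1 <;> rcases b1 with b1 | b1
  · exact absurd (a1.trans b1.symm) n
  · let d : FF := ⟨⟨c, hc⟩, a1 ▸ a2, b1 ▸ b2⟩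
    refine ⟨d, inv_t0 fun i hi => (h1 i hi).2, Or.inl (inc2_inj ?_)⟩
    rw [e, perm_one (fun i hi => (h1 i hi).1) a1 b1, map_one, mul_one]
    rfl
  · let d : FF := ⟨⟨c, hc⟩, b1 ▸ b2, a1 ▸ a2⟩
    refine ⟨d, inv_t0 fun i hi => (h1 i hi).2, Or.inr (inc2_inj ?_)⟩
    have : t0 * π = 1 := perm_one (fun i hi => by
      change t0.1 (π.1 i) = i
      rw [(h1 i hi).1, t0_fix i hi]) (by
      change t0.1 (π.1 _) = _
      rw [a1, t0_zero]) (by
      change t0.1 (π.1 _) = _
      rw [b1, t0_none])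
    rw [e, eq_inv_of_mul_eq_one_right this, t0_inv, map_mul]
    rfl
  · exact absurd (a1.trans b1.symm) n

theorem EE_sq {g : Spor.Co2} (hg : g ∈ EE) : g * g = 1 := by
  obtain ⟨c, h, rfl | rfl⟩ := EE_cls hg
  · exact e2_sq c
  · rw [mul_assoc, ← mul_assoc τ2, τ2_e2 h, mul_assoc, τ2_sq, mul_one, e2_sq]

theorem EE_comm {g : Spor.Co2} (hg : g ∈ EE) : Commute g (e2 a0) := by
  obtain ⟨c, h, rfl | rfl⟩ := EE_cls hg
  · exact e2_comm _ _
  · exact (e2_comm _ _).mul_left (τ2_e2 (c := a0) (d := a0) (rep_t0.wd (by decide +kernel)))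

theorem act_τ : e2 f0 * τ2 * (e2 f0)⁻¹ = τ2 * e2 o1 := by
  have h1 : τ2 * e2 (f0 + o1) = e2 f0 * τ2 := τ2_e2 (by
    change wd 7536302 = (wd 7536302 + wd 6100032) ∘ t0.1
    rw [← wd_xor]
    exact rep_t0.wd (by decide +kernel))
  rw [← h1, add_comm, e2_add, ← mul_assoc, mul_inv_cancel_right]

theorem EE_act {g : Spor.Co2} (hg : g ∈ EE) :
    e2 f0 * g * (e2 f0)⁻¹ = g ∨ e2 f0 * g * (e2 f0)⁻¹ = g * e2 o1 := by
  obtain ⟨c, -, rfl | rfl⟩ := EE_cls hg
  · exact Or.inl (by rw [(e2_comm _ _).eq, mul_inv_cancel_right])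
  · exact Or.inr (by rw [← mul_assoc, (e2_comm f0 c).eq, mul_assoc (e2 c), mul_assoc (e2 c), act_τ,
      mul_assoc])

theorem o1_ne : e2 o1 ≠ 1 := fun e => by
  have := congrArg wF (e2_inj (e.trans e2_zero.symm))
  rw [wF_0] at this
  exact absurd ((wt_wd _).symm.trans this) (by decide +kernel)

theorem o2_ne : e2 o2 ≠ 1 := fun e => by
  have := congrArg wF (e2_inj (e.trans e2_zero.symm))
  rw [wF_0] at this
  exact absurd ((wt_wd _).symm.trans this) (by decide +kernel)

theorem o12_ne : e2 o2 ≠ e2 o1 := fun e => by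
  have : wd 8077824 (some 9) = wd 6100032 (some 9) :=
    congrArg (fun c : FF => c.1.1 (some 9)) (e2_inj e)
  exact absurd this (by decide +kernel)

theorem EE_wt (hinv : ∀ x : Spor.Co2, x * x = 1 → ∃ c : FF, IsConj x (e2 c)) {g : Spor.Co2}
    (hg : g ∈ EE) (h1 : g ≠ 1) : ∃ c : FF, wF c = 16 ∧ IsConj (e2 a0 * g) (e2 c) := by
  obtain ⟨c, hc⟩ := hinv g (EE_sq hg)
  obtain ⟨d, hd⟩ := hinv (e2 a0 * g) (by
    rw [(EE_comm hg).mul_mul_mul_comm, e2_sq, EE_sq hg, one_mul])
  have t1 := tr_conj (inc2.map_isConj hc)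
  have t2 := tr_conj (inc2.map_isConj hd)
  rw [tr_a hg, t1, inc2_e2, inc2_e2, tr_eps, tr_eps] at t2
  refine ⟨d, ?_, hd⟩
  have c0 : c ≠ 0 := fun e => h1 (by rwa [e, e2_zero, isConj_one_left] at hc)
  have a := (wF_cases c).resolve_left c0
  have b := (wF_cases d).imp_left fun e => e ▸ wF_0
  unfold wF at *
  omega

/-- An element that conjugates a dodecad sign change to a sign change normalises them all. -/
theorem mon_F {x : Spor.Co2} {a : FF} (h12 : wF a = 12) (h : Commute x (e2 a)) (c : FF) :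
    ∃ d : FF, x * e2 c * x⁻¹ = e2 d := by
  obtain ⟨d, hd, π, e⟩ := mon_eq (mon_of_dodecad (g := inc2 x) (hc := a.1.2) h12 (Or.inl (by
    rw [← inc2_e2, ← map_inv, ← map_mul, ← map_mul, h.eq, mul_inv_cancel_right])))
  have e1 : inc2 (x * e2 c * x⁻¹) = eps _ (comp_mem π⁻¹.2 c.1.2) := by
    rw [map_mul, map_mul, map_inv, e, inc2_e2, mul_inv_rev, ← mul_assoc, mul_assoc (eps d hd),
      mul_assoc (eps d hd), conj_eps, eps_mul, mul_inv_eq_iff_eq_mul, eps_mul]
    exact eps_congr _ (add_comm _ _)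
  exact ⟨⟨⟨_, comp_mem π⁻¹.2 c.1.2⟩, (eps_fix _).mp (e1 ▸ fix_u _)⟩, inc2_inj e1⟩

end Cfsg.Co2.Le
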