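import Cfsg.Agent.Co2.E2
import Cfsg.Agent.Co2.E3

/-! A finite group containing `Co₂` with the same involution centraliser is `Co₂`. -/

set_option autoImplicit false
set_option maxRecDepth 100000
set_option maxHeartbeats 400000

namespace Cfsg.Co2

open Cfsg.H4.Golay Cfsg.H6 Cfsg.H6.Leech Cfsg.H2 Cfsg.Co Subgroup

namespace Le

theorem count_gen {V : Type*} [AddCommGroup V] [Finite V] (A : AddSubgroup V) (P : V → Prop)
    (h0 : ∀ a ∈ A, ¬ P a)
    (h : ∀ c ∉ A, ∀ d ∉ A, ∃ b ∈ A, ∀ a ∈ A, P (c + a) → P (d + b + a)) :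
    A.index - 1 ∣ {v | P v}.ncard := by
  classical
  have := Fintype.ofFinite V
  let N : V → ℕ := fun c => (Finset.univ.filter fun a => a ∈ A ∧ P (c + a)).card
  have h1 : ∀ c ∉ A, ∀ d ∉ A, N c ≤ N d := fun c hc d hd => by
    obtain ⟨b, hb, k⟩ := h c hc d hd
    refine Finset.card_le_card_of_injOn (b + ·) (fun a ha => ?_) (add_right_injective b).injOn
    simp only [Finset.coe_filter, Finset.mem_univ, true_and, Set.mem_ofPred_eq] at ha ⊢
    exact ⟨A.add_mem hb ha.1, add_assoc d b a ▸ k a ha.1 ha.2⟩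
  have hA : Nat.card A = (Finset.univ.filter (· ∈ A)).card := by
    rw [Nat.card_eq_fintype_card, Fintype.card_subtype]
  have h2 : ∑ c, N c = Nat.card A * {v | P v}.ncard := by
    simp only [N, Finset.card_filter]
    rw [Finset.sum_comm, hA, Finset.card_filter, Finset.sum_mul]
    refine Finset.sum_congr rfl fun a _ => ?_
    by_cases ha : a ∈ A
    · simp only [ha, true_and, if_true, one_mul]
      refine (Equiv.sum_comp (Equiv.addRight a) fun c => if P c then 1 else 0).trans ?_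
      rw [← Finset.card_filter, ← Set.ncard_coe_finset]
      congr 1
      ext v
      simp
    · simp [ha]
  by_cases hT : ∃ o, o ∉ A
  · obtain ⟨o, h3⟩ := hT
    have h4 : ∑ c, N c = (Nat.card V - Nat.card A) * N o := by
      rw [Finset.sum_congr rfl fun c _ => (?_ : N c = if c ∉ A then N o else 0),
        ← Finset.sum_filter, Finset.sum_const, smul_eq_mul]
      · congr 1
        have := Finset.card_filter_add_card_filter_not (s := Finset.univ) fun c : V => c ∈ A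
        rw [Finset.card_univ, ← Nat.card_eq_fintype_card, ← hA] at this
        omega
      · split_ifs with e
        · exact Finset.card_eq_zero.mpr (Finset.filter_eq_empty_iff.mpr fun x _ e' =>
            h0 _ (A.add_mem e e'.1) e'.2)
        · exact le_antisymm (h1 c e o h3) (h1 o h3 c e)
    refine ⟨N o, Nat.eq_of_mul_eq_mul_left (Nat.card_pos (α := A)) ?_⟩
    rw [← mul_assoc, Nat.mul_sub_one, A.card_mul_index, ← h4, h2]
  · push Not at hT
    rw [show {v | P v} = ∅ from Set.eq_empty_of_forall_notMem fun v hv => h0 v (hT v) hv,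
      Set.ncard_empty]
    exact dvd_zero _

theorem ncard_FF (P : (GolayPt → ZMod 2) → Prop) :
    {c : FF | P c.1.1}.ncard =
      {c : golayCode | (c.1 none = 0 ∧ c.1 (some 0) = 0) ∧ P c.1}.ncard := by
  rw [← Set.ncard_image_of_injective _ Subtype.val_injective]
  congr 1
  ext c
  exact ⟨by rintro ⟨c, hc, rfl⟩; exact ⟨c.2, hc⟩, fun h => ⟨⟨c, h.1⟩, h.2, rfl⟩⟩

theorem wd_zero_iff {m : ℕ} {p : GolayPt} : wd m p = 0 ↔ m.testBit (idx p) = false := by
  unfold wd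
  cases m.testBit (idx p) <;> decide

theorem ncard_wF (w : ℤ) : {c : FF | wF c = w}.ncard = cnt (fun p => frcB (fun m =>
    !m.testBit 23 && !m.testBit 0 && (sm fun i => if m.testBit i then 1 else 0) == w)
      (xv rb p 12)) 4096 :=
  (ncard_FF fun c => wt c = w).trans
    (card_F (fun c => (c none = 0 ∧ c (some 0) = 0) ∧ wt c = w) _ fun m => by
      rw [wd_zero_iff, wd_zero_iff, wt_wd]
      simp only [Bool.and_eq_true, Bool.not_eq_true', beq_iff_eq]
      exact Iff.rfl)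

theorem card_FF : Nat.card FF = 1024 := by
  have := (ncard_FF fun _ => True).trans
    (card_F (fun c => (c none = 0 ∧ c (some 0) = 0) ∧ True) (fun m => !m.testBit 23 && !m.testBit 0)
      fun m => by
        rw [wd_zero_iff, wd_zero_iff]
        simp only [Bool.and_eq_true, Bool.not_eq_true', and_true]
        exact Iff.rfl)
  rw [Set.setOf_true, Set.ncard_univ] at this
  exact this.trans (by decide +kernel)

theorem count_F (A : AddSubgroup FF) (h8 : ∀ a ∈ A, wF a ≠ 8) (h16 : ∀ a ∈ A, wF a ≠ 16)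
    (h : ∀ c ∉ A, ∀ d ∉ A, ∃ b ∈ A, ∀ a ∈ A, wF (c + a) = wF (d + b + a)) : False := by
  have k : ∀ w, (∀ a ∈ A, wF a ≠ w) → A.index - 1 ∣ {c : FF | wF c = w}.ncard := fun w hw =>
    count_gen A _ hw fun c hc d hd => (h c hc d hd).imp fun b hb =>
      ⟨hb.1, fun a ha e => (hb.2 a ha).symm.trans e⟩
  have k1 := k 8 h8
  have k2 := k 16 h16
  rw [ncard_wF] at k1 k2
  have k3 : A.index - 1 ∣ Nat.gcd 330 77 := Nat.dvd_gcd (k1.trans (dvd_of_eq (b := 330) (by decide +kernel)))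
    (k2.trans (dvd_of_eq (b := 77) (by decide +kernel)))
  rw [show Nat.gcd 330 77 = 11 by decide] at k3
  have k4 : A.index ∣ 1024 := card_FF ▸ A.index_dvd_card
  have k5 : A.index = 2 := by
    rcases (Nat.dvd_prime (by norm_num)).mp k3 with e | e
    · omega
    · rw [show A.index = 12 by omega] at k4
      exact absurd k4 (by decide)
  let x : FF := mF 6554826 (by decide +kernel)
  let y : FF := mF 5309160 (by decide +kernel)
  have hx : x ∉ A := fun e => h8 x e ((wt_wd _).trans (by decide +kernel))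
  have hy : y ∉ A := fun e => h8 y e ((wt_wd _).trans (by decide +kernel))
  refine h8 (x + y) ((AddSubgroup.add_mem_iff_of_index_two k5).mpr (iff_of_false hx hy)) ?_
  change wt (wd 6554826 + wd 5309160) = 8
  rw [← wd_xor]
  exact (wt_wd _).trans (by decide +kernel)

variable {G : Type*} [Group G] {Ω : Type*} [MulAction G Ω]

/-- The setting: `Co₂` is a point stabiliser. -/
structure Setg2 (ρ : Spor.Co2 →* G) (α : Ω) (O : FF) : Prop where
  inj : Function.Injective ρ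
  odd : Odd (Nat.card Ω)
  oddC : Odd (centralizer ({e2 O} : Set Spor.Co2)).index
  tr : ∀ β, ∃ g : G, g • α = β
  stab : ∀ g : G, g • α = α ↔ g ∈ ρ.range
  w16 : wF O = 16
  only : ∀ β, ρ (e2 O) • β = β → β = α
  inv : ∀ x : Spor.Co2, x * x = 1 → ∃ c : FF, IsConj x (e2 c)

namespace Setg2

variable {ρ : Spor.Co2 →* G} {α : Ω} {O : FF} (S : Setg2 ρ α O)
include S

theorem fix (x : Spor.Co2) : ρ x • α = α := (S.stab _).mpr ⟨x, rfl⟩

omit S in
theorem sq (c : FF) : ρ (e2 c) * ρ (e2 c) = 1 := by rw [← map_mul, e2_sq, map_one]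

theorem only_cj {x y : Spor.Co2} (h : ∀ β, ρ y • β = β → β = α) (e : IsConj y x) (β : Ω)
    (hβ : ρ x • β = β) : β = α := by
  obtain ⟨k, rfl⟩ := isConj_iff.mp e
  rw [map_mul, map_mul, map_inv, smul_cj] at hβ
  rw [← smul_inv_smul (ρ k) β, h _ hβ, S.fix]

theorem w16_only {c : FF} (h : wF c = 16) : ∀ β, ρ (e2 c) • β = β → β = α :=
  S.only_cj S.only (conj_wF (S.w16.trans h.symm))

theorem cen_pt {P : Subgroup G} (hP : IsPGroup 2 P) {β : Ω} (hβ : ∀ p ∈ P, p • β = β) :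
    ∃ y ∈ centralizer (P : Set G), y * y = 1 ∧ ∀ γ, y • γ = γ → γ = β := by
  have : Fact (Nat.Prime 2) := ⟨Nat.prime_two⟩
  obtain ⟨g, rfl⟩ := S.tr β
  have hA : IsPGroup 2 (P.comap ((MulAut.conj g).toMonoidHom.comp ρ)) :=
    hP.comap_of_injective _ ((MulAut.conj g).injective.comp S.inj)
  obtain ⟨q, hq⟩ := hA.nonempty_fixed_point_of_prime_not_dvd_card
    (Spor.Co2 ⧸ centralizer ({e2 O} : Set Spor.Co2))
    (by rw [← Subgroup.index, ← even_iff_two_dvd]; exact Nat.not_even_iff_odd.mpr S.oddC)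
  obtain ⟨k, rfl⟩ := QuotientGroup.mk_surjective q
  refine ⟨g * ρ k * ρ (e2 O) * (g * ρ k)⁻¹, fun p hp => ?_, by simpa using sq_cj (sq O) (g * ρ k)⁻¹,
    fun γ hγ => ?_⟩
  · obtain ⟨a, e⟩ := (S.stab (g⁻¹ * p * g)).mp (by
      rw [mul_smul, mul_smul, hβ p hp, inv_smul_smul])
    have e1 : p = g * ρ a * g⁻¹ := by rw [e]; group
    have h2 : ((a * k : Spor.Co2) : Spor.Co2 ⧸ centralizer ({e2 O} : Set Spor.Co2)) = k :=
      hq ⟨a, by rw [e1] at hp; exact hp⟩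
    have h3 := congrArg ρ (mem_centralizer_singleton_iff.mp (inv_mem (QuotientGroup.eq.mp h2)))
    simp only [mul_inv_rev, inv_inv, map_mul, map_inv] at h3
    rw [e1]
    calc _ = g * ρ k * ((ρ k)⁻¹ * (ρ a * ρ k) * ρ (e2 O)) * (g * ρ k)⁻¹ := by group
      _ = _ := by rw [h3]; group
  · have := S.only _ (smul_cj.mp hγ)
    rw [← smul_inv_smul (g * ρ k) γ, this, mul_smul, S.fix]

theorem cent_trans [Finite G] [Finite Ω] {P : Subgroup G} (hP : IsPGroup 2 P) {β : Ω}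
    (hα : ∀ p ∈ P, p • α = α) (hβ : ∀ p ∈ P, p • β = β) :
    ∃ h ∈ centralizer (P : Set G), h • α = β := by
  obtain ⟨x, x1, x2, x3⟩ := S.cen_pt hP hα
  obtain ⟨y, y1, y2, y3⟩ := S.cen_pt hP hβ
  exact syl_trans S.odd _ x1 y1 x2 y2 x3 y3

omit S in
/-- The code words whose sign change fixes a point. -/
def St (ρ : Spor.Co2 →* G) (β : Ω) : AddSubgroup FF where
  carrier := {c | ρ (e2 c) • β = β}
  zero_mem' := by
    change ρ (e2 0) • β = β
    rw [e2_zero, map_one, one_smul]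
  add_mem' := fun {a b} ha hb => by
    change ρ (e2 (a + b)) • β = β
    rw [e2_add, map_mul, mul_smul, hb, ha]
  neg_mem' := fun {a} ha => by rwa [neg_eq_of_add_eq_zero_left (two_F a)]

omit S in
/-- The sign changes of a group of code words. -/
def img (ρ : Spor.Co2 →* G) (A : AddSubgroup FF) : Subgroup G where
  carrier := {x | ∃ c ∈ A, ρ (e2 c) = x}
  one_mem' := ⟨0, A.zero_mem, by rw [e2_zero, map_one]⟩
  mul_mem' := by
    rintro _ _ ⟨c, hc, rfl⟩ ⟨d, hd, rfl⟩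
    exact ⟨c + d, A.add_mem hc hd, by rw [e2_add, map_mul]⟩
  inv_mem' := by
    rintro _ ⟨c, hc, rfl⟩
    exact ⟨c, hc, by rw [← map_inv, e2_inv]⟩

omit S in
theorem img_two (A : AddSubgroup FF) : IsPGroup 2 (img ρ A) := by
  rintro ⟨_, c, -, rfl⟩
  exact ⟨1, Subtype.ext (by simpa [pow_two] using sq c)⟩

omit S in
theorem ep_cent (A : AddSubgroup FF) (c : FF) : ρ (e2 c) ∈ centralizer (img ρ A : Set G) := by
  rintro _ ⟨d, -, rfl⟩
  exact ((e2_comm d c).map ρ).eq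

theorem St_trans [Finite G] [Finite Ω] (β : Ω) :
    ∃ h ∈ centralizer (img ρ (St ρ β) : Set G), h • α = β :=
  S.cent_trans (img_two _) (by rintro _ ⟨c, -, rfl⟩; exact S.fix _)
    (by rintro _ ⟨c, hc, rfl⟩; exact hc)

theorem tv : Tv (ρ (e2 a0)) (EE.map ρ) α (ρ (e2 f0)) (ρ (e2 o1)) (ρ (e2 o2)) (ρ τ2) where
  a2 := sq _
  aα := S.fix _
  nrm := by
    rintro y h1 h2 _ ⟨v, hv, rfl⟩
    obtain ⟨y, rfl⟩ := (S.stab y).mp h2
    exact ⟨_, EE_norm (y := y) (S.inj (by rw [map_mul, map_mul, h1.eq])) hv, by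
      rw [map_mul, map_mul, map_inv]⟩
  sq := by
    rintro _ ⟨v, hv, rfl⟩
    rw [← map_mul, EE_sq hv, map_one]
  cm := by
    rintro _ ⟨v, hv, rfl⟩
    exact (EE_comm hv).map ρ
  fx := by
    rintro _ ⟨v, -, rfl⟩
    exact S.fix v
  only := by
    rintro _ ⟨v, hv, rfl⟩ h1
    obtain ⟨c, c1, c2⟩ := EE_wt S.inv hv fun e => h1 (by rw [e, map_one])
    rw [← map_mul]
    exact S.only_cj (S.w16_only c1) c2.symm
  f2 := sq _
  fa := (e2_comm _ _).map ρ
  fα := S.fix _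
  fo := S.w16_only wF_f0
  m1 := ⟨_, o1_mem, rfl⟩
  m2 := ⟨_, o2_mem, rfl⟩
  mτ := ⟨_, τ2_mem, rfl⟩
  n1 := fun e => o1_ne (S.inj (e.trans ρ.map_one.symm))
  n2 := fun e => o2_ne (S.inj (e.trans ρ.map_one.symm))
  n12 := fun e => o12_ne (S.inj e)
  c1 := mul_inv_eq_iff_eq_mul.mpr ((e2_comm _ _).map ρ).eq
  c2 := mul_inv_eq_iff_eq_mul.mpr ((e2_comm _ _).map ρ).eq
  act := by
    rintro _ ⟨v, hv, rfl⟩
    simpa only [← map_mul, ← map_inv] using (EE_act hv).imp (congrArg ρ) (congrArg ρ)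
  actτ := by simpa only [← map_mul, ← map_inv] using congrArg ρ act_τ

theorem w8_only [Finite G] [Finite Ω] {c : FF} (h : wF c = 8) :
    ∀ β, ρ (e2 c) • β = β → β = α := by
  refine S.only_cj (fun β hβ => ?_) (conj_wF (wF_a0.trans h.symm))
  obtain ⟨H, H1, H2⟩ := S.St_trans β
  exact S.tv.main (H1 _ ⟨a0, hβ, rfl⟩).symm H2

theorem no_max [Finite G] [Finite Ω] {β : Ω} (hβ : β ≠ α) {a : FF} (ha : a ∈ St ρ β)
    (a0 : a ≠ 0) (hm : ∀ γ ≠ α, St ρ β ≤ St ρ γ → St ρ γ ≤ St ρ β) : False := by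
  set A := St ρ β with hA
  have h8 : ∀ c ∈ A, wF c ≠ 8 := fun c hc e => hβ (S.w8_only e β hc)
  have h16 : ∀ c ∈ A, wF c ≠ 16 := fun c hc e => hβ (S.w16_only e β hc)
  have h12 : wF a = 12 := by
    have b1 := h8 a ha
    have b2 := h16 a ha
    have b3 := (wF_cases a).resolve_left a0
    omega
  set X := centralizer (img ρ A : Set G) with hX
  obtain ⟨h, hh, hβ'⟩ := S.St_trans β
  have nB : ((img ρ A).subgroupOf X).Normal := ⟨fun b hb g => by
    rw [mem_subgroupOf] at hb ⊢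
    rw [coe_mul, coe_mul, ← g.2 _ hb]
    simpa using hb⟩
  let φ := QuotientGroup.mk' ((img ρ A).subgroupOf X)
  have hφ : Function.Surjective φ := QuotientGroup.mk'_surjective _
  let e : FF → X := fun c => ⟨_, ep_cent A c⟩
  have K0 : ∀ u v : X, φ u = φ v → ∃ b ∈ A, v.1 = u.1 * ρ (e2 b) := fun u v huv => by
    obtain ⟨b, hb, e⟩ := mem_subgroupOf.mp (QuotientGroup.eq.mp huv)
    exact ⟨b, hb, by rw [e]; simp⟩
  have K3 : ∀ (k u : X) (c : FF) (γ : Ω), c ∉ A → φ u = φ (k * e c * k⁻¹) → u.1 • γ = γ →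
      A ≤ St ρ γ → k.1⁻¹ • γ = α := fun k u c γ hc huv hu hγ => by
    obtain ⟨b, hb, e1⟩ := K0 _ _ huv
    have e2' : (k.1 * ρ (e2 c) * k.1⁻¹) • γ = γ := by
      rw [show k.1 * ρ (e2 c) * k.1⁻¹ = _ from e1, mul_smul, show ρ (e2 b) • γ = γ from hγ hb, hu]
    by_contra hne
    refine hc (hm _ hne (fun d hd => ?_) (smul_cj.mp e2'))
    refine smul_cj.mp ?_
    rw [← k.2 _ ⟨d, hd, rfl⟩, mul_inv_cancel_right]
    exact hγ hd
  have hα : A ≤ St ρ α := fun c _ => S.fix _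
  have es : ∀ c, e c * e c = 1 := fun c => Subtype.ext (sq c)
  refine count_F A h8 h16 fun c hc d hd => ?_
  let H : X := ⟨h, hh⟩
  have y2 : H * e d * H⁻¹ * (H * e d * H⁻¹) = 1 := by simpa using sq_cj (es d) H⁻¹
  have yβ : (H * e d * H⁻¹).1 • β = β := smul_cj.mpr (by
    rw [← hβ', inv_smul_smul]; exact S.fix _)
  rcases dihedral (u := φ (e c)) (v := φ (H * e d * H⁻¹)) (by rw [← map_mul, es, map_one])
    (by rw [← map_mul, y2, map_one]) with ⟨j, h2⟩ | ⟨w, w1, -, w2, w3, -, i, j, h2⟩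
  · obtain ⟨k, hk⟩ := hφ ((φ (e c) * φ (H * e d * H⁻¹)) ^ j)
    have h3 : φ (e d) = φ ((H⁻¹ * k⁻¹) * e c * (H⁻¹ * k⁻¹)⁻¹) := by
      rw [← hk] at h2
      simp only [map_mul, map_inv] at h2 ⊢
      rw [show φ (e d) = (φ H)⁻¹ * (φ H * φ (e d) * (φ H)⁻¹) * φ H by group, ← h2]
      group
    have h4 := K3 _ _ c α hc h3 (S.fix _) hα
    obtain ⟨b, hb, e1⟩ := K0 _ _ h3
    generalize H⁻¹ * k⁻¹ = l at h4 e1
    obtain ⟨x, hx⟩ := (S.stab _).mp (inv_smul_eq_iff.mp h4).symm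
    refine ⟨b, hb, fun a ha => wF_conj (isConj_iff.mpr ⟨x, S.inj ?_⟩)⟩
    change l.1 * ρ (e2 c) * l.1⁻¹ = ρ (e2 d) * ρ (e2 b) at e1
    simp only [e2_add, map_mul, map_inv, hx]
    rw [← e1, mul_assoc _ l.1⁻¹, ← (show Commute (ρ (e2 a)) l.1 from
      l.2 _ ⟨a, ha, rfl⟩).inv_right.eq]
    group
  · obtain ⟨w, rfl⟩ := hφ w
    obtain ⟨k, hk⟩ := hφ ((φ (e c) * φ (H * e d * H⁻¹)) ^ i)
    have f1 : w.1⁻¹ • α = α := K3 w (e c) c α hc (by
      rw [map_mul, map_mul, map_inv, eq_mul_inv_iff_mul_eq]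
      exact w2.eq.symm) (S.fix _) hα
    have f2 : (w * H).1⁻¹ • β = α := K3 (w * H) _ d β hd (by
      rw [show w * H * e d * (w * H)⁻¹ = w * (H * e d * H⁻¹) * w⁻¹ by group, map_mul φ (w * _),
        map_mul φ w, map_inv, eq_mul_inv_iff_mul_eq]
      exact w3.eq.symm) yβ le_rfl
    have f3 : w.1 • α = α := (inv_smul_eq_iff.mp f1).symm
    have f4 : w.1 • β = β := by
      conv_lhs => rw [← hβ']
      exact (mul_smul _ _ _).symm.trans (inv_smul_eq_iff.mp f2).symm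
    obtain ⟨k', c', hc', h3⟩ : ∃ (k' : X) (c' : FF), c' ∉ A ∧
        φ (w * e c) = φ (k' * e c' * k'⁻¹) := by
      rw [← hk] at h2
      rcases h2 with h2 | h2
      · exact ⟨k⁻¹, c, hc, by simpa only [map_mul, map_inv, inv_inv] using h2.1⟩
      · refine ⟨k⁻¹ * H, d, hd, (map_mul φ _ _).trans (h2.1.trans ?_)⟩
        simp only [map_mul, map_inv]
        group
    have h4 := K3 _ _ c' α hc' h3 (by
      change (w.1 * ρ (e2 c)) • α = α
      rw [mul_smul, S.fix, f3]) hα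
    obtain ⟨x, hx⟩ := (S.stab _).mp (inv_smul_eq_iff.mp h4).symm
    obtain ⟨c'', hπ⟩ := mon_F (x := x) h12 (S.inj (by
      rw [map_mul, map_mul, hx]
      exact (k'.2 _ ⟨a, ha, rfl⟩).symm)) c'
    obtain ⟨b, hb, e1⟩ := K0 _ _ h3
    have e3 : ρ (e2 (c'' + b + c)) = w.1 := by
      rw [e2_add, e2_add, map_mul, map_mul, ← hπ, map_mul, map_mul, map_inv, hx]
      refine (congrArg (· * ρ (e2 b) * ρ (e2 c)) e1).trans ?_
      change w.1 * ρ (e2 c) * ρ (e2 b) * ρ (e2 b) * ρ (e2 c) = _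
      rw [mul_assoc _ _ (ρ (e2 b)), sq b, mul_one, mul_assoc, sq c, mul_one]
    refine (w1 ((QuotientGroup.eq_one_iff w).mpr (mem_subgroupOf.mpr ⟨_, ?_, e3⟩))).elim
    change ρ (e2 _) • β = β
    rw [e3, f4]

theorem ep_only [Finite G] [Finite Ω] {c : FF} (h : c ≠ 0) (β : Ω)
    (hβ : ρ (e2 c) • β = β) : β = α := by
  by_contra hne
  obtain ⟨γ, ⟨h1, a, ha, h2⟩, h3⟩ := Set.exists_max_image
    {γ : Ω | γ ≠ α ∧ ∃ a ∈ St ρ γ, a ≠ 0} (fun γ => Nat.card (St ρ γ)) (Set.toFinite _)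
    ⟨β, hne, c, hβ, h⟩
  exact S.no_max h1 ha h2 fun δ hδ hle =>
    (AddSubgroup.eq_of_le_of_card_ge hle (h3 δ ⟨hδ, a, hle ha, h2⟩)).ge

theorem all_eq [Finite G] [Finite Ω] {t : FF} (ht : t ≠ 0)
    (hn : ¬ IsConj (ρ (e2 O)) (ρ (e2 t))) (β : Ω) : β = α := by
  by_contra hne
  obtain ⟨g, rfl⟩ := S.tr β
  have oy : ∀ γ, (g * ρ (e2 t) * g⁻¹) • γ = γ → γ = g • α := fun γ hγ => by
    rw [← S.ep_only ht _ (smul_cj.mp hγ), smul_inv_smul]
  rcases dihedral (sq O) (v := g * ρ (e2 t) * g⁻¹) (by simpa using sq_cj (sq t) g⁻¹) with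
    ⟨j, h2⟩ | ⟨v, v1, v2, v3, v4, -⟩
  · exact hn ((h2 ▸ isConj_cj _ _).trans (isConj_iff.mpr ⟨g, rfl⟩).symm)
  have f1 : v • α = α := S.only _ (by rw [← mul_smul, ← v3.eq, mul_smul, S.fix])
  have f2 : v • g • α = g • α := oy _ (by
    rw [← mul_smul, ← v4.eq, mul_smul, smul_cj.mpr (by rw [inv_smul_smul, S.fix])])
  obtain ⟨x, rfl⟩ := (S.stab v).mp f1
  obtain ⟨c, h3⟩ := S.inv x (S.inj (by rw [map_mul, v2, map_one]))
  refine hne (S.only_cj (S.ep_only (c := c) fun e => v1 ?_) h3.symm _ f2)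
  rw [e, e2_zero, isConj_one_left] at h3
  rw [h3, map_one]

end Setg2

end Le

open Le in
/-- The last step of the recognition of `Co₂`. -/
theorem surj2 {G : Type*} [Group G] [Finite G] (Φ : Spor.Co2 →* G) (hΦ : Function.Injective Φ)
    {c16 c8 c12 : GolayPt → ZMod 2} {m16 : c16 ∈ golayCode} {m8 : c8 ∈ golayCode}
    {m12 : c12 ∈ golayCode} {z16 : c16 none = 0 ∧ c16 (some 0) = 0}
    {z8 : c8 none = 0 ∧ c8 (some 0) = 0} {z12 : c12 none = 0 ∧ c12 (some 0) = 0}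
    (w16 : wt c16 = 16) (w8 : wt c8 = 8) (w12 : wt c12 = 12)
    (hC : centralizer {Φ (ep2 c16 m16 z16)} ≤ Φ.range)
    (hodd : Odd (centralizer ({Φ (ep2 c16 m16 z16)} : Set G)).index)
    (hinv : ∀ x : Spor.Co2, x * x = 1 → ∃ c hc h, IsConj x (ep2 c hc h))
    (n8 : ¬ IsConj (Φ (ep2 c16 m16 z16)) (Φ (ep2 c8 m8 z8)))
    (n12 : ¬ IsConj (Φ (ep2 c16 m16 z16)) (Φ (ep2 c12 m12 z12))) : Function.Surjective Φ := by
  let O : FF := ⟨⟨c16, m16⟩, z16⟩
  let O8 : FF := ⟨⟨c8, m8⟩, z8⟩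
  let O12 : FF := ⟨⟨c12, m12⟩, z12⟩
  change centralizer {Φ (e2 O)} ≤ Φ.range at hC
  change Odd (centralizer ({Φ (e2 O)} : Set G)).index at hodd
  change ¬ IsConj (Φ (e2 O)) (Φ (e2 O8)) at n8
  change ¬ IsConj (Φ (e2 O)) (Φ (e2 O12)) at n12
  have inv : ∀ x : Spor.Co2, x * x = 1 → ∃ c : FF, IsConj x (e2 c) := fun x hx => by
    obtain ⟨c, hc, h, e⟩ := hinv x hx
    exact ⟨⟨⟨c, hc⟩, h⟩, e⟩
  have hc : (centralizer ({Φ (e2 O)} : Set G)).comap Φ = centralizer {e2 O} := Subgroup.ext fun x => by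
    rw [mem_comap, mem_centralizer_singleton_iff, mem_centralizer_singleton_iff, ← map_mul,
      ← map_mul, hΦ.eq_iff]
  rw [← relIndex_mul_index hC, Nat.odd_mul, ← index_comap, hc] at hodd
  have stab : ∀ g : G, g • ((1 : G) : G ⧸ Φ.range) = (1 : G) ↔ g ∈ Φ.range := fun g => by
    change ((g * 1 : G) : G ⧸ Φ.range) = (1 : G) ↔ _
    rw [QuotientGroup.eq, mul_one, mul_one, inv_mem_iff]
  have O0 : ∀ {c : FF} {n : ℤ}, wF c = n → n ≠ 0 → c ≠ 0 := fun h hn e =>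
    hn (by rw [← h, e, wF_0])
  have S : Setg2 Φ ((1 : G) : G ⧸ Φ.range) O := by
    refine ⟨hΦ, hodd.2, hodd.1, fun β => MulAction.exists_smul_eq G _ β, stab, w16, fun β hβ => ?_,
      inv⟩
    obtain ⟨g, rfl⟩ := MulAction.exists_smul_eq G ((1 : G) : G ⧸ Φ.range) β
    obtain ⟨y, e⟩ := (stab (g⁻¹ * Φ (e2 O) * g)).mp (by
      rw [mul_smul, mul_smul, hβ, inv_smul_smul])
    have c0 : IsConj (Φ (e2 O)) (Φ y) := e ▸ isConj_cj _ _
    obtain ⟨c, h2⟩ := inv y (hΦ (by rw [map_mul, map_one]; exact sq_of_isConj (Setg2.sq O) c0))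
    have c1 := c0.trans (Φ.map_isConj h2)
    rcases wF_cases c with w | w | w | w
    · rw [w, e2_zero, map_one, isConj_one_left] at c1
      exact absurd (e2_inj ((hΦ (c1.trans Φ.map_one.symm)).trans e2_zero.symm))
        (O0 (c := O) w16 (by decide))
    · exact absurd (c1.trans (Φ.map_isConj (conj_wF (d := O8) (w.trans w8.symm)))) n8
    · exact absurd (c1.trans (Φ.map_isConj (conj_wF (d := O12) (w.trans w12.symm)))) n12
    · obtain ⟨k, rfl⟩ := isConj_iff.mp ((conj_wF (c := O) (w16.trans w.symm)).trans h2.symm)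
      rw [map_mul, map_mul, map_inv] at e
      refine (stab g).mpr ((Φ.range.mul_mem_cancel_right (x := Φ k) ⟨k, rfl⟩).mp
        (hC (mem_centralizer_singleton_iff.mpr ?_)))
      rw [mul_assoc, mul_inv_eq_iff_eq_mul.mp e]
      group
  intro g
  exact (stab g).mp (S.all_eq (t := O8) (O0 w8 (by decide)) n8 _)

end Cfsg.Co2
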