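import Cfsg.Agent.Co2.E4
import Cfsg.Agent.Co.CM

/-! The involutions of `Co₂` are conjugate to sign changes. -/

set_option autoImplicit false
set_option maxRecDepth 100000
set_option maxHeartbeats 400000

namespace Cfsg.Co2

open Cfsg.H4.Golay Cfsg.H6 Cfsg.H6.Leech Cfsg.H2 Cfsg.Co Subgroup

namespace Le

/-- The pair can be moved to a sign change together with the standard vector. -/
def Gd (c : golayCode) (v : leechLattice) : Prop :=
  ∃ (k : Co0) (d : golayCode), k.1 v = Spor.leechU ∧ k * ep c * k⁻¹ = ep d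

theorem Gd.of {c d : golayCode} {v : leechLattice} (k : Co0) (e : k * ep c * k⁻¹ = ep d)
    (h : Gd d (k.1 v)) : Gd c v := by
  obtain ⟨l, f, h1, h2⟩ := h
  exact ⟨l * k, f, h1, by rw [← h2, ← e]; group⟩

theorem cj_ep (s c : golayCode) : ep s * ep c * (ep s)⁻¹ = ep c := by
  rw [mul_inv_eq_iff_eq_mul, ← ep_add, ← ep_add, add_comm]

theorem cj_perm (π : M24) (c : golayCode) : toCo0 π * ep c * (toCo0 π)⁻¹ = ep (ac π⁻¹ c) :=
  conj_eps π c.2

theorem signs {n : ℕ} (hn : n ≤ 5) {f : Fin n → GolayPt} (hf : Function.Injective f)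
    (v : leechLattice) (y : Fin n → ℤ) (hy : ∀ a, y a = v.1 (f a) ∨ y a = -v.1 (f a)) :
    ∃ s : golayCode, ∀ a, ((ep s).1 v).1 (f a) = y a := by
  obtain ⟨c, hc, e⟩ := free5 hn hf fun a => if y a = v.1 (f a) then 0 else 1
  refine ⟨⟨c, hc⟩, fun a => ?_⟩
  rw [ep, eps_apply]
  have h1 := e a
  split_ifs at h1 with h3
  · rw [sg_of_zero h1, h3, one_mul]
  · rw [sg_of_one h1, (hy a).resolve_left h3, neg_one_mul]

theorem gd_four (c : golayCode) {v : leechLattice} (hv : sqNorm v.1 = 32) (h4 : ∀ i, v.1 i % 4 = 0) :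
    Gd c v := by
  have b : ∀ i, v.1 i ^ 2 ≤ 32 := fun i => hv ▸
    Finset.single_le_sum (f := fun i => v.1 i ^ 2) (fun i _ => sq_nonneg _) (Finset.mem_univ i)
  have t : ∀ i, v.1 i = 0 ∨ v.1 i = 4 ∨ v.1 i = -4 := fun i => by
    have := h4 i
    have h1 : v.1 i ≤ 5 := by nlinarith [b i]
    have h2 : -5 ≤ v.1 i := by nlinarith [b i]
    omega
  have c2 : (Finset.univ.filter fun i => v.1 i ≠ 0).card = 2 := by
    have : sqNorm v.1 = 16 * ((Finset.univ.filter fun i => v.1 i ≠ 0).card : ℤ) := by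
      rw [sqNorm, Finset.card_filter]
      push_cast
      rw [Finset.mul_sum]
      refine Finset.sum_congr rfl fun i _ => ?_
      rcases t i with e | e | e <;> simp [e]
    omega
  obtain ⟨i, j, hij, e⟩ := Finset.card_eq_two.mp c2
  have m : ∀ l, v.1 l ≠ 0 ↔ l = i ∨ l = j := fun l => by
    have := Finset.ext_iff.mp e l
    simpa using this
  have inj : Function.Injective ![i, j] := by
    intro a b e
    fin_cases a <;> fin_cases b <;> simp_all
  obtain ⟨s, hs⟩ := signs (n := 2) (by norm_num) inj v (fun _ => 4) fun a => by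
    have h1 : v.1 (![i, j] a) ≠ 0 := (m _).mpr (by fin_cases a <;> simp)
    have := t (![i, j] a)
    omega
  obtain ⟨π, hπ⟩ := trans5 (n := 2) (by norm_num) inj (g := ![none, some 0]) (by decide)
  refine Gd.of (ep s) (cj_ep s c) ⟨toCo0 π, _, Subtype.ext (funext fun l => ?_), cj_perm π c⟩
  obtain ⟨l, rfl⟩ := π.1.surjective l
  have p0 : π.1 i = none := hπ 0
  have p1 : π.1 j = some 0 := hπ 1
  rw [toCo0_apply, u_apply]
  split_ifs with h
  · rcases h with h | h
    · rw [π.1.injective (h.trans p0.symm)]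
      exact hs 0
    · rw [π.1.injective (h.trans p1.symm)]
      exact hs 1
  · rw [ep, eps_apply, not_not.mp (mt (m l).mp ?_), mul_zero]
    rintro (rfl | rfl)
    exacts [h (Or.inl p0), h (Or.inr p1)]

/-- The unions of tetrads that miss the standard octad. -/
def U8 : List ℕ := [0, 9158944, 12733024, 4819776, 11952160, 4038912, 7612992, 16771936]

theorem U8_ok : ∀ m ∈ U8, H4.Golay.red basis m = 0 ∧ cjChk xiC m (fun i => i) m (fun i => i) = true := by
  decide +kernel

theorem gd_U8 {m : ℕ} (hm : m ∈ U8) (hc : wd m ∈ golayCode) {v : leechLattice}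
    (hv : sqNorm v.1 = 32) (h2 : ∀ b < 4, v.1 (pt b) = 2 ∨ v.1 (pt b) = -2) : Gd ⟨_, hc⟩ v := by
  have H := had_of_chk xi_aut xi_had
  obtain ⟨s, hs⟩ := signs (n := 4) (by norm_num) H.inj v
    (fun b => 2 * (Leech.ent xiC (24 * ((0 : Fin 4) : ℕ) + b) / 4)) fun b => by
      have a1 := H.pm 0 b
      have a2 := h2 b b.2
      omega
  have e : cu xiC * ep ⟨_, hc⟩ * (cu xiC)⁻¹ = ep ⟨_, hc⟩ := by
    have := (hasMat_cu xi_aut).cj hc hc Rep.one Rep.one (U8_ok m hm).2
    rwa [map_one, mul_one] at this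
  refine Gd.of (ep s) (cj_ep s _) (Gd.of (cu xiC)⁻¹ (d := ⟨_, hc⟩) (by
    conv_lhs => rw [← e]
    group) ?_)
  have n : sqNorm ((cu xiC)⁻¹.1 ((ep s).1 v)).1 = 32 := by rw [map_norm, map_norm, hv]
  have a := H.act ((ep s).1 v) 0
  rw [Finset.sum_congr rfl (g := fun _ => 2) fun b _ => by
    rw [hs b]
    rcases H.pm 0 b with t | t <;> rw [t] <;> rfl] at a
  have a4 : ((cu xiC)⁻¹.1 ((ep s).1 v)).1 (pt ((0 : Fin 4) : ℕ)) = 4 := by
    simp only [Finset.sum_const, Finset.card_univ, Fintype.card_fin, nsmul_eq_mul] at a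
    omega
  refine gd_four _ n (all4 (p := pt ((0 : Fin 4) : ℕ)) (by omega) {pt ((0 : Fin 4) : ℕ)} ?_ ?_)
  · simp only [Finset.mem_singleton]
    rintro _ rfl
    omega
  · rw [n, Finset.sum_singleton, a4]
    norm_num

/-- Elements of the stabiliser of the standard octad. -/
def L5 : List (ℕ × ℕ) := [(984818244535754528103549039458486304, 984818244535754528103549039458486304), (362552475573707933345242995365383402, 922259720484811702419259144473225607), (676994454455673416666077433359806562, 392767839038830624797458935916298346), (635506664995551381664824911752136932, 713225335110133340384304711325780356), (858572749989411401396573892044457188, 225488677698737521614895797147868228)]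

theorem L5_ok : ∀ e ∈ L5, (Inverse e.1 e.2 ∧ okM e.1 = true) ∧
    ∀ i < 24, tb e.1 i < 4 → Nat.testBit 5279 i = true := by decide +kernel

theorem L5_cov : allSpan (fun m => ((List.range 24).any fun i => m.testBit i && Nat.testBit 5279 i) ||
    L5.any fun e => U8.any fun r => (List.range 24).all fun i =>
      m.testBit i == r.testBit (tb e.1 i)) basis 0 = true := by decide +kernel

theorem gd_std {c : golayCode} {v : leechLattice} (hv : sqNorm v.1 = 32)
    (h2 : ∀ i, wd 5279 i = 1 → c.1 i = 0 ∧ (v.1 i = 2 ∨ v.1 i = -2)) : Gd c v := by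
  obtain ⟨m, h1, e⟩ := exists_mask L5_cov c.2
  have k : ∀ i, Nat.testBit 5279 (idx i) = true → wd 5279 i = 1 := fun i hi => if_pos hi
  simp only [Bool.or_eq_true, List.any_eq_true, List.all_eq_true, List.mem_range, beq_iff_eq,
    Bool.and_eq_true] at h1
  rcases h1 with ⟨i, hi, a, b⟩ | ⟨x, hx, r, hr, h1⟩
  · have := (h2 (pt i) (k _ (by rwa [idx_pt i hi]))).1
    rw [e, wd, idx_pt i hi, if_pos a] at this
    exact absurd this one_ne_zero
  have R := rep_mk24 (L5_ok x hx).1
  refine Gd.of (toCo0 (mk24 (L5_ok x hx).1)) (d := ⟨_, wd_mem (U8_ok r hr).1⟩) ?_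
    (gd_U8 hr _ (by rw [map_norm, hv]) fun b hb => ?_)
  · rw [cj_perm]
    congr 1
    refine Subtype.ext ?_
    change c.1 ∘ _ = _
    rw [e, R.wd h1, comp_inv]
  · obtain ⟨i, hi⟩ := (mk24 (L5_ok x hx).1).1.surjective (pt b)
    have := R i
    rw [hi, idx_pt b (by omega)] at this
    rw [← hi, toCo0_apply]
    exact (h2 i (k i ((L5_ok x hx).2 _ (idx_lt i) (by omega)))).2

theorem gd_all {c : golayCode} (c0 : c ≠ 0) {v : leechLattice} (hv : sqNorm v.1 = 32)
    (h : (ep c).1 v = v) : Gd c v := by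
  have z : ∀ i, c.1 i = 1 → v.1 i = 0 := fun i hi => by
    have := congrFun (congrArg Subtype.val h) i
    rw [ep, eps_apply, sg_of_one hi] at this
    omega
  obtain ⟨p, hp⟩ : ∃ p, c.1 p = 1 := by
    by_contra hc
    push Not at hc
    exact c0 (Subtype.ext (funext fun i => (two_cases _).resolve_right (hc i)))
  obtain ⟨d, hd, k, -⟩ := even_type v.2 (p := p) (by rw [z p hp]; rfl)
  have n1 : ∀ i ∈ Finset.univ, 0 ≤ v.1 i ^ 2 - 4 * lf d i := fun i _ => by
    have a := k i
    rcases lf_cases d i with b | b <;> rw [b] at a ⊢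
    · nlinarith [sq_nonneg (v.1 i)]
    · rcases le_or_gt (v.1 i) 0 with t | t
      · have : v.1 i ≤ -2 := by omega
        nlinarith
      · have : 2 ≤ v.1 i := by omega
        nlinarith
  have n2 : ∑ i, (v.1 i ^ 2 - 4 * lf d i) = 32 - 4 * wt d := by
    rw [Finset.sum_sub_distrib, ← Finset.mul_sum, ← hv]
    rfl
  have n3 := Finset.sum_nonneg n1
  have n4 := wt_cases hd
  rcases (by omega : wt d = 0 ∨ wt d = 8) with w | w
  · exact gd_four c hv fun i => by rw [k, lf_of_wt_zero w, mul_zero]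
  have n5 := (Finset.sum_eq_zero_iff_of_nonneg n1).mp (by omega)
  obtain ⟨π, rfl⟩ := oct_std hd w
  refine Gd.of (toCo0 π) (cj_perm π c) (gd_std (by rw [map_norm, hv]) fun i hi => ?_)
  obtain ⟨i, rfl⟩ := π.1.surjective i
  have a := n5 i (Finset.mem_univ i)
  rw [lf_eq_one.mpr (show (wd 5279 ∘ π.1) i = 1 from hi)] at a
  have b : v.1 i = 2 ∨ v.1 i = -2 := by
    have : (v.1 i - 2) * (v.1 i + 2) = 0 := by nlinarith
    rcases mul_eq_zero.mp this with t | t <;> omega
  rw [toCo0_apply]
  refine ⟨?_, b⟩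
  change c.1 (π.1⁻¹ (π.1 i)) = 0
  rw [show π.1⁻¹ (π.1 i) = i from π.1.symm_apply_apply i]
  refine (two_cases _).resolve_right fun e => ?_
  have := z i e
  omega

theorem norm_u : sqNorm Spor.leechU.1 = 32 := by
  change sqNorm Spor.vecU = 32
  decide +kernel

theorem inv_mon {y : Spor.Co2} (hy : inc2 y ∈ Mon) (h : y * y = 1) :
    ∃ c : FF, IsConj y (e2 c) := by
  have h2 : inc2 y * inc2 y = 1 := by rw [← map_mul, h, map_one]
  rcases cls_mon hy (Or.inl h2) with ⟨c, hc, e⟩ | e
  swap
  · exact absurd (w4_sq.symm.trans (sq_of_isConj h2 e)) neg_ne_one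
  by_cases c0 : (⟨c, hc⟩ : golayCode) = 0
  · obtain rfl : c = 0 := congrArg Subtype.val c0
    rw [eps_zero, isConj_one_left] at e
    exact ⟨0, by rw [e2_zero, inc2_inj (e.trans inc2.map_one.symm)]⟩
  obtain ⟨g, e⟩ := isConj_iff.mp e
  obtain ⟨k, d, k1, k2⟩ := gd_all c0 (v := g.1 Spor.leechU) (by rw [map_norm, norm_u]) (by
    change (eps c hc).1 _ = _
    rw [← e, Co.mul_apply, Co.mul_apply, inv_apply, fix_u])
  have e1 : k * g * inc2 y * (k * g)⁻¹ = eps d.1 d.2 := by
    rw [show eps d.1 d.2 = _ from k2.symm, show ep ⟨c, hc⟩ = _ from e.symm]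
    group
  have e2' : (eps d.1 d.2).1 Spor.leechU = Spor.leechU := by
    have f : (k * g).1 Spor.leechU = Spor.leechU := k1
    conv_lhs => rw [← e1, ← f]
    rw [Co.mul_apply, inv_apply, Co.mul_apply, fix_u, f]
  refine ⟨⟨d, (eps_fix d.2).mp e2'⟩, isConj_iff.mpr ⟨mk2 (k * g) k1, inc2_inj ?_⟩⟩
  rw [map_mul, map_mul, map_inv]
  exact e1

open scoped Pointwise in
theorem card_pair : Nat.card (MulAction.stabilizer M24 ({none, some 0} : Finset GolayPt)) =
    887040 := by
  have h1 := (MulAction.stabilizer M24 ({none, some 0} : Finset GolayPt)).card_mul_index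
  have h2 : MulAction.orbit M24 ({none, some 0} : Finset GolayPt) =
      (Finset.powersetCard 2 (Finset.univ : Finset GolayPt) : Set (Finset GolayPt)) := by
    ext S
    simp only [Finset.mem_coe, Finset.mem_powersetCard, Finset.subset_univ, true_and]
    constructor
    · rintro ⟨π, rfl⟩
      exact (Finset.card_smul_finset π _).trans (by decide)
    · intro h
      obtain ⟨i, j, hij, rfl⟩ := Finset.card_eq_two.mp h
      obtain ⟨π, hπ⟩ := trans5 (n := 2) (by norm_num) (f := ![none, some 0]) (g := ![i, j])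
        (by decide) (by
          intro a b e
          fin_cases a <;> fin_cases b <;> simp_all)
      refine ⟨π, ?_⟩
      change π • ({none, some 0} : Finset GolayPt) = _
      rw [Finset.smul_finset_insert, Finset.smul_finset_singleton]
      exact congrArg₂ (fun a b => ({a, b} : Finset GolayPt)) (hπ 0) (hπ 1)
  rw [MulAction.index_stabilizer, h2, Set.ncard_coe_finset, Finset.card_powersetCard, CM.card,
    Finset.card_univ, show Fintype.card GolayPt = 24 by simp,
    show Nat.choose 24 2 = 276 by decide] at h1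
  omega

open scoped Pointwise in
theorem pair_fix (π : MulAction.stabilizer M24 ({none, some 0} : Finset GolayPt)) :
    (toCo0 π.1).1 Spor.leechU = Spor.leechU := by
  have h : π.1 • ({none, some 0} : Finset GolayPt) = {none, some 0} := π.2
  rw [Finset.smul_finset_insert, Finset.smul_finset_singleton] at h
  have a : π.1.1 none ∈ ({none, some 0} : Finset GolayPt) :=
    (Finset.ext_iff.mp h _).mp (Finset.mem_insert_self _ _)
  have b : π.1.1 (some 0) ∈ ({none, some 0} : Finset GolayPt) :=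
    (Finset.ext_iff.mp h _).mp (Finset.mem_insert_of_mem (Finset.mem_singleton_self _))
  have n : π.1.1 none ≠ π.1.1 (some 0) := fun e => by simpa using π.1.1.injective e
  simp only [Finset.mem_insert, Finset.mem_singleton] at a b
  refine perm_fix ?_
  rcases a with a | a <;> rcases b with b | b
  exacts [absurd (a.trans b.symm) n, Or.inl ⟨a, b⟩, Or.inr ⟨a, b⟩, absurd (a.trans b.symm) n]

open scoped Pointwise in
theorem card_N2 : Nat.card (Mon.comap inc2) = 1024 * 887040 := by
  rw [← card_FF, ← card_pair, ← Nat.card_prod]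
  refine (Nat.card_eq_of_bijective
    (fun x : FF × MulAction.stabilizer M24 ({none, some 0} : Finset GolayPt) =>
    (⟨e2 x.1 * mk2 _ (pair_fix x.2), by
      rw [mem_comap, map_mul]
      exact mul_mem (eps_mem_Mon _ x.1.1.2) (toCo0_mem_Mon _)⟩ : Mon.comap inc2)) ⟨?_, ?_⟩).symm
  · rintro ⟨c, π⟩ ⟨d, ρ⟩ e
    have e1 : ep c.1 * toCo0 π.1 = ep d.1 * toCo0 ρ.1 := by
      have := congrArg (fun x : Mon.comap inc2 => inc2 x.1) e
      simp only [map_mul] at this
      exact this
    have e2 : toCo0 (π.1 * ρ.1⁻¹) = ep (c.1 + d.1) := by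
      rw [map_mul, map_inv, ep_add, mul_inv_eq_iff_eq_mul, mul_assoc, ← e1, ← mul_assoc, ← ep_add,
        two_code, show ep 0 = 1 from eps_zero, one_mul]
    have e3 : π.1 = ρ.1 := mul_inv_eq_one.mp (toCo0_eq_eps e2)
    rw [e3, mul_left_inj] at e1
    exact Prod.ext (Subtype.ext (Subtype.ext (eps_inj e1))) (Subtype.ext e3)
  · rintro ⟨g, hg⟩
    obtain ⟨c, hc, π, e⟩ := mon_eq (mem_comap.mp hg)
    have h2 : ∀ i, i = none ∨ i = some 0 → (π.1 i = none ∨ π.1 i = some 0) ∧ c (π.1 i) = 0 :=
      fun i hi => by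
        have := congrArg (fun v : leechLattice => v.1 (π.1 i)) (fix_u g)
        simp only [e, Co.mul_apply, eps_apply, toCo0_apply] at this
        rw [u_apply, u_apply, if_pos hi] at this
        have s := sg_cases c (π.1 i)
        have h3 : π.1 i = none ∨ π.1 i = some 0 := by
          by_contra hne
          rw [if_neg hne] at this
          omega
        rw [if_pos h3, sg] at this
        exact ⟨h3, lf_eq_zero.mp (by omega)⟩
    obtain ⟨a1, a2⟩ := h2 _ (Or.inl rfl)
    obtain ⟨b1, b2⟩ := h2 _ (Or.inr rfl)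
    have n : π.1 none ≠ π.1 (some 0) := fun e => by simpa using π.1.injective e
    have k : (c none = 0 ∧ c (some 0) = 0) ∧
        ({π.1 none, π.1 (some 0)} : Finset GolayPt) = {none, some 0} := by
      rcases a1 with a | a <;> rcases b1 with b | b
      · exact absurd (a.trans b.symm) n
      · rw [a] at a2
        rw [b] at b2
        rw [a, b]
        exact ⟨⟨a2, b2⟩, rfl⟩
      · rw [a] at a2
        rw [b] at b2
        rw [a, b]
        exact ⟨⟨b2, a2⟩, Finset.pair_comm _ _⟩
      · exact absurd (a.trans b.symm) n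
    refine ⟨(⟨⟨c, hc⟩, k.1⟩, ⟨π, ?_⟩), Subtype.ext (inc2_inj ?_)⟩
    · change π • ({none, some 0} : Finset GolayPt) = _
      rw [Finset.smul_finset_insert, Finset.smul_finset_singleton]
      exact k.2
    · rw [map_mul]
      exact e.symm

end Le

/-- Every involution of `Co₂` is conjugate to a sign change. -/
theorem hinv (hM : Nat.card Spor.Co2 = 42305421312000) (x : Spor.Co2) (hx : x * x = 1) :
    ∃ c hc h, IsConj x (ep2 c hc h) := by
  have h1 := (Mon.comap inc2).card_mul_index
  rw [Le.card_N2, hM] at h1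
  obtain ⟨g, hg⟩ := exists_conj_mem_of_odd (T := Mon.comap inc2) (by
    rw [show (Mon.comap inc2).index = 46575 by omega]
    decide) (x := x) (k := 1) (by rw [pow_one, sq, hx])
  obtain ⟨c, e⟩ := Le.inv_mon (mem_comap.mp hg) (by
    rw [show g⁻¹ * x * g * (g⁻¹ * x * g) = g⁻¹ * (x * x) * g by group, hx]
    group)
  exact ⟨_, _, c.2, (isConj_iff.mpr ⟨g⁻¹, by rw [inv_inv]⟩).trans e⟩

end Cfsg.Co2
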