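import Cfsg.Agent.Co2.A4
import Cfsg.Agent.Co2.B1

/-! Words in the graph, and the stages of the identification. -/

set_option autoImplicit false
set_option maxRecDepth 100000
set_option linter.unusedSectionVars false

namespace Cfsg.Co2

open Subgroup Cfsg.H6 Cfsg.Co.Rc
open Cfsg.Co2.P (Grp hev)
open Cfsg.Co3G (Sp)

/-- A relator of the centraliser. -/
noncomputable def okC (w : List ℕ) : Bool := inR 30 w && eq1 w

/-- Two words of the centraliser with the same value. -/
noncomputable def eqC (u v : List ℕ) : Bool := inR 30 u && inR 30 v && eqw u v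

/-- Two words of the centraliser with different values. -/
noncomputable def neC (u v : List ℕ) : Bool := inR 30 u && inR 30 v && new u v

/-- Conjugation in the centraliser. -/
noncomputable def cjC (y u v : List ℕ) : Bool :=
  inR 30 y && inR 30 u && inR 30 v && eqw (y ++ u ++ y.reverse) v

/-- The image of a word in the symplectic group. -/
def spw (w : List ℕ) : List ℕ :=
  ((w.flatMap DW).filter (fun l => Nat.ble 10 l)).map fun l => 2 * (l - 10) + 1

/-- Two words of the symplectic group with the same value. -/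
noncomputable def eqS (u v : List ℕ) : Bool := fixB Co3G.imS 16 Co3G.bS (u ++ v.reverse)

/-- The letters of `P`. -/
def PL : List ℕ := [17, 24, 25, 20, 21, 22, 23]

/-- The letters normalised by `t`. -/
def KL : List ℕ := [1, 2, 6, 24, 25, 26, 27, 16, 17, 18, 19, 20, 21, 22, 23, 28, 29, 13]

/-- The action of `t`. -/
def th (l : ℕ) : List ℕ := ([[], [17,24,1], [24,20,21,2], [], [], [], [22,6], [], [], [], [], [], [], [13], [], [], [25,20,16], [17], [17,24,18], [17,24,19], [17,20], [17,21], [22], [23], [24], [17,25], [24,22,23,26], [17,25,20,27], [17,24,22,23,28], [20,21,29]] : List (List ℕ)).getD l []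

/-- The centre of `P`. -/
def Z8 : List (List ℕ) := [[], [17], [24], [17,24], [25], [17,25], [24,25], [17,24,25]]

theorem hth : ∀ l ∈ KL, 1 ≤ l ∧ l < 30 ∧ inR 30 (th l) = true ∧ eqw [30, l, 30] (th l) = true := by
  decide +kernel

theorem PL_KL : ∀ l ∈ PL, l ∈ KL := by decide

variable {G : Type*} [Group G] [Finite G] {z s : G} {Q Q' : Subgroup G} {a a' : ℕ → G}
  {π : centralizer ({z} : Set G) →* Sp} {π' : centralizer ({s} : Set G) →* Sp}
  {Γ : Subgroup (G × Grp)} {g : ℕ → G}

namespace Gr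

variable (h : Gr z a π Γ g)
include h

theorem gw {w : List ℕ} (hw : inR 30 w = true) : (evL g w, evL P.ev w) ∈ Γ := by
  rw [← evL_pr2]
  exact evL_mem_of_letters fun l hl => h.mem l (inR_spec hw l hl).2

theorem eq_l {c d : G} {c0 : Grp} (k : (c, c0) ∈ Γ) (l : (d, c0) ∈ Γ) : c = d := by
  have := mul_mem k (inv_mem l)
  rw [Prod.inv_mk, Prod.mk_mul_mk, mul_inv_cancel] at this
  exact mul_inv_eq_one.mp (h.fst _ this)

theorem eq_r {c : G} {c0 d0 : Grp} (k : (c, c0) ∈ Γ) (l : (c, d0) ∈ Γ) : c0 = d0 := by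
  have := mul_mem k (inv_mem l)
  rw [Prod.inv_mk, Prod.mk_mul_mk, mul_inv_cancel] at this
  exact mul_inv_eq_one.mp (h.snd _ this)

theorem ev_iff {u v : List ℕ} (hu : inR 30 u = true) (hv : inR 30 v = true) :
    evL g u = evL g v ↔ evL P.ev u = evL P.ev v :=
  ⟨fun e => h.eq_r (h.gw hu) (e ▸ h.gw hv), fun e => h.eq_l (h.gw hu) (e ▸ h.gw hv)⟩

theorem hO {w : List ℕ} (k : okC w = true) : evL g w = 1 := by
  simp only [okC, Bool.and_eq_true] at k
  exact (h.ev_iff k.1 (v := []) rfl).mpr (eq1_spec k.2)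

theorem hE {u v : List ℕ} (k : eqC u v = true) : evL g u = evL g v := by
  simp only [eqC, Bool.and_eq_true] at k
  exact (h.ev_iff k.1.1 k.1.2).mpr (eqw_spec k.2)

theorem hN {u v : List ℕ} (k : neC u v = true) : evL g u ≠ evL g v := fun e => by
  simp only [neC, Bool.and_eq_true] at k
  exact new_spec k.2 ((h.ev_iff k.1.1 k.1.2).mp e)

theorem g_sq {l : ℕ} (hl : l < 30) : g l * g l = 1 := by
  have := mul_mem (h.mem l hl) (h.mem l hl)
  rw [Prod.mk_mul_mk, sq_ev0] at this
  exact h.fst _ this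

theorem g_inv {l : ℕ} (hl : l < 30) : (g l)⁻¹ = g l := inv_eq_of_mul_eq_one_right (h.g_sq hl)

theorem g_rev {w : List ℕ} (hw : inR 30 w = true) : evL g w.reverse = (evL g w)⁻¹ :=
  evL_rev' fun l hl => h.g_sq (inR_spec hw l hl).2

theorem g_one : g 1 = z := h.fr 1 (by norm_num)

theorem g_cen {w : List ℕ} (hw : inR 30 w = true) : evL g w * z = z * evL g w :=
  h.cen _ (h.gw hw)

theorem gl_cen {l : ℕ} (hl : l < 30) : g l * z = z * g l := h.cen _ (h.mem l hl)

theorem hC {y u v : List ℕ} (k : cjC y u v = true) :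
    evL g y * evL g u * (evL g y)⁻¹ = evL g v := by
  simp only [cjC, Bool.and_eq_true] at k
  refine h.eq_l (c0 := evL P.ev v) ?_ (h.gw k.1.2)
  rw [← eqw_conj k.2]
  exact mul_mem (mul_mem (h.gw k.1.1.1) (h.gw k.1.1.2)) (inv_mem (h.gw k.1.1.1))

theorem hCj {y u v : List ℕ} (k : cjC y u v = true) : IsConj (evL g u) (evL g v) :=
  isConj_iff.mpr ⟨_, h.hC k⟩

theorem word {d : G × Grp} (hd : d ∈ Γ) :
    ∃ w, inR 17 w = true ∧ d = (evL g w, evL P.ev w) := by
  have k := h.gen (wds (pr2 g) (fun l => l == 0 || rg 17 l) fun l hl => by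
    have : l < 30 := by
      simp only [Bool.or_eq_true, beq_iff_eq, rg_iff] at hl
      omega
    exact Prod.ext (h.g_sq this) (sq_ev0 l)) fun l hl => ⟨[l], by
      simp only [List.all_cons, List.all_nil, Bool.and_true, Bool.or_eq_true, beq_iff_eq, rg_iff]
      omega, evL_singleton _ _⟩
  obtain ⟨w, hw, e⟩ := k hd
  have g0 : pr2 g 0 = 1 := Prod.ext (h.fr 0 (by norm_num)) hev.zero
  rw [← e]
  clear e
  induction w with
  | nil => exact ⟨[], rfl, rfl⟩
  | cons l w ih =>
    simp only [List.all_cons, Bool.and_eq_true, Bool.or_eq_true, beq_iff_eq] at hw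
    obtain ⟨u, hu, e⟩ := ih hw.2
    rcases hw.1 with c | c
    · exact ⟨u, hu, by rw [evL_cons, c, g0, one_mul, e]⟩
    · refine ⟨l :: u, ?_, by rw [evL_cons, e, evL_cons, evL_cons]; rfl⟩
      exact inR_iff.mpr fun x hx => (List.mem_cons.mp hx).elim (fun e => e ▸ rg_iff.mp c)
        (inR_spec hu x)

theorem exw {c : G} (hc : c * z = z * c) : ∃ w, inR 17 w = true ∧ c = evL g w := by
  obtain ⟨c0, k⟩ := h.sur c hc
  obtain ⟨w, hw, e⟩ := h.word k
  exact ⟨w, hw, congrArg Prod.fst e⟩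

theorem g_fa {w : List ℕ} (hw : inR 10 w = true) : evL g w = evL (fa z a) w := by
  unfold evL
  rw [List.map_congr_left fun l hl => h.fr l (inR_spec hw l hl).2]

theorem g_DW {l : ℕ} (hl : l < 30) : g l = evL g (DW l) := by
  obtain ⟨k1, k2, -⟩ := hDW l hl
  rcases k2 with rfl | k2
  · exact h.fr 0 (by norm_num)
  · rw [← evL_singleton g l]
    refine h.eq_l ?_ (h.gw (inR_mono k1 (by norm_num)))
    rw [← eqw_spec k2, evL_singleton, evL_singleton]
    exact h.mem l hl

variable (c : Ch 0 z Q a π)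
include c

theorem g_Q {w : List ℕ} (hw : inR 10 w = true) : evL g w ∈ Q ∧ co a (evL g w) = xs w := by
  rw [h.g_fa hw]
  exact ⟨ev_mem c.es c.fr w, co_ev c.es c.fr w⟩

theorem exQ {q : G} (hq : q ∈ Q) : ∃ v < 256, q = evL g (Co.Rc.bw v) ∨
    q = evL g (1 :: Co.Rc.bw v) := by
  obtain ⟨v, hv, e⟩ := nfw c.es c.fr hq
  exact ⟨v, hv, by rwa [h.g_fa (bw_inR v hv), h.g_fa (w := 1 :: Co.Rc.bw v) (bw_inR v hv)]⟩

theorem pi17 : ∀ w : List ℕ, inR 17 w = true → ∀ hc, π ⟨evL g w, hc⟩ = evL Co3G.evM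
    ((w.filter (fun l => Nat.ble 10 l)).map fun l => 2 * (l - 10) + 1)
  | [], _, _ => map_one π
  | l :: w, hw, hc => by
    have k := inR_spec hw
    have kl := k l (List.mem_cons_self ..)
    have hw' : inR 17 w = true := inR_iff.mpr fun x hx => k x (List.mem_cons_of_mem _ hx)
    have e : (⟨evL g (l :: w), hc⟩ : centralizer ({z} : Set G)) =
        ⟨g l, mem_cen.mpr (h.gl_cen (by omega))⟩ *
          ⟨evL g w, mem_cen.mpr (h.g_cen (inR_mono hw' (by norm_num)))⟩ :=
      Subtype.ext (evL_cons _ _ _)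
    rw [e, map_mul, pi17 w hw']
    by_cases d : 10 ≤ l
    · obtain ⟨j, rfl⟩ : ∃ j, l = 10 + j := ⟨l - 10, by omega⟩
      rw [h.pi j (by omega), List.filter_cons_of_pos (by simp), List.map_cons, evL_cons,
        Nat.add_sub_cancel_left]
    · rw [List.filter_cons_of_neg (by simpa using d), (c.ker _).mpr, one_mul]
      change g l ∈ Q
      rw [h.fr l (by omega)]
      exact fa_mem c.es c.fr l

omit c in
theorem g_flat : ∀ w : List ℕ, inR 30 w = true →
    inR 17 (w.flatMap DW) = true ∧ evL g w = evL g (w.flatMap DW)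
  | [], _ => ⟨rfl, rfl⟩
  | l :: w, hw => by
    have k := inR_spec hw
    have kl := k l (List.mem_cons_self ..)
    obtain ⟨k1, k2⟩ := g_flat w (inR_iff.mpr fun x hx => k x (List.mem_cons_of_mem _ hx))
    rw [List.flatMap_cons, evL_append, evL_cons, ← k2, ← h.g_DW kl.2]
    exact ⟨inR_iff.mpr fun x hx => (List.mem_append.mp hx).elim (inR_spec (hDW l kl.2).1 x)
      (inR_spec k1 x), rfl⟩

theorem pi_w {w : List ℕ} (hw : inR 30 w = true) (hc : evL g w ∈ centralizer ({z} : Set G)) :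
    π ⟨evL g w, hc⟩ = evL Co3G.evM (spw w) := by
  obtain ⟨k1, k2⟩ := h.g_flat w hw
  rw [spw, ← h.pi17 c _ k1 (k2 ▸ hc)]
  exact congrArg π (Subtype.ext k2)

end Gr

theorem eqS_spec {u v : List ℕ} (k : eqS u v = true) : evL Co3G.evM u = evL Co3G.evM v := by
  have := Co3G.oraM _ k
  rwa [evL_append, evL_rev, mul_inv_eq_one] at this

/-- First stage: `s` and `P` are those of the model. -/
structure St (z s : G) (Q Q' : Subgroup G) (a a' : ℕ → G)
    (π : centralizer ({z} : Set G) →* Sp) (π' : centralizer ({s} : Set G) →* Sp)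
    (Γ : Subgroup (G × Grp)) (g : ℕ → G) : Prop where
  S : Sit z s Q Q' a a' π π'
  gr : Gr z a π Γ g
  s17 : g 17 = s
  pl : ∀ l ∈ PL, g l ∈ Q'

/-- Second stage: the element `t` acts on `P` as in the model. -/
structure Tt (Q' : Subgroup G) (g : ℕ → G) (t : G) : Prop where
  mem : t ∈ Q'
  sq : t * t = 1
  act : ∀ l ∈ PL, t * g l * t = evL g (th l)
  rq : (t * g 11 * g 13) ^ 3 = 1

/-- Third stage: `t` acts on all of `K` as in the model. -/
def RK (g : ℕ → G) (t : G) : Prop := ∀ l ∈ KL, t * g l * t = evL g (th l)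

end Cfsg.Co2
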