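import Cfsg.Agent.Co2.G0

/-! The first stage: `s` and `P` are those of the model. -/

set_option autoImplicit false
set_option maxRecDepth 100000
set_option linter.unusedSectionVars false

namespace Cfsg.Co2

open Subgroup Cfsg.H6 Cfsg.Co.Rc
open Cfsg.Co2.P (Grp hev)
open Cfsg.Co3G (Sp)

variable {G : Type*} [Group G] [Finite G] {z s : G} {Q Q' : Subgroup G} {a a' : ℕ → G}
  {π : centralizer ({z} : Set G) →* Sp} {π' : centralizer ({s} : Set G) →* Sp}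
  {Γ : Subgroup (G × Grp)} {g : ℕ → G}

/-- An involution of `P` over a given word. -/
def PP (z : G) (Q' : Subgroup G) (π : centralizer ({z} : Set G) →* Sp) (w : List ℕ) : Prop :=
  ∃ p ∈ Q', ∃ pz : p * z = z * p, p * p = 1 ∧ π ⟨p, mem_cen.mpr pz⟩ = evL Co3G.evM w

/-- Conjugation in the centraliser of `d4`. -/
noncomputable def cjS (y u w : List ℕ) : Bool :=
  eqS (y ++ d4) (d4 ++ y) && eqS (y ++ u ++ y.reverse) w

/-- Conjugators to the base word. -/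
def yAS : List (List ℕ) := [[1, 5, 7, 9, 11, 3, 7, 9, 5, 7, 1, 5, 3, 7, 9, 11, 7, 3], [1, 5, 7, 9, 11, 3, 7, 9, 5, 7, 1, 5, 3, 7, 9, 11, 7, 5], [1, 5, 7, 9, 11, 3, 7, 9, 5, 7, 1, 5, 3, 7, 9, 11, 7, 5, 3, 7], [1, 5, 7, 9, 11, 3, 7, 9, 5, 7, 1, 5, 3, 7, 9, 11], [1, 5, 7, 9, 11, 3, 7, 9, 5, 7, 1, 5, 3, 7, 9, 11, 7, 5, 3], [1, 5, 7, 9, 11, 3, 7, 9, 5, 7, 1, 5, 3, 7, 9, 11, 7], [7, 9], [7, 3], [1, 5, 7, 9, 5, 3, 7, 1, 5, 1], [1, 5, 7, 9, 5, 3, 7, 5, 3, 1], [7, 3, 9, 7], [], [1, 5, 7, 3, 9, 7, 5, 1], [1, 5, 7, 9, 5, 7, 1, 5, 3, 7, 5, 1], [7], [7, 9, 3], [1, 5, 7, 9, 5, 3, 7, 1, 5, 3, 1], [1, 5, 7, 3, 5, 9, 7, 5, 1]]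

theorem hyAS : ∀ e ∈ AS.zip yAS, cjS e.2 e.1 [3, 5] = true := by decide +kernel

theorem AS_y : ∀ w ∈ AS, ∃ y, cjS y w [3, 5] = true := fun w hw => by
  have : ∀ w ∈ AS, ∃ e ∈ AS.zip yAS, e.1 = w := by decide +kernel
  obtain ⟨e, he, rfl⟩ := this w hw
  exact ⟨_, hyAS e he⟩

/-- The group `V`. -/
def V4 : List (List ℕ) := [[], [24], [25], [24, 25]]

theorem hKb : ∀ v ∈ Kb, v < 256 ∧ eqC (17 :: Co.Rc.bw v) (Co.Rc.bw v ++ [17]) = true ∧
    ∀ l ∈ [20, 21, 22, 23], ∃ d ∈ V4,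
      eqC ([l] ++ Co.Rc.bw v ++ [l].reverse ++ (Co.Rc.bw v).reverse) d = true := by
  decide +kernel

namespace Sit

variable (S : Sit z s Q Q' a a' π π')
include S

theorem mvP {y u w : List ℕ} (k : cjS y u w = true) (h : PP z Q' π u) : PP z Q' π w := by
  simp only [cjS, Bool.and_eq_true] at k
  obtain ⟨p, hp, pz, pp, e⟩ := h
  have k1 := eqS_spec k.1
  have k2 := eqS_spec k.2
  rw [evL_append, evL_append] at k1
  rw [evL_append, evL_append, evL_rev] at k2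
  obtain ⟨x, xz, xs, hx⟩ := S.exX k1
  have m := mul_mem (mul_mem (mem_cen.mpr xz) (mem_cen.mpr pz)) (inv_mem (mem_cen.mpr xz))
  refine ⟨x * p * x⁻¹, S.h'.es.nrm _ xs _ hp, mem_cen.mp m, by rw [conj_mul, pp]; simp, ?_⟩
  rw [← k2, ← hx, ← e, ← map_inv, ← map_mul, ← map_mul]
  rfl

theorem exP0 : PP z Q' π [3, 5] := by
  obtain ⟨p, hp, pz, pp, w, hw, e⟩ := S.ex_P
  obtain ⟨y, hy⟩ := AS_y w hw
  exact S.mvP hy ⟨p, hp, pz, pp, e⟩

theorem exPl : ∀ l ∈ [20, 21, 22, 23], PP z Q' π (spw [l]) := fun l hl => by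
  have : ∀ l ∈ [20, 21, 22, 23], ∃ y ∈ [[11, 9, 7, 5, 3, 7, 9, 11, 1, 5, 7, 9, 1, 5, 3, 7, 5, 1],
      [11, 9, 7, 5, 3, 7, 9, 11, 7, 1, 5, 3, 7, 9, 1, 5, 3, 7, 5, 1], [9, 7], [7, 3, 9, 7]],
      cjS y [3, 5] (spw [l]) = true := by decide +kernel
  obtain ⟨y, -, hy⟩ := this l hl
  exact S.mvP hy S.exP0

theorem exGr : ∃ Γ g, Gr z a π Γ g := by
  obtain ⟨p, -, pz, pp, e⟩ := S.exP0
  refine exists_gr S.h (p := ⟨p, mem_cen.mpr pz⟩) (Subtype.ext pp) ⟨evL Co3G.evM [5, 1], ?_⟩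
  have := eqS_spec (u := [5, 1] ++ [3, 5] ++ [5, 1].reverse) (v := [1, 3]) (by decide +kernel)
  rwa [evL_append, evL_append, evL_rev, ← e] at this

/-- Conjugation of the second involution by an element of `Q`. -/
theorem conjQ {x : G} (hx : x ∈ Q) {s1 : G} (e : x * s * x⁻¹ = s1) :
    ∃ Q1 a1 π1, Sit z s1 Q Q1 a a1 π π1 := by
  obtain ⟨Q1, a1, π1, h1, -, -, h4⟩ := S.h'.conj x e
  subst e
  have xz := mem_cen.mpr (S.h.es.qz x hx)
  have m := mul_mem (mul_mem xz (mem_cen.mpr S.e)) (inv_mem xz)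
  have zx : x * z * x⁻¹ = z := by rw [S.h.es.qz x hx, mul_inv_cancel_right]
  refine ⟨Q1, a1, π1, S.h, h1, mem_cen.mp m, fun l => S.ne ?_,
    S.cj.trans (isConj_iff.mpr ⟨x, rfl⟩), ?_, ?_⟩
  · rw [← zx] at l
    simpa using l
  · have := (S.h.ker ⟨x, xz⟩).mpr hx
    have e : π (⟨x, xz⟩ * ⟨s, mem_cen.mpr S.e⟩ * (⟨x, xz⟩ : centralizer ({z} : Set G))⁻¹) =
        evL Co3G.evM d4 := by rw [map_mul, map_mul, map_inv, this, S.k]; simp
    exact e
  · rw [h4 ⟨z, mem_cen.mpr S.e.symm⟩ _ zx.symm, S.k']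

/-- The pinning lemma. -/
theorem pin {p u : G} (hp : p ∈ Q') (pz : p * z = z * p) (uz : u * z = z * u)
    (k : π ⟨p, mem_cen.mpr pz⟩ = π ⟨u, mem_cen.mpr uz⟩)
    (hV : ∀ v ∈ Kb, ∃ b ∈ Q, co a b = v ∧ u * b * u⁻¹ * b⁻¹ ∈ Q') : u ∈ Q' ∨ z * u ∈ Q' := by
  have hq : u⁻¹ * p ∈ Q := (S.h.ker ((⟨u, mem_cen.mpr uz⟩ : centralizer ({z} : Set G))⁻¹ *
    ⟨p, mem_cen.mpr pz⟩)).mp (by rw [map_mul, map_inv, k, inv_mul_cancel])
  obtain ⟨q, rfl⟩ : ∃ q, p = u * q := ⟨u⁻¹ * p, by group⟩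
  rw [inv_mul_cancel_left] at hq
  have hW := perpK _ (co_lt a q) fun v hv => by
    obtain ⟨b, hb, rfl, l⟩ := hV v hv
    refine (comm_iff S.h hq hb).mp ((S.h.es.comm q hq b hb).resolve_right fun n => S.zn ?_)
    have m := mul_mem hp (S.h'.es.nrm _ ((S.czB _ hv).2.2 b hb rfl) _ (inv_mem hp))
    have := mul_mem l (inv_mem m)
    rwa [show u * b * u⁻¹ * b⁻¹ * (u * q * (b * (u * q)⁻¹ * b⁻¹))⁻¹ = u * (b * q) * (q * b)⁻¹ * u⁻¹ by
      group, n, ← mul_assoc u, mul_inv_cancel_right, uz, mul_inv_cancel_right] at this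
  obtain ⟨r, r1, r2, r3⟩ := S.R_full _ hW
  have := mul_mem hp (inv_mem r2)
  rcases eq_of_co S.h.es S.h.fr hq r1 r3.symm with rfl | rfl
  · exact Or.inl (by simpa using this)
  · refine Or.inr ?_
    rwa [← mul_assoc, mul_inv_cancel_right, uz] at this

variable (h : Gr z a π Γ g)
include h

theorem pi17 (hc : g 17 ∈ centralizer ({z} : Set G)) : π ⟨g 17, hc⟩ = evL Co3G.evM d4 := by
  have := h.pi_w S.h (w := [17]) rfl (mem_cen.mpr (h.g_cen rfl))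
  simp only [evL_singleton] at this
  exact this

theorem gbw {v : ℕ} (hv : v < 256) : evL g (Co.Rc.bw v) ∈ Q ∧ co a (evL g (Co.Rc.bw v)) = v := by
  have := h.g_Q S.h (bw_inR v hv)
  rwa [xs_bw v hv] at this

theorem mv17 : ∃ s1 Q1 a1 π1, Sit z s1 Q Q1 a a1 π π1 ∧ (s1 = g 17 ∨ s1 = z * g 17) := by
  have gz := h.gl_cen (l := 17) (by norm_num)
  have hq : g 17 * s⁻¹ ∈ Q := (S.h.ker (⟨g 17, mem_cen.mpr gz⟩ *
    (⟨s, mem_cen.mpr S.e⟩ : centralizer ({z} : Set G))⁻¹)).mp (by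
      rw [map_mul, map_inv, S.k, S.pi17 h, mul_inv_cancel])
  have hW := perpK _ (co_lt a (g 17 * s⁻¹)) fun v hv => by
    obtain ⟨v1, v2, -⟩ := hKb v hv
    obtain ⟨b1, b2⟩ := S.gbw h v1
    have b3 := (S.czB v hv).2.2 _ b1 b2
    have b4 := h.hE v2
    rw [evL_cons, evL_append, evL_singleton] at b4
    rw [← b2]
    exact (comm_iff S.h hq b1).mp
      (mem_cen.mp (mul_mem (mem_cen.mpr b4) (inv_mem (mem_cen.mpr b3.symm)))).symm
  have : ∀ w ∈ W4, ∃ u < 256, w = u ^^^ tM d4 u := by decide +kernel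
  obtain ⟨u, u1, u2⟩ := this _ hW
  obtain ⟨x, hx, l | l⟩ := conj_Q S.h S.e hq u1 (by rw [S.hT u u1, ← u2]) <;>
    rw [inv_mul_cancel_right] at l
  · obtain ⟨Q1, a1, π1, T⟩ := S.conjQ hx l
    exact ⟨_, Q1, a1, π1, T, Or.inl rfl⟩
  · obtain ⟨Q1, a1, π1, T⟩ := S.conjQ hx (s1 := z * g 17) (by
      rw [← l, ← mul_assoc x, S.h.es.qz x hx, mul_assoc z x, mul_assoc z, S.h.es.zzm])
    exact ⟨_, Q1, a1, π1, T, Or.inr rfl⟩

variable (hs : s = g 17 ∨ s = z * g 17)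
include hs

theorem cs {y : List ℕ} (k : eqC (y ++ [17]) (17 :: y) = true) : evL g y * s = s * evL g y := by
  have l := h.hE k
  simp only [eqC, Bool.and_eq_true] at k
  have m := h.g_cen (w := y) (inR_iff.mpr fun x hx => inR_spec k.1.2 x (List.mem_cons_of_mem _ hx))
  rw [evL_cons, evL_append, evL_singleton] at l
  rcases hs with rfl | rfl
  · exact l
  · rw [← mul_assoc, m, mul_assoc, l, mul_assoc]

theorem odd3 {l : ℕ} {d : List ℕ} (k : eqC ([l] ++ ([11, 13] ++ [l] ++ [11, 13].reverse) ++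
    ([13, 11] ++ [l] ++ [13, 11].reverse)) d = true) (hd : evL g d ∈ Q') (lz : g l * z = z * g l)
    (hK : g l ∈ Q' ∨ z * g l ∈ Q') : g l ∈ Q' := by
  refine hK.resolve_right fun n => S.zn ?_
  have e := h.hE k
  simp only [evL_append, evL_singleton] at e
  rw [h.g_rev rfl, h.g_rev rfl] at e
  have c1 := S.cs h hs (y := [11, 13]) (by decide +kernel)
  have c2 := S.cs h hs (y := [13, 11]) (by decide +kernel)
  have z1 := h.g_cen (w := [11, 13]) rfl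
  have z2 := h.g_cen (w := [13, 11]) rfl
  have m := mul_mem (mul_mem (mul_mem n (S.h'.es.nrm _ c1 _ n)) (S.h'.es.nrm _ c2 _ n)) (inv_mem hd)
  generalize evL g [11, 13] = c at *
  generalize evL g [13, 11] = c' at *
  have z3 : c * g l * c⁻¹ * z = z * (c * g l * c⁻¹) := mem_cen.mp
    (mul_mem (mul_mem (mem_cen.mpr z1) (mem_cen.mpr lz)) (inv_mem (mem_cen.mpr z1)))
  have : z * g l * (c * (z * g l) * c⁻¹) * (c' * (z * g l) * c'⁻¹) =
      z * (g l * (c * g l * c⁻¹) * (c' * g l * c'⁻¹)) := by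
    calc _ = z * g l * (c * z * g l * c⁻¹) * (c' * z * g l * c'⁻¹) := by group
      _ = z * (g l * z) * (c * g l * c⁻¹ * z) * (c' * g l * c'⁻¹) := by rw [z1, z2]; group
      _ = z * z * (g l * z) * (c * g l * c⁻¹) * (c' * g l * c'⁻¹) := by
        rw [z3]; nth_rw 1 [lz]; group
      _ = _ := by rw [lz, S.h.es.zz]; group
  rwa [this, e, mul_inv_cancel_right] at m

theorem gV {l : ℕ} (hl : l = 24 ∨ l = 25) : g l ∈ Q' := by
  have k : ∀ l ∈ [24, 25], l < 30 ∧ inR 10 (DW l) = true ∧ xs (DW l) ∈ W4 ∧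
      eqC ([l] ++ ([11, 13] ++ [l] ++ [11, 13].reverse) ++
      ([13, 11] ++ [l] ++ [13, 11].reverse)) [] = true := by decide +kernel
  obtain ⟨k1, k2, k3, k4⟩ := k l (by simpa using hl)
  obtain ⟨b1, b2⟩ := h.g_Q S.h k2
  rw [← h.g_DW k1] at b1 b2
  obtain ⟨r, r1, r2, r3⟩ := S.R_full _ k3
  refine S.odd3 h hs k4 (one_mem _) (h.gl_cen k1) ?_
  rcases eq_of_co S.h.es S.h.fr r1 b1 (r3.trans b2.symm) with rfl | rfl
  · exact Or.inl r2
  · exact Or.inr r2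

theorem gV4 : ∀ d ∈ V4, evL g d ∈ Q' := fun d hd =>
  evL_mem_of_letters fun l hl => S.gV h hs (by revert l; revert d; decide)

/-- The pinning lemma for words. -/
theorem pinw {p : G} (hp : p ∈ Q') (pz : p * z = z * p) {u : List ℕ} (hu : inR 30 u = true)
    (k : π ⟨p, mem_cen.mpr pz⟩ = evL Co3G.evM (spw u))
    (hV : ∀ v ∈ Kb, ∃ d ∈ V4,
      eqC (u ++ Co.Rc.bw v ++ u.reverse ++ (Co.Rc.bw v).reverse) d = true) :
    evL g u ∈ Q' ∨ z * evL g u ∈ Q' :=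
  S.pin hp pz (h.g_cen hu) (by rw [k, h.pi_w S.h hu]) fun v hv => by
    obtain ⟨d, d1, d2⟩ := hV v hv
    have v1 := (hKb v hv).1
    obtain ⟨b1, b2⟩ := S.gbw h v1
    refine ⟨_, b1, b2, ?_⟩
    have e := h.hE d2
    rw [evL_append, evL_append, evL_append, h.g_rev hu,
      h.g_rev (inR_mono (bw_inR v v1) (by norm_num))] at e
    rw [e]
    exact S.gV4 h hs d d1

theorem gK : ∀ l ∈ [20, 21, 22, 23], g l ∈ Q' ∨ z * g l ∈ Q' := fun l hl => by
  obtain ⟨p, hp, pz, -, e⟩ := S.exPl l hl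
  have := S.pinw h hs hp pz (u := [l]) (by clear e; revert l; decide) e fun v hv => (hKb v hv).2.2 l hl
  rwa [evL_singleton] at this

theorem g17 : g 17 ∈ Q' := by
  have e := h.hE (u := [20, 23, 20, 23]) (v := [17]) (by decide +kernel)
  simp only [evL_cons, evL_nil, mul_one] at e
  have z1 := h.gl_cen (l := 20) (by norm_num)
  have z2 := h.gl_cen (l := 23) (by norm_num)
  have zz := S.h.es.zz
  have k : ∀ x y : G, x * z = z * x → y * z = z * y → x * (z * y) * x * (z * y) = x * y * x * y ∧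
      z * x * y * (z * x) * y = x * y * x * y := fun x y x1 y1 => by
    constructor
    · calc _ = (x * z) * y * (x * z) * y := by group
        _ = z * x * (y * z) * x * y := by rw [x1]; group
        _ = z * (x * z) * y * x * y := by rw [y1]; group
        _ = _ := by rw [x1, S.h.es.zzm]
    · calc _ = z * x * (y * z) * x * y := by group
        _ = z * (x * z) * y * x * y := by rw [y1]; group
        _ = _ := by rw [x1, S.h.es.zzm]
  have e' : g 17 = g 20 * g 23 * g 20 * g 23 := by rw [← e]; group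
  rw [e']
  rcases S.gK h hs 20 (by decide) with l | l <;> rcases S.gK h hs 23 (by decide) with m | m <;>
    have := mul_mem (mul_mem (mul_mem l m) l) m
  · exact this
  · rwa [(k _ _ z1 z2).1] at this
  · rwa [(k _ _ z1 z2).2] at this
  · rwa [(k _ _ (by rw [mul_assoc, z1]) z2).1, (k _ _ z1 z2).2] at this

theorem s17 : g 17 = s := by
  refine (hs.resolve_right fun n => S.zn ?_).symm
  have := mul_mem S.h'.es.zQ (inv_mem (S.g17 h hs))
  rwa [n, mul_inv_cancel_right] at this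

theorem gPL : ∀ l ∈ PL, g l ∈ Q' := fun l hl => by
  have k : ∀ l ∈ PL, l = 17 ∨ (l = 24 ∨ l = 25) ∨ (l ∈ [20, 21, 22, 23] ∧ l < 30 ∧
      ∃ d ∈ [[], [17]], eqC ([l] ++ ([11, 13] ++ [l] ++ [11, 13].reverse) ++
      ([13, 11] ++ [l] ++ [13, 11].reverse)) d = true) := by decide +kernel
  rcases k l hl with rfl | m | ⟨k1, k2, d, d1, d2⟩
  · exact S.g17 h hs
  · exact S.gV h hs m
  · refine S.odd3 h hs d2 (evL_mem_of_letters fun x hx => ?_) (h.gl_cen k2) (S.gK h hs l k1)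
    obtain rfl : x = 17 := by clear d2; revert x; revert d; decide
    exact S.g17 h hs

end Sit

theorem exists_st (S : Sit z s Q Q' a a' π π') :
    ∃ s Q' a' π' Γ g, St z s Q Q' a a' π π' Γ g := by
  obtain ⟨Γ, g, h⟩ := S.exGr
  obtain ⟨s1, Q1, a1, π1, T, hs⟩ := S.mv17 h
  exact ⟨s1, Q1, a1, π1, Γ, g, T, h, T.s17 h hs, T.gPL h hs⟩

end Cfsg.Co2
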