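import Cfsg.Agent.Co2.G3

/-! The element `t`. -/

set_option autoImplicit false
set_option maxRecDepth 100000
set_option linter.unusedSectionVars false

namespace Cfsg.Co2

open Subgroup Cfsg.H6 Cfsg.Co.Rc
open Cfsg.Co2.P (Grp hev)
open Cfsg.Co3G (Sp)

/-- A sign. -/
def sgw (b : Bool) : List ℕ := if b = true then [17] else []

theorem adjT : ∀ b0 b1 b2 b3 : Bool, ∃ u ∈ [20, 21, 22, 23].sublists, (∀ l ∈ u, l ∈ PL) ∧
    ∀ e ∈ [(17, false), (24, false), (25, true), (20, b0), (21, b1), (22, b2), (23, b3)],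
      eqC (u ++ (sgw e.2 ++ [e.1])) (th e.1 ++ u) = true := by decide +kernel

variable {G : Type*} [Group G] [Finite G] {z s : G} {Q Q' : Subgroup G} {a a' : ℕ → G}
  {π : centralizer ({z} : Set G) →* Sp} {π' : centralizer ({s} : Set G) →* Sp}
  {Γ : Subgroup (G × Grp)} {g : ℕ → G}

namespace St

variable (T : St z s Q Q' a a' π π' Γ g)
include T

theorem ex_t1 : ∃ t ∈ Q', ∀ l ∈ PL, t * g l = evL g (th l) * t := by
  have q : ∀ l < 30, inR 10 (DW l) = true → g l ∈ Q ∧ co a (g l) = xs (DW l) := fun l hl k => by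
    rw [T.gr.g_DW hl]
    exact T.gr.g_Q T.S.h k
  obtain ⟨t, ht, k1, k2⟩ := T.S.ex_t (q 24 (by norm_num) rfl).1 (T.pl 24 (by decide))
    (q 25 (by norm_num) rfl).1 (T.pl 25 (by decide)) (q 24 (by norm_num) rfl).2
    (q 25 (by norm_num) rfl).2
  have y : ∀ l, t * g l = g l * t → t * g l = evL g (sgw false ++ [l]) * t := fun l e => by
    rw [e]; exact congrArg (· * t) (evL_singleton g l).symm
  have n : ∀ l, t * g l = s * (g l * t) → t * g l = evL g (sgw true ++ [l]) * t := fun l e => by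
    rw [e, ← mul_assoc, ← T.s17, ← evL_singleton g l, ← evL_cons]; rfl
  have b : ∀ l ∈ PL, ∃ b, t * g l = evL g (sgw b ++ [l]) * t := fun l hl =>
    (T.S.h'.es.comm _ (T.pl l hl) _ ht).elim (fun e => ⟨_, y l e⟩) fun e => ⟨_, n l e⟩
  obtain ⟨b0, e0⟩ := b 20 (by decide)
  obtain ⟨b1, e1⟩ := b 21 (by decide)
  obtain ⟨b2, e2⟩ := b 22 (by decide)
  obtain ⟨b3, e3⟩ := b 23 (by decide)
  obtain ⟨u, -, h1, h2⟩ := adjT b0 b1 b2 b3
  have k : ∀ l b, t * g l = evL g (sgw b ++ [l]) * t → eqC (u ++ (sgw b ++ [l])) (th l ++ u) = true →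
      evL g u * t * g l = evL g (th l) * (evL g u * t) := fun l b e c => by
    rw [mul_assoc, e, ← mul_assoc, ← evL_append, T.gr.hE c, evL_append, mul_assoc]
  refine ⟨evL g u * t, mul_mem (evL_mem_of_letters fun l hl => T.pl l (h1 l hl)) ht, fun l hl => ?_⟩
  simp only [PL, List.mem_cons, List.not_mem_nil, or_false] at hl
  rcases hl with rfl | rfl | rfl | rfl | rfl | rfl | rfl
  · exact k _ _ (y 17 (T.s17 ▸ T.S.h'.es.qz t ht)) (h2 (17, false) (by simp))
  · exact k _ _ (y 24 k1) (h2 (24, false) (by simp))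
  · exact k _ _ (n 25 k2) (h2 (25, true) (by simp))
  · exact k _ _ e0 (h2 (20, b0) (by simp))
  · exact k _ _ e1 (h2 (21, b1) (by simp))
  · exact k _ _ e2 (h2 (22, b2) (by simp))
  · exact k _ _ e3 (h2 (23, b3) (by simp))

theorem ex_t2 : ∃ t ∈ Q', t * t = 1 ∧ ∀ l ∈ PL, t * g l * t = evL g (th l) := by
  suffices ∃ t ∈ Q', t * t = 1 ∧ ∀ l ∈ PL, t * g l = evL g (th l) * t by
    obtain ⟨t, h1, h2, h3⟩ := this
    exact ⟨t, h1, h2, fun l hl => by rw [h3 l hl, mul_assoc, h2, mul_one]⟩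
  obtain ⟨t, ht, k⟩ := T.ex_t1
  rcases T.S.h'.es.sq t ht with e | e
  · exact ⟨t, ht, e, k⟩
  · refine ⟨t * g 25, mul_mem ht (T.pl 25 (by decide)), ?_, fun l hl => ?_⟩
    · rw [k 25 (by decide), ← T.gr.hO (w := th 25 ++ [17] ++ [25]) (by decide +kernel), evL_append,
        evL_append, evL_singleton, evL_singleton, T.s17, ← e]
      nth_rewrite 2 [← k 25 (by decide)]
      group
    · have : ∀ l ∈ PL, eqC [25, l] [l, 25] = true := by decide +kernel
      have := T.gr.hE (this l hl)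
      simp only [evL_cons, evL_nil, mul_one] at this
      rw [mul_assoc, this, ← mul_assoc, k l hl, mul_assoc]

theorem exists_t' (zp : ∀ q ∈ Q', (∀ l ∈ PL, q * g l = g l * q) → ∃ d ∈ Z8, q = evL g d) :
    ∃ t, Tt Q' g t := by
  obtain ⟨t, ht, tt, k⟩ := T.ex_t2
  have E := T.S.h'.es
  have N : (t, P.ev 30) ∈ normalizer (T.gr.Pk : Set (G × Grp)) := T.gr.mem_NPk fun l hl => by
    have : ∀ l ∈ PL, (th l).all PL.contains = true := by decide
    have := T.gr.mem_Pk (this l hl)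
    rw [← k l hl, ← eqw_spec (hth l (PL_KL l hl)).2.2.2, evL_cons, evL_cons, evL_singleton,
      ← mul_assoc] at this
    rwa [Prod.inv_mk, inv_eq_of_mul_eq_one_right tt, ev_inv]
  have u := mul_mem N (mul_mem (T.gr.nl_NPk (y := 11) (by decide))
    (T.gr.nl_NPk (y := 13) (by decide)))
  have e0 : (t, P.ev 30) * (pr2 g 11 * pr2 g 13) = (t * evL g [11, 13], evL P.ev [30, 11, 13]) := by
    simp only [evL_cons, evL_nil, mul_one]
    rfl
  have c3 : evL g [11, 13] ^ 3 = 1 := by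
    rw [← evL_rp]; exact T.gr.hO (by decide +kernel)
  have cs : evL g [11, 13] * s = s * evL g [11, 13] := by
    have := T.gr.hE (u := [11, 13] ++ [17]) (v := [17] ++ [11, 13]) (by decide +kernel)
    rwa [evL_append, evL_append, evL_singleton, T.s17] at this
  have e1 : ∀ t, t * evL g [11, 13] = t * g 11 * g 13 := fun t => by
    rw [evL_cons, evL_singleton, mul_assoc]
  rw [e0] at u
  generalize evL g [11, 13] = c at *
  have u3 := pow_mem u 3
  rw [Prod.pow_mk, ← evL_rp, eq1_spec (w := rp 3 [30, 11, 13]) (by decide +kernel)] at u3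
  obtain ⟨d, hd, e⟩ := zp ((t * c) ^ 3) (by
    have := mul_mem (mul_mem ht (E.nrm c cs t ht)) (E.nrm c cs _ (E.nrm c cs t ht))
    rw [← mul_one (_ * _ * _), ← c3] at this
    convert this using 1
    simp only [pow_succ, pow_zero]
    group) fun l hl => by
      have := T.gr.Pk_le (T.gr.NPk_nrm u3 (T.gr.mem_Pk (w := [l]) (by simpa using hl)))
      rw [Prod.inv_mk, Prod.mk_mul_mk, Prod.mk_mul_mk, one_mul, inv_one, mul_one, evL_singleton,
        evL_singleton] at this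
      exact mul_inv_eq_iff_eq_mul.mp (T.gr.eq_l this (T.gr.mem l (hth l (PL_KL l hl)).2.1))
  have f : ∀ d ∈ Z8, d.all PL.contains = true ∧ (d = [] ∨ d = [17] ∨
      new ([30, 11, 13] ++ d ++ [30, 11, 13].reverse) d = true) := by decide +kernel
  obtain ⟨f1, rfl | rfl | f2⟩ := f d hd
  · exact ⟨t, ht, tt, k, e1 t ▸ e⟩
  · rw [evL_singleton, T.s17] at e
    have ts : Commute t s := E.qz t ht
    refine ⟨s * t, mul_mem E.zQ ht, ?_, fun l hl => ?_, ?_⟩
    · rw [mul_assoc, ← mul_assoc t, ts.eq, mul_assoc, tt, mul_one, E.zz]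
    · have m : t * g l ∈ Q' := mul_mem ht (T.pl l hl)
      rw [← k l hl, mul_assoc s, ← mul_assoc _ s, mul_assoc s, E.qz _ m, E.zzm]
    · rw [← e1, mul_assoc, (ts.symm.mul_right (Commute.symm cs)).mul_pow, e, pow_succ, pow_two,
        E.zz, one_mul, E.zz]
  · exfalso
    have m := T.gr.Pk_le (T.gr.mem_Pk f1)
    have m' := T.gr.Pk_le (T.gr.NPk_nrm u (T.gr.mem_Pk f1))
    rw [Prod.inv_mk, Prod.mk_mul_mk, Prod.mk_mul_mk, ← e, (Commute.self_pow _ 3).eq,
      mul_inv_cancel_right] at m'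
    rw [← e] at m
    refine new_spec f2 ?_
    rw [evL_append, evL_append, ev_rev]
    exact T.gr.eq_r m' m

end St

end Cfsg.Co2
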