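import Cfsg.Agent.Co2.G0

/-! The centre of `P`. -/

set_option autoImplicit false
set_option maxRecDepth 100000
set_option linter.unusedSectionVars false

namespace Cfsg.Co2

open Subgroup Cfsg.H6 Cfsg.Co.Rc
open Cfsg.Co2.P (Grp hev)
open Cfsg.Co3G (Sp)

theorem AS_pl : ∀ w ∈ AS, ∃ u ∈ [17, 20, 21, 22, 23].sublists, (∀ l ∈ u, l ∈ PL) ∧
    inR 30 u = true ∧ eqS w (spw u) = true := by decide +kernel

theorem W4_z : ∀ v ∈ W4, ∃ d ∈ Z8, (∀ l ∈ d, l ∈ PL) ∧ (∃ e ∈ Z8, eqC (d ++ [17]) e = true) ∧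
    ∃ w ∈ [[], DW 24, DW 25, DW 24 ++ DW 25], inR 10 w = true ∧ xs w = v ∧ eqC d w = true := by
  decide +kernel

variable {G : Type*} [Group G] [Finite G] {z s : G} {Q Q' : Subgroup G} {a a' : ℕ → G}
  {π : centralizer ({z} : Set G) →* Sp} {π' : centralizer ({s} : Set G) →* Sp}
  {Γ : Subgroup (G × Grp)} {g : ℕ → G}

namespace St

variable (T : St z s Q Q' a a' π π' Γ g)
include T

theorem inV' {r : G} (hr : r ∈ Q) (hr' : r ∈ Q') : ∃ d ∈ Z8, (∀ l ∈ d, l ∈ PL) ∧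
    (∃ e ∈ Z8, eqC (d ++ [17]) e = true) ∧ r = evL g d := by
  obtain ⟨d, hd, h1, h2, w, -, h3, h4, h5⟩ := W4_z _ (T.S.R_W hr hr')
  obtain ⟨k1, k2⟩ := T.gr.g_Q T.S.h h3
  refine ⟨d, hd, h1, h2, ?_⟩
  rw [← T.gr.hE h5] at k1 k2
  refine (eq_of_co T.S.h.es T.S.h.fr hr k1 (by rw [k2, h4])).resolve_right fun e => T.S.zn ?_
  rw [e] at hr'
  exact (Q'.mul_mem_cancel_right (evL_mem_of_letters fun l hl => T.pl l (h1 l hl))).mp hr'

theorem zp' (q : G) (hq : q ∈ Q') (h : ∀ l ∈ PL, q * g l = g l * q) : ∃ d ∈ Z8, q = evL g d := by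
  have E' := T.S.h'.es
  have c : ∀ u : List ℕ, (∀ l ∈ u, l ∈ PL) → evL g u ∈ centralizer ({q} : Set G) := fun u hu =>
    evL_mem_of_letters fun l hl => mem_cen.mpr (h l (hu l hl)).symm
  have r : ∀ r ∈ Q, r ∈ Q' → r ∈ centralizer ({q} : Set G) := fun r h1 h2 => by
    obtain ⟨d, -, k, -, rfl⟩ := T.inV' h1 h2
    exact c d k
  rcases T.S.ZP hq (fun p hp pz h2 => by
    refine (mem_cen.mp ?_).symm
    rcases T.S.inv_P hp pz h2 with e | e | ⟨w, hw, e⟩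
    · exact r p e hp
    · exact (mul_mem_cancel_right (mem_cen.mpr (E'.qz q hq).symm)).mp
        (r _ e (mul_mem hp E'.zQ))
    · obtain ⟨u, -, h1, h3, h4⟩ := AS_pl w hw
      have m : evL g u ∈ centralizer ({z} : Set G) := mem_cen.mpr (T.gr.g_cen h3)
      have k : ((⟨p, mem_cen.mpr pz⟩ : centralizer ({z} : Set G)) * ⟨evL g u, m⟩⁻¹).1 ∈ Q :=
        (T.S.h.ker _).mp (by
          rw [map_mul, map_inv, e, T.gr.pi_w T.S.h h3, eqS_spec h4, mul_inv_cancel])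
      exact (mul_mem_cancel_right (inv_mem (c u h1))).mp (r _ k (mul_mem hp
        (inv_mem (evL_mem_of_letters fun l hl => T.pl l (h1 l hl)))))) with e | e
  · obtain ⟨d, hd, -, -, k⟩ := T.inV' e hq
    exact ⟨d, hd, k⟩
  · obtain ⟨d, -, -, ⟨f, hf, k1⟩, k⟩ := T.inV' e (mul_mem hq E'.zQ)
    refine ⟨f, hf, ?_⟩
    rw [← T.gr.hE k1, evL_append, ← k, evL_singleton, T.s17, mul_assoc, E'.zz, mul_one]

end St

end Cfsg.Co2
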