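import Cfsg.Agent.Co2.G3a

/-! The action of `t` on `K`. -/

set_option autoImplicit false
set_option maxRecDepth 100000
set_option linter.unusedSectionVars false

namespace Cfsg.Co2

open Subgroup Cfsg.H6 Cfsg.Co.Rc
open Cfsg.Co2.P (Grp hev)
open Cfsg.Co3G (Sp)

/-- Letters that normalise `P`. -/
def NLk : List ℕ := KL ++ [11]

/-- Their action on `P`. -/
def TP (y l : ℕ) : List ℕ := (([[[17], [24], [25], [20], [21], [22], [23]], [[17], [24], [25], [20], [21], [24, 25, 22], [25, 23]], [[17], [24], [25], [24, 20], [24, 25, 21], [22], [23]], [[17], [24], [25], [20], [21], [22], [23]], [[17], [24], [25], [20], [21], [22], [23]], [[17], [24], [25], [24, 25, 20], [25, 21], [22], [23]], [[17], [24], [25], [20], [21], [24, 22], [24, 25, 23]], [[17], [24], [25], [20], [21], [24, 22], [25, 23]], [[17], [24], [25], [20], [21], [22], [23]], [[17], [24], [25], [24, 20, 22], [17, 24, 21, 23], [22], [23]], [[17], [24], [25], [20], [21], [17, 25, 20, 22], [17, 24, 25, 21,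 23]], [[17], [24], [25], [20], [21], [22], [17, 23]], [[17], [24], [25], [20], [21], [17, 22], [23]], [[17], [24], [25], [20], [17, 21], [22], [23]], [[17], [24], [25], [17, 20], [21], [22], [23]], [[17], [24], [25], [17, 24, 25, 20], [25, 21], [22], [23]], [[17], [24], [25], [20], [21], [17, 24, 25, 22], [25, 23]], [[17], [24], [24, 25], [24, 20], [24, 25, 20, 21], [22], [17, 24, 22, 23]], [[17], [24, 25], [25], [17, 25, 20, 21], [21], [17, 25, 22, 23], [23]]] : List (List (List ℕ))).getD (NLk.idxOf y) []).getD (PL.idxOf l) []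

theorem hTP : ∀ y ∈ NLk, ∀ l ∈ PL, (TP y l).all PL.contains = true ∧ cjC [y] [l] (TP y l) = true := by
  decide +kernel

/-- The centre of `K`. -/
def Z4 : List (List ℕ) := [[], [17], [24], [17,24]]

theorem hK1 : ∀ y ∈ KL, th y = (th y).dropLast ++ [y] ∧ (∀ l ∈ (th y).dropLast, l ∈ PL) ∧
    (∀ l ∈ th y, l ∈ KL) ∧ eqC [y, 17] [17, y] = true ∧ eqC [y, 24] [24, y] = true ∧
    ∀ d ∈ Z8, (∀ l ∈ d, l ∈ PL) ∧ (d ∈ Z4 ∨
      neC [y] ((d ++ (th y).dropLast).flatMap th ++ (d ++ th y)) = true) := by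
  decide +kernel

/-- Letters as products of squares. -/
def SQ : List (ℕ × List ℕ × List ℕ × List ℕ) := [(2, [26, 19, 18], [18, 19], [24, 1]),
  (6, [27, 18, 19], [19, 18], [24]), (26, [2, 18, 19], [19, 18], []),
  (27, [6, 19, 18], [18, 19], [25, 1]), (16, [18, 16, 18, 18, 19], [19, 18], [17, 1]),
  (28, [2, 18, 19], [19, 18], [17, 24, 25, 23]), (29, [26, 19, 18], [18, 19], [17, 24, 21])]

theorem hSQ : ∀ y ∈ L1, y ∈ 1 :: PL ∨ ∃ e ∈ SQ, (∀ l ∈ e.2.1, l ∈ KL) ∧ (∀ l ∈ e.2.2.1, l ∈ KL) ∧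
    (∀ l ∈ e.2.2.2, l ∈ 1 :: PL) ∧
    eqC [y] (e.2.1 ++ e.2.1 ++ (e.2.2.1 ++ e.2.2.1) ++ e.2.2.2) = true ∧
    eqC (th y) ((e.2.1 ++ e.2.1 ++ (e.2.2.1 ++ e.2.2.1) ++ e.2.2.2).flatMap th) = true := by
  decide +kernel

theorem fixW : ∀ v < 256, tM d4 v = v → ∀ w ∈ W4, bf v w = false := by decide +kernel

variable {G : Type*} [Group G] [Finite G] {z s : G} {Q Q' : Subgroup G} {a a' : ℕ → G}
  {π : centralizer ({z} : Set G) →* Sp} {π' : centralizer ({s} : Set G) →* Sp}
  {Γ : Subgroup (G × Grp)} {g : ℕ → G} {t : G}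

theorem PL_lt : ∀ l, PL.contains l = true → 1 ≤ l ∧ l < 30 := fun l hl =>
  have := hth l (PL_KL l (List.contains_iff_mem.mp hl))
  ⟨this.1, this.2.1⟩

namespace Gr

variable (h : Gr z a π Γ g)

/-- The graph over `P`. -/
noncomputable def Pk : Subgroup (G × Grp) :=
  wds (pr2 g) PL.contains fun l hl => Prod.ext (h.g_sq (PL_lt l hl).2) (sq_ev0 l)

theorem mem_Pk {w : List ℕ} (hw : w.all PL.contains = true) : (evL g w, evL P.ev w) ∈ h.Pk :=
  ⟨w, hw, evL_pr2 _ _⟩

theorem Pk_le : h.Pk ≤ Γ := by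
  rintro _ ⟨w, hw, rfl⟩
  exact evL_mem_of_letters fun l hl => h.mem l (PL_lt l (List.all_eq_true.mp hw l hl)).2

theorem mem_NPk {d : G × Grp} (k : ∀ l ∈ PL, d * pr2 g l * d⁻¹ ∈ h.Pk) :
    d ∈ normalizer (h.Pk : Set (G × Grp)) := by
  refine mem_normalizer_fintype ?_
  rintro _ ⟨u, hu, rfl⟩
  exact conj_evL fun l hl => k l (List.contains_iff_mem.mp (List.all_eq_true.mp hu l hl))

theorem NPk_nrm {d q : G × Grp} (k : d ∈ normalizer (h.Pk : Set (G × Grp))) (hq : q ∈ h.Pk) :
    d * q * d⁻¹ ∈ h.Pk := (mem_normalizer_iff.mp k q).mp hq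

theorem nl_NPk {y : ℕ} (hy : y ∈ NLk) : pr2 g y ∈ normalizer (h.Pk : Set (G × Grp)) :=
  h.mem_NPk fun l hl => by
    obtain ⟨k1, k2⟩ := hTP y hy l hl
    have e := h.hC k2
    simp only [cjC, Bool.and_eq_true] at k2
    have e0 := eqw_conj k2.2
    simp only [evL_singleton] at e e0
    have := h.mem_Pk k1
    rwa [← e, ← e0] at this

theorem t_NPk (U : Tt Q' g t) : (t, P.ev 30) ∈ normalizer (h.Pk : Set (G × Grp)) :=
  h.mem_NPk fun l hl => by
    have : ∀ l ∈ PL, (th l).all PL.contains = true := by decide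
    have := h.mem_Pk (this l hl)
    rw [← U.act l hl, ← eqw_spec (hth l (PL_KL l hl)).2.2.2, evL_cons, evL_cons, evL_singleton,
      ← mul_assoc] at this
    rwa [Prod.inv_mk, inv_eq_of_mul_eq_one_right U.sq, ev_inv]

end Gr

theorem th_app (tt : t * t = 1) {u v : List ℕ} (h : t * evL g u * t = evL g (u.flatMap th))
    (k : t * evL g v * t = evL g (v.flatMap th)) :
    t * evL g (u ++ v) * t = evL g ((u ++ v).flatMap th) := by
  rw [List.flatMap_append, evL_append, evL_append, ← h, ← k]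
  calc _ = t * evL g u * (t * t) * evL g v * t := by rw [tt]; group
    _ = _ := by group

theorem comm_evL {x : G} : ∀ u : List ℕ, (∀ l ∈ u, Commute x (g l)) → Commute x (evL g u)
  | [], _ => Commute.one_right x
  | l :: u, h => by
    rw [evL_cons]
    exact (h l (List.mem_cons_self ..)).mul_right
      (comm_evL u fun x hx => h x (List.mem_cons_of_mem _ hx))

namespace St

variable (T : St z s Q Q' a a' π π' Γ g) (U : Tt Q' g t)
  (zp : ∀ q ∈ Q', (∀ l ∈ PL, q * g l = g l * q) → ∃ d ∈ Z8, q = evL g d)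
include T

theorem zc {w u : List ℕ} (hw : ∀ l ∈ w, l ∈ [17, 24]) (hu : ∀ l ∈ u, l ∈ KL) :
    Commute (evL g w) (evL g u) :=
  comm_evL u fun y hy => (comm_evL w fun l hl => by
    obtain ⟨-, -, -, k1, k2, -⟩ := hK1 y (hu y hy)
    have := hw l hl
    simp only [List.mem_cons, List.not_mem_nil, or_false] at this
    rcases this with rfl | rfl
    · simpa only [evL_cons, evL_nil, mul_one, Commute, SemiconjBy] using T.gr.hE k1
    · simpa only [evL_cons, evL_nil, mul_one, Commute, SemiconjBy] using T.gr.hE k2).symm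

theorem zsq : ∀ w : List ℕ, (∀ l ∈ w, l ∈ [17, 24]) → evL g w * evL g w = 1
  | [], _ => mul_one _
  | l :: w, h => by
    have h' : ∀ x ∈ w, x ∈ [17, 24] := fun x hx => h x (List.mem_cons_of_mem _ hx)
    have k : ∀ l ∈ [17, 24], l ∈ KL ∧ l < 30 := by decide
    have k := k l (h l (List.mem_cons_self ..))
    have c := T.zc (u := [l]) h' (by simpa using k.1)
    rw [evL_singleton] at c
    rw [evL_cons]
    calc _ = g l * (evL g w * g l) * evL g w := by group
      _ = g l * g l * (evL g w * evL g w) := by rw [c.eq]; group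
      _ = 1 := by rw [T.gr.g_sq k.2, zsq w h', mul_one]

include U zp

theorem apx {y : ℕ} (hy : y ∈ KL) : ∃ d ∈ Z4, t * g y * t = evL g (d ++ th y) := by
  obtain ⟨k1, k2, k3, k4, -, k5⟩ := hK1 y hy
  obtain ⟨-, -, l3, l4⟩ := hth y hy
  have ys : g y * s = s * g y := by
    simpa only [evL_cons, evL_nil, mul_one, T.s17] using T.gr.hE k4
  have ti := inv_eq_of_mul_eq_one_right U.sq
  have m : (t * g y * t * (evL g (th y))⁻¹, (1 : Grp)) ∈ normalizer (T.gr.Pk : Set (G × Grp)) := by
    have := mul_mem (mul_mem (mul_mem (T.gr.t_NPk U) (T.gr.nl_NPk (List.mem_append_left _ hy)))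
      (T.gr.t_NPk U)) (inv_mem (evL_mem_of_letters (ev := pr2 g) (w := th y) fun l hl =>
        T.gr.nl_NPk (List.mem_append_left _ (k3 l hl))))
    rw [evL_pr2, ← eqw_spec l4, evL_cons, evL_cons, evL_singleton, ← mul_assoc, pr2, Prod.inv_mk,
      Prod.mk_mul_mk, Prod.mk_mul_mk, Prod.mk_mul_mk, mul_inv_cancel] at this
    exact this
  obtain ⟨d, hd, e⟩ := zp (t * g y * t * (evL g (th y))⁻¹) (by
    have := mul_mem (mul_mem U.mem (T.S.h'.es.nrm _ ys _ U.mem)) (inv_mem
      (evL_mem_of_letters (ev := g) (w := (th y).dropLast) fun l hl => T.pl l (k2 l hl)))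
    rw [k1, evL_append, evL_singleton]
    convert this using 1
    group) fun l hl => by
      have := T.gr.Pk_le (T.gr.NPk_nrm m (T.gr.mem_Pk (w := [l]) (by simpa using hl)))
      rw [Prod.inv_mk, Prod.mk_mul_mk, Prod.mk_mul_mk, one_mul, inv_one, mul_one, evL_singleton,
        evL_singleton] at this
      exact mul_inv_eq_iff_eq_mul.mp (T.gr.eq_l this (T.gr.mem l (hth l (PL_KL l hl)).2.1))
  have e' : t * g y * t = evL g (d ++ th y) := by rw [evL_append, ← e, inv_mul_cancel_right]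
  refine ⟨d, (k5 d hd).2.resolve_right fun n => T.gr.hN n ?_, e'⟩
  rw [evL_append, ← th_L U.sq _ fun l hl => U.act l ((List.mem_append.mp hl).elim ((k5 d hd).1 l)
    (k2 l)), ← e', evL_singleton]
  have e2 : t * g y * t = evL g (d ++ (th y).dropLast) * g y := by
    rw [e', ← evL_singleton g y, ← evL_append, List.append_assoc, ← k1]
  calc g y = t * (t * g y * t) * t := by
        calc _ = (t * t) * g y * (t * t) := by rw [U.sq]; group
          _ = _ := by group
    _ = t * evL g (d ++ (th y).dropLast) * (t * t) * g y * t := by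
        rw [U.sq]; nth_rewrite 1 [e2]; group
    _ = _ := by group

theorem apxw : ∀ u : List ℕ, (∀ l ∈ u, l ∈ KL) → ∃ w : List ℕ, (∀ l ∈ w, l ∈ [17, 24]) ∧
    t * evL g u * t = evL g w * evL g (u.flatMap th)
  | [], _ => ⟨[], by simp, by rw [evL_nil, mul_one, U.sq]; exact (mul_one _).symm⟩
  | l :: u, h => by
    have hl := h l (List.mem_cons_self ..)
    obtain ⟨w, hw, e⟩ := apxw u fun x hx => h x (List.mem_cons_of_mem _ hx)
    obtain ⟨d, hd, e'⟩ := T.apx U zp hl
    have k : ∀ d ∈ Z4, ∀ l ∈ d, l ∈ [17, 24] := by decide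
    refine ⟨d ++ w, fun x hx => (List.mem_append.mp hx).elim (k d hd x) (hw x), ?_⟩
    have c := T.zc hw (hK1 l hl).2.2.1
    rw [List.flatMap_cons, evL_append, evL_append, evL_cons]
    calc _ = t * g l * (t * t) * evL g u * t := by rw [U.sq]; group
      _ = (t * g l * t) * (t * evL g u * t) := by group
      _ = evL g d * (evL g (th l) * evL g w) * evL g (u.flatMap th) := by
        rw [e, e', evL_append]; group
      _ = _ := by rw [← c.eq]; group

theorem sqw {u : List ℕ} (h : ∀ l ∈ u, l ∈ KL) :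
    t * evL g (u ++ u) * t = evL g ((u ++ u).flatMap th) := by
  obtain ⟨w, hw, e⟩ := T.apxw U zp u h
  have c := T.zc hw (u := u.flatMap th) fun l hl => by
    obtain ⟨y, hy, k⟩ := List.mem_flatMap.mp hl
    exact (hK1 y (h y hy)).2.2.1 l k
  rw [List.flatMap_append, evL_append, evL_append]
  calc _ = t * evL g u * (t * t) * evL g u * t := by rw [U.sq]; group
    _ = (t * evL g u * t) * (t * evL g u * t) := by group
    _ = evL g w * (evL g (u.flatMap th) * evL g w) * evL g (u.flatMap th) := by rw [e]; group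
    _ = evL g w * evL g w * (evL g (u.flatMap th) * evL g (u.flatMap th)) := by
      rw [← c.eq]; group
    _ = _ := by rw [T.zsq w hw, one_mul]

theorem k1 : t * g 1 * t = evL g (th 1) := by
  obtain ⟨d, hd, e⟩ := T.apx U zp (y := 1) (by decide)
  have c := cj_t U.sq (g 1)
  rw [e, T.gr.g_one] at c
  simp only [Z4, List.mem_cons, List.not_mem_nil, or_false] at hd
  rcases hd with rfl | rfl | rfl | rfl
  · exact e
  · rw [T.gr.hE (v := 1 :: DW 24) (by decide +kernel)] at c
    exact (T.nQ rfl (by decide +kernel) c).elim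
  · rw [T.gr.hE (v := [1, 17]) (by decide +kernel)] at c
    exact (T.nz1 c).elim
  · exfalso
    rw [T.gr.hE (v := [1]) (by decide +kernel), evL_singleton, T.gr.g_one] at e
    have e1 : t * z = z * t := by
      calc _ = t * z * t * t := by rw [mul_assoc _ t, U.sq, mul_one]
        _ = _ := by rw [e]
    have q : g 25 ∈ Q := by
      rw [T.gr.g_DW (by norm_num)]
      exact (T.gr.g_Q T.S.h rfl).1
    have q' := T.pl 25 (by decide)
    have e2 := (comm_iff T.S.h' U.mem q').mpr (fixW _ (co_lt _ _)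
      ((T.S.symm.full U.mem).mp e1) _ (T.S.symm.R_W q' q))
    refine T.gr.hN (u := [25]) (v := th 25) (by decide +kernel) ?_
    rw [← U.act 25 (by decide), ← e2, mul_assoc, U.sq, mul_one, evL_singleton]

theorem kL1 : ∀ y ∈ L1, t * g y * t = evL g (th y) := fun y hy => by
  have k : ∀ l ∈ 1 :: PL, t * g l * t = evL g (th l) := fun l hl =>
    (List.mem_cons.mp hl).elim (fun e => e ▸ T.k1 U zp) (U.act l)
  rcases hSQ y hy with c | ⟨e, -, h1, h2, h3, h4, h5⟩
  · exact k y c
  · rw [← evL_singleton g y, T.gr.hE h4, T.gr.hE h5]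
    exact th_app U.sq (th_app U.sq (T.sqw U zp h1) (T.sqw U zp h2))
      (th_L U.sq _ fun l hl => k l (h3 l hl))

theorem k19 : t * g 19 * t = evL g (th 19) := by
  obtain ⟨d, hd, e⟩ := T.apx U zp (y := 19) (by decide)
  have c := (T.z17.trans (T.gr.hCj (y := [11, 13, 12, 10]) (v := [19, 1])
    (by decide +kernel))).trans (cj_t U.sq _)
  have e2 : t * evL g [19, 1] * t = evL g (d ++ th 19 ++ th 1) := by
    rw [evL_append, ← e, ← T.k1 U zp, evL_cons, evL_singleton]
    calc _ = t * g 19 * (t * t) * g 1 * t := by rw [U.sq]; group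
      _ = _ := by group
  rw [e2] at c
  have n := T.nzB' U.sq (T.kL1 U zp)
  simp only [Z4, List.mem_cons, List.not_mem_nil, or_false] at hd
  rcases hd with rfl | rfl | rfl | rfl
  · exact e
  · exact (n [11, 12] (by decide) (c.trans (T.gr.hCj (y := [15, 14, 13, 10, 12, 11, 13, 14, 15, 10, 12, 11, 13, 14, 12, 11, 13, 12, 10]) (by decide +kernel)).symm)).elim
  · exact (n [17, 2] (by decide) (c.trans (T.gr.hCj (y := [11, 13, 12, 10, 3]) (by decide +kernel)).symm)).elim
  · exact (n [1, 11, 12] (by decide) (c.trans (T.gr.hCj (y := [15, 14, 13, 10, 12, 11, 13, 14, 15, 10, 12, 11, 13, 14, 12, 11, 13, 12, 10, 3, 2]) (by decide +kernel)).symm)).elim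

theorem k18 : t * g 18 * t = evL g (th 18) := by
  rw [← evL_singleton g 18, T.gr.hE (u := [18]) (v := [19, 18] ++ [19, 18] ++ [19])
    (by decide +kernel), T.gr.hE (u := th 18) (v := ([19, 18] ++ [19, 18] ++ [19]).flatMap th)
    (by decide +kernel)]
  exact th_app U.sq (T.sqw U zp (by decide)) (th_L U.sq _ (by simpa using T.k19 U zp))

omit zp in
theorem cube {d : List ℕ} (hd : d.all PL.contains = true) (e : t * g 13 * t = evL g (d ++ [13])) :
    evL P.ev (rp 3 ([30, 11] ++ d ++ [13])) = 1 := by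
  have N := T.gr.t_NPk U
  have N1 := T.gr.nl_NPk (y := 11) (by decide)
  have u := mul_mem (mul_mem N N1) (T.gr.nl_NPk (y := 13) (by decide))
  have p := T.gr.NPk_nrm (mul_mem N N1) (T.gr.mem_Pk hd)
  have u3 : ((t, P.ev 30) * pr2 g 11 * pr2 g 13) ^ 3 = 1 := Prod.ext U.rq (by
    have : evL P.ev (rp 3 [30, 11, 13]) = 1 := eq1_spec (by decide +kernel)
    rw [evL_rp, evL_cons, evL_cons, evL_singleton, ← mul_assoc] at this
    exact this)
  have key : ∀ p u : G × Grp, p * (u * p * u⁻¹) * (u * u * p * (u * u)⁻¹) * u ^ 3 = (p * u) ^ 3 :=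
    fun p u => by simp only [pow_succ, pow_zero]; group
  have m := mul_mem (mul_mem p (T.gr.NPk_nrm u p)) (T.gr.NPk_nrm (mul_mem u u) p)
  rw [← mul_one (_ * _ * _), ← u3, key] at m
  have e3 : (t, P.ev 30) * pr2 g 11 * (evL g d, evL P.ev d) * ((t, P.ev 30) * pr2 g 11)⁻¹ *
      ((t, P.ev 30) * pr2 g 11 * pr2 g 13) =
      (t * g 11 * (evL g d * g 13), evL P.ev ([30, 11] ++ d ++ [13])) := by
    rw [evL_append, evL_append, evL_cons, evL_singleton, evL_singleton, ← mul_assoc (t * g 11)]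
    calc _ = (t, P.ev 30) * pr2 g 11 * (evL g d, evL P.ev d) * pr2 g 13 := by group
      _ = _ := rfl
  rw [evL_append, evL_singleton] at e
  rw [e3, ← e, Prod.pow_mk, ← evL_rp] at m
  have ti := inv_eq_of_mul_eq_one_right U.sq
  have e4 : t * g 11 * (t * g 13 * t) = (t * g 11 * t) * (t * g 11 * g 13)⁻¹ * (t * g 11 * t)⁻¹ := by
    simp only [_root_.mul_inv_rev, ti, T.gr.g_inv (l := 11) (by norm_num),
      T.gr.g_inv (l := 13) (by norm_num)]
    calc _ = t * g 11 * t * g 13 * (g 11 * (t * t) * g 11) * t := by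
          rw [U.sq, mul_one, T.gr.g_sq (by norm_num)]; group
      _ = _ := by group
  rw [e4, conj_pow, inv_pow, U.rq, inv_one, mul_one, mul_inv_cancel] at m
  exact T.gr.snd _ (T.gr.Pk_le m)

theorem k13 : t * g 13 * t = evL g (th 13) := by
  obtain ⟨d, hd, e⟩ := T.apx U zp (y := 13) (by decide)
  simp only [Z4, List.mem_cons, List.not_mem_nil, or_false] at hd
  rcases hd with rfl | rfl | rfl | rfl
  · exact e
  · exact (ne1_spec (by decide +kernel) (T.cube U rfl e)).elim
  · exact (ne1_spec (by decide +kernel) (T.cube U rfl e)).elim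
  · have c := ((T.z16' U.sq (T.kL1 U zp)).trans (T.gr.hCj (y := [14, 15, 16, 13, 14, 15])
      (v := [13]) (by decide +kernel))).trans (cj_t U.sq _)
    rw [evL_singleton, e] at c
    exact (T.nz3 (c.trans (T.gr.hCj (y := [14, 15, 16, 12, 11, 13, 14, 15, 10, 12, 8, 3])
      (by decide +kernel)).symm)).elim

theorem relK : RK g t := fun l hl => by
  have : ∀ l ∈ KL, l ∈ L1 ∨ l = 18 ∨ l = 19 ∨ l = 13 := by decide
  rcases this l hl with c | rfl | rfl | rfl
  exacts [T.kL1 U zp l c, T.k18 U zp, T.k19 U zp, T.k13 U zp]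

end St

end Cfsg.Co2
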