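import Cfsg.Agent.Co2.G0

/-! Classes of involutions of the centraliser. -/

set_option autoImplicit false
set_option maxRecDepth 100000
set_option linter.unusedSectionVars false

namespace Cfsg.Co2

open Subgroup Cfsg.H6 Cfsg.Co.Rc
open Cfsg.Co2.P (Grp hev)
open Cfsg.Co3G (Sp)

/-- The letters of the largest normal two-subgroup. -/
def L1 : List ℕ := [1, 2, 6, 24, 25, 26, 27, 16, 17, 20, 21, 22, 23, 28, 29]

/-- Involutions that are not conjugate to `z`. -/
def NB : List (List ℕ) := [[24], [1,17], [17,2], [10,11,16], [1,16], [11,12], [1,11,12]]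

variable {G : Type*} [Group G] [Finite G] {z s : G} {Q Q' : Subgroup G} {a a' : ℕ → G}
  {π : centralizer ({z} : Set G) →* Sp} {π' : centralizer ({s} : Set G) →* Sp}
  {Γ : Subgroup (G × Grp)} {g : ℕ → G} {t : G}

theorem th_L (tt : t * t = 1) : ∀ u : List ℕ, (∀ l ∈ u, t * g l * t = evL g (th l)) →
    t * evL g u * t = evL g (u.flatMap th)
  | [], _ => by rw [evL_nil, mul_one, tt]; rfl
  | l :: u, h => by
    rw [List.flatMap_cons, evL_append, evL_cons, ← h l (List.mem_cons_self ..),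
      ← th_L tt u fun x hx => h x (List.mem_cons_of_mem _ hx)]
    calc _ = t * g l * (t * t) * evL g u * t := by rw [tt]; group
      _ = _ := by group

theorem th_w (U : Tt Q' g t) (K : RK g t) {u : List ℕ} (h : ∀ l ∈ u, l ∈ KL) :
    t * evL g u * t = evL g (u.flatMap th) := th_L U.sq u fun l hl => K l (h l hl)

theorem cj_t (tt : t * t = 1) (x : G) : IsConj x (t * x * t) :=
  isConj_iff.mpr ⟨t, by rw [inv_eq_of_mul_eq_one_right tt]⟩

namespace St

variable (T : St z s Q Q' a a' π π' Γ g)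
include T

theorem nQ {w : List ℕ} (hw : inR 10 w = true) (n : neC w [1] = true) : ¬ IsConj z (evL g w) :=
  fun c => T.gr.hN n (by
    rw [evL_singleton, T.gr.g_one]; exact wcI T.S.h c (T.gr.g_Q T.S.h hw).1)

theorem nz0 : ¬ IsConj z (evL g [24]) := by
  rw [T.gr.hE (v := DW 24) (by decide +kernel)]
  exact T.nQ rfl (by decide +kernel)

theorem nz1 : ¬ IsConj z (evL g [1, 17]) := by
  rw [evL_cons, evL_singleton, T.gr.g_one, T.s17]
  exact nz2' T.S.h T.S.e T.S.cl T.S.cj

theorem nz2a : ¬ IsConj z (evL g [17, 2]) := by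
  refine nz2 T.S.h (T.gr.g_cen rfl) ?_ (T.gr.g_Q T.S.h (w := [6]) rfl).1 ?_
  · rw [T.gr.pi_w T.S.h rfl]
    exact cl_d4
  · have := T.gr.hE (u := [17, 2] ++ [6]) (v := [1] ++ ([6] ++ [17, 2])) (by decide +kernel)
    rwa [evL_append, evL_append, evL_append, evL_singleton g 1, T.gr.g_one] at this

theorem nz3 : ¬ IsConj z (evL g [10, 11, 16]) := by
  refine nz4 T.S.h (T.gr.g_cen rfl) ⟨1, ?_⟩
  rw [T.gr.pi_w T.S.h rfl, one_mul, inv_one, mul_one]
  rfl

theorem z17 : IsConj z (evL g [17]) := by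
  rw [evL_singleton, T.s17]
  exact T.S.cj

variable (tt : t * t = 1) (K : ∀ l ∈ L1, t * g l * t = evL g (th l))
include tt K

omit T in
theorem tr1 {u : List ℕ} (h : ∀ l ∈ u, l ∈ L1) : IsConj (evL g u) (evL g (u.flatMap th)) :=
  th_L tt u (fun l hl => K l (h l hl)) ▸ cj_t tt _

theorem z16' : IsConj z (evL g [16]) :=
  (T.z17.trans (T.gr.hCj (y := [15, 14, 12, 13, 10, 12, 11, 13, 14, 15, 16, 13, 10, 12, 11, 13, 14, 15, 11, 13, 12, 10, 8]) (by decide +kernel))).trans (tr1 tt K (u := [16]) (by decide)).symm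

theorem nzB' : ∀ b ∈ NB, ¬ IsConj z (evL g b) := by
  intro b hb
  simp only [NB, List.mem_cons, List.not_mem_nil, or_false] at hb
  rcases hb with rfl | rfl | rfl | rfl | rfl | rfl | rfl
  · exact T.nz0
  · exact T.nz1
  · exact T.nz2a
  · exact T.nz3
  · exact fun c => T.nz2a ((c.trans (tr1 tt K (by decide))).trans (T.gr.hCj (y := [15, 14, 13, 10, 12, 11, 13, 16, 14, 15, 16, 14, 13, 12, 11, 13, 14, 15, 11, 13, 12, 10]) (by decide +kernel)).symm)
  · exact fun c => T.nQ (w := [2]) rfl (by decide +kernel) ((c.trans (T.gr.hCj (y := [15, 14, 13, 12, 11, 13, 14, 15, 10, 12, 11, 13, 14, 10, 12, 11, 13, 12, 10, 9, 3]) (by decide +kernel))).trans (tr1 tt K (u := [2]) (by decide)).symm)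
  · exact fun c => T.nz2a (((c.trans (T.gr.hCj (y := [15, 14, 13, 12, 11, 13, 14, 15, 10, 12, 13, 14, 12, 11, 13, 12, 10, 16, 8]) (by decide +kernel))).trans (tr1 tt K (u := [2, 17]) (by decide)).symm).trans (T.gr.hCj (y := []) (by decide +kernel)))

end St

theorem L1_KL : ∀ l ∈ L1, l ∈ KL := by decide

theorem St.nzB (T : St z s Q Q' a a' π π' Γ g) (U : Tt Q' g t) (K : RK g t) :
    ∀ b ∈ NB, ¬ IsConj z (evL g b) := T.nzB' U.sq fun l hl => K l (L1_KL l hl)

theorem St.z16 (T : St z s Q Q' a a' π π' Γ g) (U : Tt Q' g t) (K : RK g t) : IsConj z (g 16) :=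
  evL_singleton g 16 ▸ T.z16' U.sq fun l hl => K l (L1_KL l hl)

end Cfsg.Co2
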