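import Cfsg.Agent.Co2.M0

set_option autoImplicit false
set_option maxRecDepth 100000

namespace Cfsg.Co2.Md

open Cfsg.Co

theorem hu1 : ∀ l < 21, 11 ≤ l → mu2Chk (cs l) (rw l) = true := by decide +kernel

end Cfsg.Co2.Md
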