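import Cfsg.Agent.Co2.M0a
import Cfsg.Agent.Co2.M0b
import Cfsg.Agent.Co2.M0c
import Cfsg.Agent.Co2.E1
import Cfsg.Agent.Co2.T3
import Cfsg.Agent.Co2.P.Main

/-! The model is `Co₂`; the centraliser of the ten sign changes. -/

set_option autoImplicit false
set_option maxRecDepth 100000
set_option Elab.async false

namespace Cfsg.Co2

open Cfsg.H4.Golay Cfsg.H6 Cfsg.H6.Leech Cfsg.H2 Cfsg.Co

/-- The letters that are a basis of the sign changes. -/
def FL : List ℕ := [1, 2, 24, 25, 27, 17, 20, 21, 16, 19]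

namespace Md

/-- The permutation of a letter. -/
noncomputable def pl (l : ℕ) (h : l < 31) : M24 :=
  ⟨prm (ta l) (ta l) (hi l h), okM_spec (hi l h) (ho l h)⟩

/-- The letters in `Co₀`. -/
noncomputable def l0 (l : ℕ) : Co0 :=
  if h : 1 ≤ l ∧ l < 31 then
    if l = 15 ∨ l = 18 then cu (cs l) else eps (wd (em l)) (wd_mem (hm l h.2)) * toCo0 (pl l h.2)
  else 1

theorem hasMat_l0 {l : ℕ} (h1 : 1 ≤ l) (h2 : l < 31) : HasMat (l0 l) (cs l) := by
  unfold l0
  rw [dif_pos ⟨h1, h2⟩]
  split_ifs with h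
  · rcases h with rfl | rfl
    · exact hasMat_cu h15
    · exact hasMat_cu h18
  · refine hasMat_sgn _ _ _ ?_
    rcases hs l h2 with a | a | a | a
    · omega
    · omega
    · omega
    · exact a

theorem l0_fix (l : ℕ) : (l0 l).1 Spor.leechU = Spor.leechU := by
  by_cases h : 1 ≤ l ∧ l < 31
  · have k : (l0 l)⁻¹.1 Spor.leechU = Spor.leechU := by
      refine Subtype.ext (funext fun p => ?_)
      have a := (hasMat_l0 h.1 h.2).inv Spor.leechU p
      rw [Finset.sum_eq_add_of_mem none (some 0) (Finset.mem_univ _) (Finset.mem_univ _)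
        (by simp) (fun c _ hc => by rw [u_apply, if_neg (by tauto), mul_zero]), u_apply, u_apply,
        if_pos (Or.inl rfl), if_pos (Or.inr rfl)] at a
      have b := hf l h.2 h.1 _ (idx_lt p)
      have c : ∀ p : GolayPt, (idx p = 23 ∨ idx p = 0) ↔ (p = none ∨ p = some 0) := by
        decide +kernel
      change _ = Leech.ent (cs l) (24 * idx p + 23) * 4 + Leech.ent (cs l) (24 * idx p + 0) * 4 at a
      rw [u_apply]
      simp only [c] at b
      split_ifs at b ⊢ <;> omega
    nth_rewrite 1 [← k]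
    exact apply_inv _ _
  · unfold l0
    rw [dif_neg h]
    rfl

/-- The letters in `Co₂`. -/
noncomputable def l2 (l : ℕ) : Spor.Co2 := mk2 (l0 l) (l0_fix l)

theorem l2_out {l : ℕ} (h : ¬(1 ≤ l ∧ l < 31)) : l2 l = 1 := inc2_inj (by
  rw [l2, inc2_mk2, map_one, l0, dif_neg h])

theorem mu_inj : Function.Injective Co2T.μ := (injective_iff_map_eq_one _).mpr fun g h => by
  rcases mu2_eq_one_iff.mp h with a | a
  · exact inc2_inj (a.trans (map_one _).symm)
  · have b := fix_u g
    rw [a, Co.neg_apply] at b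
    have c := congrArg (fun v : leechLattice => v.1 none) b
    change -Spor.leechU.1 none = Spor.leechU.1 none at c
    rw [u_apply, if_pos (Or.inl rfl)] at c
    omega

theorem mu_l2 (l : ℕ) (h1 : 1 ≤ l) (h2 : l < 31) : Co2T.μ (l2 l) = PP.mat code l := by
  have h : mu2Chk (cs l) (rw l) = true := by
    by_cases a : l < 11
    · exact hu0 l a h1
    by_cases b : l < 21
    · exact hu1 l b (by omega)
    · exact hu2 l h2 (by omega)
  change mu2 (l0 l) = _
  rw [(hasMat_l0 h1 h2).mu2 h]
  ext i j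
  have := hc l h2 i i.2 j j.2
  change dec2 (rw l i) j = ((PP.dgt (code l) i j : ℕ) : ZMod 2)
  rw [this]
  unfold dec2
  split_ifs <;> rfl

/-- The action of the letters on packed matrices. -/
noncomputable def im : ℕ → ℕ → ℕ := PP.img PP.d code

/-- The code of the identity. -/
noncomputable def b1 : ℕ := PP.one

theorem dec_val {w : List ℕ} (hw : inR 31 w = true) :
    PP.dec PP.d (trF im w b1) = Co2T.μ (evL l2 w) := by
  have h1 := Par.dec_tr (code := code) ok PP.d w b1
  have h2 : PP.dec PP.d b1 = 1 := Par.dec_one ok (by decide)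
  have h3 := map_evL_mpr (μ := Co2T.μ) mu_l2 hw
  rw [h3]
  refine h1.trans ?_
  rw [h2]
  exact Matrix.one_mul _

/-- The oracle. -/
theorem ora : Oracle l2 im 31 [b1] := by
  intro w h
  have hw : inR 31 w = true ∧ trF im w b1 = b1 := by
    unfold fixB at h
    simpa using h
  apply mu_inj
  rw [← dec_val hw.1, hw.2, map_one]
  exact Par.dec_one ok (by decide)

theorem sq_l2 (l : ℕ) : l2 l * l2 l = 1 := by
  by_cases h : 1 ≤ l ∧ l < 31
  · have : ∀ l < 31, l = 0 ∨ fixB im 31 [b1] [l, l] = true := by decide +kernel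
    rcases this l h.2 with a | a
    · omega
    · simpa [evL_cons, evL_nil] using ora _ a
  · rw [l2_out h, one_mul]

theorem rels : Rels l2 P.R := ora.rels (by decide +kernel)

theorem good : Good l2
    53206320320083115796502214552783413060461247639578808291150702859268522240 := by
  refine ⟨l2_out (by omega), fun l => ?_⟩
  by_cases h : l < 31
  · have : ∀ l < 31, invL
        53206320320083115796502214552783413060461247639578808291150702859268522240 l = l := by
      decide +kernel
    rw [this l h]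
    exact eq_inv_of_mul_eq_one_left (sq_l2 l)
  · rw [invL_eq_zero (by norm_num : _ < 256 ^ 31) (by omega), l2_out (by omega), l2_out (by omega),
      inv_one]

theorem hd : ∀ l ∈ FL, (1 ≤ l ∧ l < 31) ∧ diagChk (cs l) (em l) = true := by decide +kernel

theorem l0_eps {l : ℕ} (h : l ∈ FL) : l0 l = eps (wd (em l)) (wd_mem (hm l (hd l h).1.2)) :=
  (hasMat_l0 (hd l h).1.1 (hd l h).1.2).eq (hasMat_eps _ (hd l h).2)

/-- The sum of the masks of a word. -/
noncomputable def xl (w : List ℕ) : ℕ := w.foldr (fun l a => Nat.xor (em l) a) 0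

theorem ev_eps : ∀ w : List ℕ, (∀ l ∈ w, l ∈ FL) →
    ∃ hc : wd (xl w) ∈ golayCode, inc2 (evL l2 w) = eps (wd (xl w)) hc
  | [], _ => ⟨by rw [show xl [] = 0 from rfl, wd_zero]; exact Submodule.zero_mem _, by
      rw [evL_nil, map_one, ← eps_zero]
      exact eps_congr _ wd_zero.symm⟩
  | l :: w, h => by
    obtain ⟨hc, e⟩ := ev_eps w fun x hx => h x (List.mem_cons_of_mem _ hx)
    have a : wd (xl (l :: w)) = wd (em l) + wd (xl w) := wd_xor _ _
    have hl := h l List.mem_cons_self
    refine ⟨a ▸ Submodule.add_mem _ (wd_mem (hm l (hd l hl).1.2)) hc, ?_⟩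
    rw [evL_cons, map_mul, e, l2, inc2_mk2, l0_eps hl, eps_mul]
    exact eps_congr _ a.symm

theorem ev_ep2 (w : List ℕ) (h : ∀ l ∈ w, l ∈ FL) :
    ∃ hc hz, evL l2 w = ep2 (wd (xl w)) hc hz := by
  obtain ⟨hc, e⟩ := ev_eps w h
  have k := fix_u (evL l2 w)
  rw [e] at k
  exact ⟨hc, (eps_fix hc).mp k, inc2_inj e⟩

theorem iso : ∃ i : P.Grp ≃* Spor.Co2, ∀ l, i (P.ev l) = l2 l := by
  obtain ⟨φ, hφ⟩ := P.lift good rels
  have := P.simple
  have := P.finite
  have inj : Function.Injective φ := by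
    rcases IsSimpleGroup.eq_bot_or_eq_top_of_normal φ.ker φ.normal_ker with h | h
    · exact φ.ker_eq_bot_iff.mp h
    · have a : P.ev 1 ∈ φ.ker := h ▸ Subgroup.mem_top _
      rw [MonoidHom.mem_ker, hφ] at a
      have b := congrArg inc2 a
      rw [l2, inc2_mk2, l0_eps (by decide), map_one, ← eps_zero] at b
      have c := congrArg wt (eps_inj b)
      rw [← wd_zero, wt_wd, wt_wd] at c
      exact absurd c (by decide +kernel)
  exact ⟨MulEquiv.ofBijective φ ((Nat.bijective_iff_injective_and_card φ).mpr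
    ⟨inj, P.main.1.trans Co2T.card_Co2.symm⟩), hφ⟩

/-- The parity of a mask. -/
noncomputable def par (m : ℕ) : Bool :=
  frcB (fun a => frcB (fun b => frcB (fun c => frcB (fun d =>
    Nat.beq (Nat.land (Nat.xor d (Nat.shiftRight d 1)) 1) 1) (Nat.xor c (Nat.shiftRight c 2)))
    (Nat.xor b (Nat.shiftRight b 4))) (Nat.xor a (Nat.shiftRight a 8)))
    (Nat.xor m (Nat.shiftRight m 16))

theorem span : allSpan (fun m => frcB (fun m => m.testBit 23 || m.testBit 0 ||
    Nat.beq (xl (FL.filter fun l => par (Nat.land m (df l)))) m) m) basis 0 = true := by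
  decide +kernel

theorem sepF : ∀ p < 24, ∀ q < 24, p = 23 ∨ p = 0 ∨ p = q ∨
    ∃ l ∈ FL, (em l).testBit p ≠ (em l).testBit q := by decide +kernel

theorem perm_one {π : M24} (h : ∀ p, p ≠ none → p ≠ some 0 → π.1 p = p) : π = 1 := by
  have k : ∀ p, p = none ∨ p = some 0 → π.1 p = none ∨ π.1 p = some 0 := fun p hp => by
    by_contra hc
    push Not at hc
    have := π.1.injective (h _ hc.1 hc.2)
    rw [this] at hc
    tauto
  have n : (none : GolayPt) ≠ some 0 := by simp
  by_cases a : π.1 none = none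
  · have b : π.1 (some 0) = some 0 :=
      (k _ (Or.inr rfl)).resolve_left fun e => n (π.1.injective (a.trans e.symm))
    refine Subtype.ext (Equiv.ext fun p => ?_)
    by_cases h1 : p = none
    · rw [h1]; exact a
    by_cases h2 : p = some 0
    · rw [h2]; exact b
    exact h p h1 h2
  · have a' := (k _ (Or.inl rfl)).resolve_left a
    have b : π.1 (some 0) = none :=
      (k _ (Or.inr rfl)).resolve_right fun e => n (π.1.injective (a'.trans e.symm))
    obtain ⟨c, hc, c1, c2⟩ := sep n
    have e : c + c ∘ π.1 = wd 8388609 := by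
      funext p
      by_cases h1 : p = none
      · rw [h1, Pi.add_apply, Function.comp_apply, a', c1, c2]
        decide +kernel
      by_cases h2 : p = some 0
      · rw [h2, Pi.add_apply, Function.comp_apply, b, c1, c2]
        decide +kernel
      rw [Pi.add_apply, Function.comp_apply, h p h1 h2, CharTwo.add_self_eq_zero]
      revert p
      decide +kernel
    have f := wt_cases (Submodule.add_mem _ hc (comp_mem π.2 hc))
    rw [e, wt_wd] at f
    exact absurd f (by decide +kernel)

theorem cen {g : Spor.Co2} (h : ∀ l ∈ FL, g * l2 l = l2 l * g) :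
    ∃ w : List ℕ, w.Sublist FL ∧ g = evL l2 w := by
  have k : ∀ p q, p ≠ none → p ≠ some 0 → ((inc2 g).1 (E p)).1 q ≠ 0 → q = p := by
    intro p q h1 h2 h0
    rcases sepF _ (idx_lt p) _ (idx_lt q) with a | a | a | ⟨l, hl, a⟩
    · exact absurd (idx_inj a) h1
    · exact absurd (idx_inj a) h2
    · exact (idx_inj a).symm
    · have b := congrArg inc2 (h l hl)
      rw [map_mul, map_mul, l2, inc2_mk2, l0_eps hl] at b
      exact absurd (wd_eq_iff.mp (support_of_conj (mul_inv_eq_iff_eq_mul.mpr b) h0)) a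
  have m : inc2 g ∈ Mon := by
    have h2 : sqNorm ((inc2 g).1 (E (some 1))).1 = 64 := by rw [map_norm, norm_E]
    have h3 : ((inc2 g).1 (E (some 1))).1 (some 1) ^ 2 = 64 := by
      rw [← h2, sqNorm, Finset.sum_eq_single (some 1) (fun l _ hl => by
        have : ((inc2 g).1 (E (some 1))).1 l = 0 := by
          by_contra h0
          exact hl (k _ _ (by decide) (by decide) h0)
        simp [this]) (by simp)]
    refine mon_of_one ((eq_E_of_coord h2.le (l := some 1) ?_).imp And.right And.right)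
    by_contra hc
    push Not at hc
    nlinarith [hc.1, hc.2]
  obtain ⟨c, hc, π, e⟩ := mon_eq m
  have hπ : π = 1 := perm_one fun p h1 h2 => k p _ h1 h2 (by
    rw [e, Co.mul_apply, toCo0_E, eps_apply, E_self]
    rcases sg_cases c (π.1 p) with a | a <;> rw [a] <;> norm_num)
  rw [hπ, map_one, mul_one] at e
  have z := fix_u g
  rw [e, eps_fix] at z
  obtain ⟨m, h1, rfl⟩ := exists_mask span hc
  have a : m.testBit 23 = false := by
    by_contra h
    exact one_ne_zero ((if_pos (Bool.of_not_eq_false h)).symm.trans z.1)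
  have b : m.testBit 0 = false := by
    by_contra h
    exact one_ne_zero ((if_pos (Bool.of_not_eq_false h)).symm.trans z.2)
  rw [frcB_eq, a, b] at h1
  simp only [Bool.false_or, Nat.beq_eq] at h1
  refine ⟨_, List.filter_sublist (p := fun l => par (Nat.land m (df l))), inc2_inj ?_⟩
  obtain ⟨hw, ew⟩ := ev_eps (FL.filter fun l => par (Nat.land m (df l)))
    fun l hl => List.mem_of_mem_filter hl
  rw [e, ew]
  exact eps_congr _ (congrArg wd h1.symm)

end Md

theorem exists_iso : ∃ i : P.Grp ≃* Spor.Co2, ∃ c16 m16 z16 c8 m8 z8 c12 m12 z12,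
    wt c16 = 16 ∧ wt c8 = 8 ∧ wt c12 = 12 ∧ i (P.ev 1) = ep2 c16 m16 z16 ∧
    i (P.ev 24) = ep2 c8 m8 z8 ∧ i (evL P.ev [17, 2]) = ep2 c12 m12 z12 := by
  obtain ⟨i, hi⟩ := Md.iso
  obtain ⟨m16, z16, e16⟩ := Md.ev_ep2 [1] (by decide)
  obtain ⟨m8, z8, e8⟩ := Md.ev_ep2 [24] (by decide)
  obtain ⟨m12, z12, e12⟩ := Md.ev_ep2 [17, 2] (by decide)
  rw [evL_singleton] at e16 e8
  refine ⟨i, _, m16, z16, _, m8, z8, _, m12, z12, ?_, ?_, ?_, (hi 1).trans e16, (hi 24).trans e8,
    ?_⟩
  · rw [wt_wd]; decide +kernel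
  · rw [wt_wd]; decide +kernel
  · rw [wt_wd]; decide +kernel
  · rw [← e12, evL_cons, evL_singleton, map_mul, hi, hi, evL_cons, evL_singleton]

theorem cenF (x : P.Grp) (h : ∀ l ∈ FL, x * P.ev l = P.ev l * x) :
    ∃ w : List ℕ, w.Sublist FL ∧ x = evL P.ev w := by
  obtain ⟨i, hi⟩ := Md.iso
  obtain ⟨w, hw, e⟩ := Md.cen (g := i x) fun l hl => by rw [← hi, ← map_mul, ← map_mul, h l hl]
  refine ⟨w, hw, i.injective ?_⟩
  rw [e]
  exact ((map_evL i.toMonoidHom P.ev w).trans (evL_congr fun l _ => hi l)).symm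

end Cfsg.Co2
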