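import Cfsg.Agent.Co2.G0
import Cfsg.Agent.Co2.M1

/-! The last two relators. -/

set_option autoImplicit false
set_option maxRecDepth 100000
set_option linter.unusedSectionVars false

namespace Cfsg.Co2

open Subgroup Cfsg.H6 Cfsg.Co.Rc
open Cfsg.Co2.P (Grp hev)
open Cfsg.Co3G (Sp)

namespace R4

/-- The action of three letters on the basis. -/
def AC : List (ℕ × ℕ × List ℕ) := [(13,1,[1]),(13,2,[2,25,27]),(13,24,[24]),(13,25,[24,25]),(13,27,[24,27]),(13,17,[17]),(13,20,[24,20]),(13,21,[24,25,20,21]),(13,16,[16]),(13,19,[19]),(10,1,[1]),(10,2,[2]),(10,24,[24,25,27]),(10,25,[1,2,25]),(10,27,[1,2,27]),(10,17,[24,27,17,20,19]),(10,20,[1,2,25,27,20]),(10,21,[24,27,20,21,19]),(10,16,[16]),(10,19,[19]),(26,1,[1]),(26,2,[2]),(26,24,[24]),(26,25,[25]),(26,27,[1,27]),(26,17,[17]),(26,20,[24,25,20]),(26,21,[25,21]),(26,16,[25,16]),(26,19,[1,2,24,19])]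

/-- The candidates with their conjugators. -/
def TB : List (List ℕ × List ℕ × List ℕ) := [([24,25,20],[15,16,11,13,14,15,4],[10,11,16]),([1,25,27,17,21],[15,16,14,15,8,4],[10,11,16]),([1,24,27,17,20,21],[15,16,13,14,15,8,4],[10,11,16]),([25,27,16],[15,16,14,15,13,14,11,13,12,10,7,2],[11,12]),([24,27,20,16],[12,13,14,15,16,14,15,11,13,14,12,13,10,12,11,13,14,15,12,11,13,14,12,11,13,12],[10,11,16]),([1,17,21,16],[12,13,14,15,16,12,13,14,15,11,13,14,12,13,10,12,11,13,14,15,12,11,13,14,12,11,13,12,8,3],[10,11,16]),([1,24,25,17,20,21,16],[12,13,14,15,16,13,14,15,11,13,14,12,13,10,12,11,13,14,15,12,11,13,14,12,11,13,12,8,3],[10,11,16]),([1,19],[12,13,14,15,16,13,12,11,13,14,15,12,8,4,3],[10,11,16]),([1,24,25,20,19],[15,16,12,13,10,12,11,13,14,15,4],[1,16]),([25,27,17,21,19],[12,13,14,15,16,12,11,13,14,15,12,4],[10,11,16]),([24,27,17,20,21,19],[12,13,14,15,16,11,13,14,15,12,4],[10,11,16]),([1,25,27,16,19],[15,14,13,12,11,13,14,15,16,10,12,13,14,15,11,13,14,12,13,12,8,3],[10,11,16]),([1,24,27,20,16,19],[12,13,14,15,16,11,13,14,15,12,13,14,11,13,12,10],[1,11,12]),([17,21,16,19],[15,14,13,12,11,13,14,15,16,10,12,13,14,15,11,13,14,12,11,13,12,9],[10,11,16]),([24,25,17,20,21,16,19],[15,14,13,12,11,13,14,15,16,10,12,13,14,15,12,11,13,14,12,11,13,12,9],[10,11,16])]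

theorem hAC : ∀ y ∈ [13, 10, 26], ∀ l ∈ FL, ∃ e ∈ AC, e.2.2.all FL.contains = true ∧
    e.1 = y ∧ e.2.1 = l ∧ cjC [y] [l] e.2.2 = true := by decide +kernel

theorem hFL : ∀ l ∈ FL, l ∈ KL ∧ 1 ≤ l ∧ l < 30 ∧ (th l).all FL.contains = true := by
  decide +kernel

theorem hsub : ∀ f ∈ FL.sublists, okC (f ++ f) = true ∧
    (new ([10] ++ f) (f ++ [10]) = true ∨ new ([30, 13] ++ f) (f ++ [30, 13]) = true ∨ f = [] ∨
      ∃ e ∈ TB, e.1 = f ∧ e.2.2 ∈ [[10, 11, 16], [1, 16], [11, 12], [1, 11, 12]] ∧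
        cjC e.2.1 e.2.2 (10 :: f) = true) := by decide +kernel

theorem h3 : eq1 [30, 13, 10, 30, 13, 10, 30, 13, 10] = true := by decide +kernel

theorem h7 : eq1 [30,13,26,10,30,13,26,10,30,13,26,10,30,13,26,10,30,13,26,10,30,13,26,10,30,13,26,10] = true := by decide +kernel

theorem h16 : cjC [13,14,15,16,11,13,14,15] [16] [11] = true := by decide +kernel

variable {G : Type*} [Group G] [Finite G] {z : G} {a : ℕ → G}
  {π : centralizer ({z} : Set G) →* Sp} {Γ : Subgroup (G × Grp)} {g : ℕ → G} {t : G}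
  (h : Gr z a π Γ g)
include h

/-- The graph of the sign changes. -/
noncomputable def Fh : Subgroup (G × Grp) := wds (pr2 g) FL.contains fun l hl =>
  Prod.ext (h.g_sq (hFL l (List.mem_of_elem_eq_true hl)).2.2.1) (sq_ev0 l)

theorem Fh_le : Fh h ≤ Γ := by
  rintro _ ⟨w, hw, rfl⟩
  exact evL_mem_of_letters fun l hl =>
    h.mem l (hFL l (List.mem_of_elem_eq_true (List.all_eq_true.mp hw l hl))).2.2.1

theorem mem_Fh {f : List ℕ} (hf : ∀ l ∈ f, l ∈ FL) : (evL g f, evL P.ev f) ∈ Fh h :=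
  ⟨f, List.all_eq_true.mpr fun l hl => List.elem_eq_true_of_mem (hf l hl), evL_pr2 g f⟩

/-- The pairs that normalise it. -/
noncomputable def Nm : Submonoid (G × Grp) where
  carrier := {c | ∀ d ∈ Fh h, c * d * c⁻¹ ∈ Fh h}
  one_mem' := fun d hd => by simpa using hd
  mul_mem' := fun {c e} hc he d hd => by
    have := hc _ (he d hd)
    simpa only [mul_inv_rev, mul_assoc] using this

theorem mem_Nm {c : G × Grp} (k : ∀ l ∈ FL, c * pr2 g l * c⁻¹ ∈ Fh h) : c ∈ Nm h := by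
  rintro _ ⟨w, hw, rfl⟩
  exact conj_evL fun l hl => k l (List.mem_of_elem_eq_true (List.all_eq_true.mp hw l hl))

theorem g_Nm {y : ℕ} (hy : y ∈ [13, 10, 26]) : (g y, P.ev y) ∈ Nm h := mem_Nm h fun l hl => by
  obtain ⟨e, -, e1, -, -, e2⟩ := hAC y hy l hl
  refine ⟨e.2.2, e1, ?_⟩
  have k := h.hC e2
  simp only [cjC, Bool.and_eq_true] at e2
  have k' := eqw_conj e2.2
  rw [evL_singleton, evL_singleton] at k k'
  rw [evL_pr2]
  exact Prod.ext k.symm k'.symm

theorem t_Nm (h2 : t * t = 1) (K : RK g t) : (t, P.ev 30) ∈ Nm h := mem_Nm h fun l hl => by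
  refine ⟨th l, (hFL l hl).2.2.2, ?_⟩
  have k := K l (hFL l hl).1
  have k' := eqw_spec (hth l (hFL l hl).1).2.2.2
  rw [evL_cons, evL_cons, evL_singleton] at k'
  rw [evL_pr2]
  refine Prod.ext ?_ ?_
  · change _ = t * g l * t⁻¹
    rw [inv_eq_of_mul_eq_one_right h2, k]
  · change _ = P.ev 30 * P.ev l * (P.ev 30)⁻¹
    rw [ev_inv, mul_assoc, k']

theorem pin {w : G} (hw : (w, (1 : Grp)) ∈ Nm h) :
    ∃ f ∈ FL.sublists, w = evL g f := by
  have m : ∀ l ∈ FL, (g l, P.ev l) ∈ Γ := fun l hl => h.mem l (hFL l hl).2.2.1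
  have k : ∀ l ∈ FL, w * g l * w⁻¹ = g l := fun l hl => by
    have b := mem_Fh h (f := [l]) (by simpa using hl)
    rw [evL_singleton, evL_singleton] at b
    have c := Fh_le h (hw _ b)
    simp only [Prod.inv_mk, Prod.mk_mul_mk, one_mul, inv_one, mul_one] at c
    exact h.eq_l c (m l hl)
  have k1 := k 1 (by decide)
  rw [h.g_one, mul_inv_eq_iff_eq_mul] at k1
  obtain ⟨w0, h0⟩ := h.sur w k1
  obtain ⟨f, hf, e⟩ := cenF w0 fun l hl => by
    have c := mul_mem (mul_mem h0 (m l hl)) (inv_mem h0)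
    rw [Prod.inv_mk, Prod.mk_mul_mk, Prod.mk_mul_mk, k l hl] at c
    exact mul_inv_eq_iff_eq_mul.mp (h.eq_r c (m l hl))
  exact ⟨f, List.mem_sublists.mpr hf,
    h.eq_l h0 (e ▸ Fh_le h (mem_Fh h fun l hl => hf.subset hl))⟩

theorem tr {c : G} {c0 : Grp} (hc : (c, c0) ∈ Nm h) {f : List ℕ} (hf : f ∈ FL.sublists)
    (e : c * evL g f * c⁻¹ = evL g f) : c0 * evL P.ev f = evL P.ev f * c0 := by
  have b := mem_Fh h fun l hl => (List.mem_sublists.mp hf).subset hl
  have d := Fh_le h (hc _ b)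
  rw [Prod.inv_mk, Prod.mk_mul_mk, Prod.mk_mul_mk, e] at d
  exact mul_inv_eq_iff_eq_mul.mp (h.eq_r d (Fh_le h b))

theorem rel14 (h2 : t * t = 1) (K : RK g t) : (t * g 13 * g 26 * g 10) ^ 14 = 1 := by
  have k := pow_mem (mul_mem (mul_mem (mul_mem (t_Nm h h2 K) (g_Nm h (y := 13) (by simp)))
    (g_Nm h (y := 26) (by simp))) (g_Nm h (y := 10) (by simp))) 7
  have e : (P.ev 30 * P.ev 13 * P.ev 26 * P.ev 10) ^ 7 = 1 := by
    have := eq1_spec h7
    simpa only [evL_cons, evL_nil, pow_succ, pow_zero, mul_assoc, one_mul, mul_one] using this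
  simp only [Prod.mk_mul_mk, Prod.pow_mk, e] at k
  obtain ⟨f, hf, e⟩ := pin h k
  have := h.hO (hsub f hf).1
  rw [evL_append, ← e, ← pow_add] at this
  exact this

omit h in
theorem conj3 {x y : G} (hx : x * x = 1) (hy : y * y = 1) (e : (x * y) ^ 3 = 1) : IsConj x y := by
  refine isConj_iff.mpr ⟨x * y, ?_⟩
  rw [mul_inv_rev, inv_eq_of_mul_eq_one_right hx, inv_eq_of_mul_eq_one_right hy,
    ← mul_left_inj y, hy, ← e]
  simp only [pow_succ, pow_zero, one_mul, mul_assoc]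

theorem rel3 (h2 : t * t = 1) (K : RK g t) (rq : (t * g 11 * g 13) ^ 3 = 1)
    (nz : ∀ b ∈ [[10, 11, 16], [1, 16], [11, 12], [1, 11, 12]], ¬ IsConj z (evL g b))
    (z16 : IsConj z (g 16)) : (t * g 13 * g 10) ^ 3 = 1 := by
  have k1 := mul_mem (t_Nm h h2 K) (g_Nm h (y := 13) (by simp))
  have k2 := g_Nm h (y := 10) (by simp)
  have k := pow_mem (mul_mem k1 k2) 3
  have e : (P.ev 30 * P.ev 13 * P.ev 10) ^ 3 = 1 := by
    have := eq1_spec h3
    simpa only [evL_cons, evL_nil, pow_succ, pow_zero, mul_assoc, one_mul, mul_one] using this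
  simp only [Prod.mk_mul_mk, Prod.pow_mk, e] at k k1
  obtain ⟨f, hf, e⟩ := pin h k
  have s13 := h.g_sq (l := 13) (by norm_num)
  have s11 := h.g_sq (l := 11) (by norm_num)
  have s10 := h.g_sq (l := 10) (by norm_num)
  have c13 : t * g 13 * t = g 13 := (K 13 (by decide)).trans (evL_singleton g 13)
  have st : t * g 13 * (t * g 13) = 1 := by rw [← mul_assoc, c13, s13]
  have r3 : (t * g 13 * g 11) ^ 3 = 1 := by
    have : t * g 13 * g 11 = g 13 * (t * g 11 * g 13) * (g 13)⁻¹ := by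
      rw [mul_assoc (g 13), mul_inv_cancel_right, ← mul_assoc]
      nth_rewrite 2 [← c13]
      rw [mul_assoc (t * g 13) t t, h2, mul_one]
    rw [this, conj_pow, rq, mul_one, mul_inv_cancel]
  have zt : IsConj z (t * g 13) := by
    have := h.hCj h16
    rw [evL_singleton, evL_singleton] at this
    exact (z16.trans this).trans (conj3 st s11 r3).symm
  have w2 := h.hO (hsub f hf).1
  rw [evL_append] at w2
  generalize t * g 13 = x at *
  generalize hy : g 10 = y at *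
  have ix := inv_eq_of_mul_eq_one_right st
  have iy := inv_eq_of_mul_eq_one_right s10
  have iw := inv_eq_of_mul_eq_one_right w2
  have wi : (evL g f)⁻¹ = (y * x) ^ 3 := by rw [← e, ← inv_pow, mul_inv_rev, ix, iy]
  have cx : x * evL g f * x⁻¹ = evL g f := by
    nth_rewrite 1 [← iw]
    rw [wi, ← conj_pow, ← mul_assoc, mul_inv_cancel_right, e]
  have cy : y * evL g f * y⁻¹ = evL g f := by
    nth_rewrite 1 [← e]
    rw [← conj_pow, ← mul_assoc, mul_inv_cancel_right, ← wi, iw]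
  rcases (hsub f hf).2 with n | n | n | ⟨d, -, -, d2, d3⟩
  · refine absurd ?_ (new_spec n)
    rw [evL_append, evL_append, evL_singleton]
    exact tr h k2 hf cy
  · refine absurd ?_ (new_spec n)
    rw [evL_append, evL_append, evL_cons, evL_singleton]
    exact tr h k1 hf cx
  · rw [e, n, evL_nil]
  · refine absurd ((zt.trans ?_).trans (h.hCj d3).symm) (nz _ d2)
    refine isConj_iff.mpr ⟨y * x * y, ?_⟩
    rw [evL_cons, hy, ← e, mul_inv_rev, mul_inv_rev, ix, iy]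
    simp only [pow_succ, pow_zero, one_mul, mul_assoc]

end R4

end Cfsg.Co2
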