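import Cfsg.Agent.Co2.G3a
import Cfsg.Agent.Co2.G4a

/-! The last two relators, in the final form. -/

set_option autoImplicit false

namespace Cfsg.Co2

open Subgroup Cfsg.H6
open Cfsg.Co2.P (Grp)
open Cfsg.Co3G (Sp)

variable {G : Type*} [Group G] [Finite G] {z s : G} {Q Q' : Subgroup G} {a a' : ℕ → G}
  {π : centralizer ({z} : Set G) →* Sp} {π' : centralizer ({s} : Set G) →* Sp}
  {Γ : Subgroup (G × Grp)} {g : ℕ → G} {t : G}

theorem rel3 (T : St z s Q Q' a a' π π' Γ g) (U : Tt Q' g t) (K : RK g t) :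
    (t * g 13 * g 10) ^ 3 = 1 :=
  R4.rel3 T.gr U.sq K U.rq (fun b hb => T.nzB U K b ((by decide : ∀ b ∈
    [[10, 11, 16], [1, 16], [11, 12], [1, 11, 12]], b ∈ NB) b hb)) (T.z16 U K)

theorem rel14 (T : St z s Q Q' a a' π π' Γ g) (U : Tt Q' g t) (K : RK g t) :
    (t * g 13 * g 26 * g 10) ^ 14 = 1 := R4.rel14 T.gr U.sq K

end Cfsg.Co2
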