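import Cfsg.Agent.Co2.G3a

/-! The homomorphism from the model. -/

set_option autoImplicit false
set_option maxRecDepth 100000

namespace Cfsg.Co2

open Subgroup Cfsg.H6 Cfsg.Co.Rc
open Cfsg.Co2.P (Grp hev)
open Cfsg.Co3G (Sp)

variable {G : Type*} [Group G] [Finite G] {z s : G} {Q Q' : Subgroup G} {a a' : ℕ → G}
  {π : centralizer ({z} : Set G) →* Sp} {π' : centralizer ({s} : Set G) →* Sp}
  {Γ : Subgroup (G × Grp)} {g : ℕ → G} {t : G}

/-- All letters. -/
def gt (g : ℕ → G) (t : G) (l : ℕ) : G := if l < 30 then g l else if l = 30 then t else 1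

omit [Finite G] in
theorem gt_lt {l : ℕ} (h : l < 30) : gt g t l = g l := if_pos h

omit [Finite G] in
theorem gt_30 : gt g t 30 = t := rfl

omit [Finite G] in
theorem gt_w {w : List ℕ} (hw : inR 30 w = true) : evL (gt g t) w = evL g w := by
  unfold evL
  rw [List.map_congr_left fun l hl => gt_lt (inR_spec hw l hl).2]

theorem R_cases : ∀ r ∈ P.R, okC r = true ∨ (∃ l ∈ KL, r = [30, l, 30] ++ (th l).reverse) ∨
    r = (List.replicate 3 [30, 13, 10]).flatten ∨
    r = (List.replicate 14 [30, 13, 26, 10]).flatten := by decide +kernel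

omit [Finite G] in
theorem evL_rep (f : ℕ → G) (w : List ℕ) : ∀ n, evL f (List.replicate n w).flatten = evL f w ^ n
  | 0 => by rw [pow_zero]; rfl
  | n + 1 => by rw [List.replicate_succ, List.flatten_cons, evL_append, evL_rep f w n, pow_succ']

theorem amal_of (T : St z s Q Q' a a' π π' Γ g) (U : Tt Q' g t) (K : RK g t)
    (h3 : (t * g 13 * g 10) ^ 3 = 1) (h14 : (t * g 13 * g 26 * g 10) ^ 14 = 1) :
    ∃ Φ : P.Grp →* G, Φ (P.ev 1) = z ∧ centralizer {z} ≤ Φ.range ∧
      ¬ IsConj z (Φ (P.ev 24)) ∧ ¬ IsConj z (Φ (evL P.ev [17, 2])) := by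
  have hg : Good (gt g t)
      53206320320083115796502214552783413060461247639578808291150702859268522240 := by
    refine good_of_rels (m := 31) (T.gr.fr 0 (by norm_num)) (fun l hl => by
      rw [gt, if_neg (by omega), if_neg (by omega)]) (by norm_num) fun r hr => ?_
    obtain ⟨l, hl, rfl⟩ := List.mem_map.mp hr
    have : ∀ l ∈ List.range 31, invL
        53206320320083115796502214552783413060461247639578808291150702859268522240 l = l := by
      decide +kernel
    rw [this l hl, evL_cons, evL_singleton]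
    by_cases c : l < 30
    · rw [gt_lt c, T.gr.g_sq c]
    · obtain rfl : l = 30 := by
        have := List.mem_range.mp hl
        omega
      exact U.sq
  have hr : Rels (gt g t) P.R := fun r hr => by
    rcases R_cases r hr with c | ⟨l, hl, rfl⟩ | rfl | rfl
    · have c' := c
      simp only [okC, Bool.and_eq_true] at c'
      rw [gt_w c'.1, T.gr.hO c]
    · obtain ⟨-, k1, k2, -⟩ := hth l hl
      rw [evL_append, gt_w (w := (th l).reverse) (inR_iff.mpr fun x hx =>
        inR_spec k2 x (List.mem_reverse.mp hx)), T.gr.g_rev k2, ← K l hl, evL_cons, evL_cons,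
        evL_singleton, gt_30, gt_lt k1, ← mul_assoc, mul_inv_cancel]
    · rw [evL_rep, ← h3, evL_cons, evL_cons, evL_singleton, mul_assoc]
      rfl
    · rw [evL_rep, ← h14, evL_cons, evL_cons, evL_cons, evL_singleton, mul_assoc, mul_assoc]
      rfl
  obtain ⟨Φ, hΦ⟩ := P.lift hg hr
  have k : ∀ w, inR 30 w = true → Φ (evL P.ev w) = evL g w := fun w hw => by
    rw [map_evL, funext hΦ, gt_w hw]
  refine ⟨Φ, (hΦ 1).trans T.gr.g_one, fun c hc => ?_, ?_, ?_⟩
  · obtain ⟨w, hw, rfl⟩ := T.gr.exw (mem_cen.mp hc)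
    exact ⟨_, k w (inR_mono hw (by norm_num))⟩
  · rw [← evL_singleton P.ev, k _ rfl]
    exact T.nz0
  · rw [k _ rfl]
    exact T.nz2a

end Cfsg.Co2
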