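import Cfsg.Agent.Co2.G1
import Cfsg.Agent.Co2.G2z
import Cfsg.Agent.Co2.G2t
import Cfsg.Agent.Co2.G4
import Cfsg.Agent.Co2.G5

/-! The homomorphism from the model. -/

set_option autoImplicit false

namespace Cfsg.Co2

open Subgroup Cfsg.H6 Cfsg.Co.Rc
open Cfsg.Co3G (Sp)

variable {G : Type*} [Group G] [Finite G] {z s : G} {Q Q' : Subgroup G} {a a' : ℕ → G}
  {π : centralizer ({z} : Set G) →* Sp} {π' : centralizer ({s} : Set G) →* Sp}

theorem amal (S : Sit z s Q Q' a a' π π') : ∃ Φ : P.Grp →* G, Φ (P.ev 1) = z ∧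
    centralizer {z} ≤ Φ.range ∧ ¬ IsConj z (Φ (P.ev 24)) ∧ ¬ IsConj z (Φ (evL P.ev [17, 2])) := by
  obtain ⟨s, Q', a', π', Γ, g, T⟩ := exists_st S
  obtain ⟨t, U⟩ := T.exists_t' T.zp'
  have K := T.relK U T.zp'
  exact amal_of T U K (rel3 T U K) (rel14 T U K)

end Cfsg.Co2
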