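import Cfsg.Agent.Co2.R5
import Cfsg.Agent.Co2.IL

/-! The modules with a fixed vector do not occur: lemmas. -/

set_option autoImplicit false
set_option maxRecDepth 100000
set_option linter.unusedSectionVars false
set_option synthInstance.maxSize 4000

namespace Cfsg.Co2.N

open Subgroup Cfsg.H6 Cfsg.Co.Rc
open Cfsg.Co3G (Sp gen_Sp X7)

variable {G : Type*} [Group G] [Finite G] {z : G} {Q : Subgroup G} {m : Bool} {a : ℕ → G}

/-- The vectors are orthogonal. -/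
abbrev Pp (m : Bool) (u w : ℕ) : Prop := qf m (u ^^^ w) = xor (qf m u) (qf m w)

theorem comm_iff (E : ES z Q) (F : Fr z Q m a) {p q : G} (hp : p ∈ Q) (hq : q ∈ Q) :
    q * p = p * q ↔ Pp m (co a p) (co a q) := by
  rw [comm_co E F hp hq]
  split_ifs with h
  · exact iff_of_true rfl h
  · exact iff_of_false (E.ne _) h

/-- A normal cyclic subgroup of order four of the centraliser. -/
structure Nv (z : G) (Q : Subgroup G) (v : G) : Prop where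
  es : ES z Q
  mem : v ∈ Q
  sq : v * v = z
  nv : ∀ c, c * z = z * c → c * v * c⁻¹ = v ∨ c * v * c⁻¹ = z * v

variable {v g : G}

theorem cz {c : G} (h : c * (g * z * g⁻¹) = g * z * g⁻¹ * c) : g⁻¹ * c * g * z = z * (g⁻¹ * c * g) := by
  calc g⁻¹ * c * g * z = g⁻¹ * (c * (g * z * g⁻¹)) * g := by group
    _ = _ := by rw [h]; group

theorem ss (E : ES z Q) (g : G) : g * z * g⁻¹ * (g * z * g⁻¹) = 1 := by
  calc _ = g * (z * z) * g⁻¹ := by group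
    _ = 1 := by rw [E.zz]; group

theorem Nv.ny (H : Nv z Q v) {c : G} (h : c * (g * z * g⁻¹) = g * z * g⁻¹ * c) :
    c * (g * v * g⁻¹) * c⁻¹ = g * v * g⁻¹ ∨ c * (g * v * g⁻¹) * c⁻¹ = g * z * g⁻¹ * (g * v * g⁻¹) := by
  have e : c * (g * v * g⁻¹) * c⁻¹ = g * (g⁻¹ * c * g * v * (g⁻¹ * c * g)⁻¹) * g⁻¹ := by group
  rcases H.nv _ (cz h) with k | k <;> rw [e, k]
  · exact Or.inl rfl
  · exact Or.inr (by group)

theorem Nv.a1 (H : Nv z Q v) (h : v * (g * z * g⁻¹) = g * z * g⁻¹ * v) :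
    z * (g * v * g⁻¹) = g * v * g⁻¹ * z := by
  rw [← mul_inv_eq_iff_eq_mul]
  have e : z * (g * v * g⁻¹) * z⁻¹ = v * (v * (g * v * g⁻¹) * v⁻¹) * v⁻¹ := by
    rw [← H.sq]; group
  rw [e]
  rcases H.ny h with k | k
  · rw [k, k]
  · rw [k, ← mul_assoc v, h, mul_assoc _ v, mul_assoc, k, ← mul_assoc, ss H.es, one_mul]

theorem Nv.a1' (H : Nv z Q v) (h : z * (g * v * g⁻¹) = g * v * g⁻¹ * z) :
    v * (g * z * g⁻¹) = g * z * g⁻¹ * v := by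
  have := H.a1 (g := g⁻¹) (by
    calc v * (g⁻¹ * z * g⁻¹⁻¹) = g⁻¹ * (g * v * g⁻¹ * z) * g := by group
      _ = _ := by rw [← h]; group)
  calc v * (g * z * g⁻¹) = g * (g⁻¹ * v * g⁻¹⁻¹ * z) * g⁻¹ := by group
    _ = _ := by rw [← this]; group

theorem Nv.inv (H : Nv z Q v) (hs : g * z * g⁻¹ * z = z * (g * z * g⁻¹))
    (h : v * (g * z * g⁻¹) ≠ g * z * g⁻¹ * v) : v * (g * z * g⁻¹) * v⁻¹ = z * (g * z * g⁻¹) := by
  have e := (H.nv _ hs).resolve_left fun e => h (mul_inv_eq_iff_eq_mul.mp e).symm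
  generalize g * z * g⁻¹ = s at *
  rw [mul_inv_eq_iff_eq_mul] at e ⊢
  rw [mul_assoc, e, mul_assoc, H.es.zzm]

theorem Nv.b1 (H : Nv z Q v) (hs : g * z * g⁻¹ * z = z * (g * z * g⁻¹))
    (h : v * (g * z * g⁻¹) ≠ g * z * g⁻¹ * v) {b : G} (hb : b ∈ Q)
    (h1 : b * (g * z * g⁻¹) = g * z * g⁻¹ * b) (h2 : b * v = v * b) :
    g⁻¹ * b * g ∈ Q ∨ g⁻¹ * (z * b) * g ∈ Q := by
  have e1 := H.inv hs h
  have e2 := (H.ny hs.symm).resolve_left fun e => h (H.a1' (mul_inv_eq_iff_eq_mul.mp e))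
  have e3 := H.ny h1
  have e4 := ss H.es g
  have zv := H.es.qz v H.mem
  have yy : g * v * g⁻¹ * (g * z * g⁻¹) = g * z * g⁻¹ * (g * v * g⁻¹) := by
    calc _ = g * (v * z) * g⁻¹ := by group
      _ = _ := by rw [zv]; group
  have k : ∀ c ∈ Q, c * v = v * c → c * (g * v * g⁻¹) * c⁻¹ = g * v * g⁻¹ → g⁻¹ * c * g ∈ Q := by
    intro c hc c1 c2
    have e5 : g⁻¹ * (v * (g * v * g⁻¹)) * z = z * (g⁻¹ * (v * (g * v * g⁻¹))) := by
      have : z * (g⁻¹ * (v * (g * v * g⁻¹))) = g⁻¹ * (g * z * g⁻¹ * (v * (g * v * g⁻¹))) := by group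
      rw [this, mul_assoc]
      congr 1
      generalize g * z * g⁻¹ = s at *
      generalize g * v * g⁻¹ = y at *
      rw [mul_inv_eq_iff_eq_mul] at e1 e2
      calc v * y * z = v * (s * (s * y * z)) := by rw [← mul_assoc s, ← mul_assoc s, e4, one_mul, mul_assoc]
        _ = v * s * (z * y) := by rw [← e2, mul_assoc]
        _ = z * s * (v * z) * y := by rw [e1]; group
        _ = z * (s * z) * v * y := by rw [zv]; group
        _ = _ := by rw [hs, H.es.zzm, mul_assoc]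
    have := H.es.nrm _ e5 c hc
    rw [mul_inv_eq_iff_eq_mul] at c2
    rwa [show g⁻¹ * (v * (g * v * g⁻¹)) * c * (g⁻¹ * (v * (g * v * g⁻¹)))⁻¹ = g⁻¹ * c * g by
      calc _ = g⁻¹ * (v * (g * v * g⁻¹ * c)) * (g⁻¹ * (v * (g * v * g⁻¹)))⁻¹ := by group
        _ = g⁻¹ * ((v * c) * (g * v * g⁻¹)) * (g⁻¹ * (v * (g * v * g⁻¹)))⁻¹ := by rw [← c2]; group
        _ = _ := by rw [← c1]; group] at this
  rcases e3 with e3 | e3
  · exact Or.inl (k b hb h2 e3)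
  · refine Or.inr (k _ (Q.mul_mem H.es.zQ hb) (by rw [mul_assoc, h2, ← mul_assoc, ← zv, mul_assoc]) ?_)
    generalize g * z * g⁻¹ = s at *
    generalize g * v * g⁻¹ = y at *
    calc z * b * y * (z * b)⁻¹ = z * (b * y * b⁻¹) * z⁻¹ := by group
      _ = z * s * y * z⁻¹ := by rw [e3]; group
      _ = s * (z * y * z⁻¹) := by rw [← hs]; group
      _ = y := by rw [e2, ← mul_assoc, e4, one_mul]

theorem rcomm (E : ES z Q) (h : g * z * g⁻¹ ≠ z) {p q : G} (hp : p ∈ Q) (hq : q ∈ Q)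
    (hp' : g⁻¹ * p * g ∈ Q) (hq' : g⁻¹ * q * g ∈ Q) : q * p = p * q := by
  refine (E.comm p hp q hq).resolve_right fun e => ?_
  have e1 : g⁻¹ * q * g * (g⁻¹ * p * g) = g⁻¹ * z * g * (g⁻¹ * p * g * (g⁻¹ * q * g)) := by
    calc _ = g⁻¹ * (q * p) * g := by group
      _ = _ := by rw [e]; group
  rcases E.comm _ hp' _ hq' with k | k <;> rw [e1] at k
  · exact E.z1 (by simpa [mul_assoc] using k)
  · exact h (by nth_rewrite 1 [← mul_right_cancel k]; group)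

theorem rsq (E : ES z Q) (h : g * z * g⁻¹ ≠ z) {p : G} (hp : p ∈ Q) (hp' : g⁻¹ * p * g ∈ Q) :
    p * p = 1 := by
  refine (E.sq p hp).resolve_right fun e => ?_
  have e1 : g⁻¹ * p * g * (g⁻¹ * p * g) = g⁻¹ * z * g := by rw [← e]; group
  rcases E.sq _ hp' with k | k <;> rw [e1] at k
  · exact E.z1 (by simpa [mul_assoc] using congrArg (fun x => g * x * g⁻¹) k)
  · exact h (by nth_rewrite 1 [← k]; group)

/-- The commutator with an involution. -/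
theorem cn (E : ES z Q) (F : Fr z Q m a) {s q : G} (hs : s * z = z * s) (h2 : s * s = 1) (hq : q ∈ Q) :
    q * s * q⁻¹ * s ∈ Q ∧ co a (q * s * q⁻¹ * s) = co a q ^^^ rc z a s (co a q) ∧
      s * (q * s * q⁻¹ * s) * s⁻¹ = (q * s * q⁻¹ * s)⁻¹ := by
  have e : q * s * q⁻¹ * s = q * (s * q * s⁻¹)⁻¹ := by rw [inv_eq_of_mul_eq_one_right h2]; group; rw [zpow_neg_one s, inv_eq_of_mul_eq_one_right h2]
  have h1 := E.nrm s hs q hq
  refine ⟨e ▸ Q.mul_mem hq (Q.inv_mem h1), ?_, ?_⟩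
  · rw [e, co_mul E F hq (Q.inv_mem h1), co_inv E F h1, co_conj E F hs hq]
  · simp only [mul_inv_rev, inv_inv, inv_eq_of_mul_eq_one_right h2, mul_assoc, h2, mul_one]

theorem cn_comm {s n : G} (h : s * n * s⁻¹ = n⁻¹) (h2 : n * n = 1) : n * s = s * n := by
  rw [inv_eq_of_mul_eq_one_right h2, mul_inv_eq_iff_eq_mul] at h
  exact h.symm

theorem Nv.cenB (H : Nv z Q v) (hQ : g * z * g⁻¹ ∉ Q) (hy : z * (g * v * g⁻¹) = g * v * g⁻¹ * z)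
    {b : G} (hb : b ∈ Q) (h : b * (g * z * g⁻¹) = g * z * g⁻¹ * b) :
    b * (g * v * g⁻¹) = g * v * g⁻¹ * b := by
  refine mul_inv_eq_iff_eq_mul.mp ((H.ny h).resolve_right fun e => hQ ?_)
  rw [← mul_inv_eq_iff_eq_mul] at e
  rw [← e, mul_assoc, mul_assoc, ← mul_assoc _ b⁻¹]
  exact Q.mul_mem hb (H.es.nrm _ hy.symm _ (Q.inv_mem hb))

theorem a2i (E : ES z Q) {s y q : G} (hs : s * z = z * s) (h2 : s * s = 1) (hy : y * z = z * y)
    (yy : y * y = s) (hB : ∀ b ∈ Q, b * s = s * b → b * y = y * b) (hq : q ∈ Q)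
    (n1 : q * s * q⁻¹ * s ∈ Q) (n2 : s * (q * s * q⁻¹ * s) * s⁻¹ = (q * s * q⁻¹ * s)⁻¹)
    (n3 : q * s * q⁻¹ * s * (q * s * q⁻¹ * s) = z) : False := by
  have si : s⁻¹ = s := inv_eq_of_mul_eq_one_right h2
  have e : q * s * q⁻¹ * s = q * (s * q⁻¹ * s⁻¹) := by rw [si]; group
  generalize q * s * q⁻¹ * s = n at *
  have sy : s * y = y * s := by rw [← yy, mul_assoc]
  have m1 := E.nrm y hy n n1
  have m2 : s * (y * n * y⁻¹) * s⁻¹ = (y * n * y⁻¹)⁻¹ := by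
    calc _ = (s * y) * n * (s * y)⁻¹ := by group
      _ = y * (s * n * s⁻¹) * y⁻¹ := by rw [sy]; group
      _ = _ := by rw [n2]; group
  have m3 : y * (y * n * y⁻¹) * y⁻¹ = n⁻¹ := by rw [← n2, ← yy]; group
  generalize hn' : y * n * y⁻¹ = n' at *
  have x1 := E.nrm s hs _ (Q.inv_mem hq)
  have c : n * n' = n' * n := by
    have k : q * n' = n' * q ↔ s * q⁻¹ * s⁻¹ * n' = n' * (s * q⁻¹ * s⁻¹) := by
      have e1 : n' = s * n'⁻¹ * s⁻¹ := inv_injective (m2.symm.trans (by group))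
      constructor
      · intro h
        have : Commute q⁻¹ n'⁻¹ := (show Commute q n' from h).inv_inv
        rw [e1]
        calc _ = s * (q⁻¹ * n'⁻¹) * s⁻¹ := by group
          _ = _ := by rw [this.eq]; group
      · intro h
        rw [e1] at h
        have h' : q⁻¹ * n'⁻¹ = n'⁻¹ * q⁻¹ := by
          calc _ = s⁻¹ * (s * q⁻¹ * s⁻¹ * (s * n'⁻¹ * s⁻¹)) * s := by group
            _ = _ := by rw [h]; group
        simpa using (show Commute q⁻¹ n'⁻¹ from h').inv_inv.eq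
    rw [e]
    rcases E.comm n' m1 q hq with h | h
    · rw [mul_assoc, k.mp h, ← mul_assoc, h, mul_assoc]
    · exact E.anti (E.qz q hq) h ((E.comm n' m1 _ x1).resolve_left fun e =>
        E.ne _ (h.symm.trans (k.mpr e)))
  have ni : n⁻¹ = z * n := by rw [inv_eq_iff_mul_eq_one, ← mul_assoc, E.qz n n1, mul_assoc, n3, E.zz]
  have k1 : y * (n * n') * y⁻¹ = z * (n * n') := by
    calc _ = y * n * y⁻¹ * (y * n' * y⁻¹) := by group
      _ = n' * z * n := by rw [hn', m3, ni, mul_assoc]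
      _ = _ := by rw [E.qz n' m1, c, mul_assoc]
  have k2 : s * (n * n') * s⁻¹ = n * n' := by
    calc _ = y * (y * (n * n') * y⁻¹) * y⁻¹ := by rw [← yy]; group
      _ = y * z * (n * n') * y⁻¹ := by rw [k1]; group
      _ = z * (y * (n * n') * y⁻¹) := by rw [hy]; group
      _ = _ := by rw [k1, E.zzm]
  rw [← hB _ (Q.mul_mem n1 m1) (mul_inv_eq_iff_eq_mul.mp k2).symm, mul_inv_cancel_right] at k1
  exact E.ne _ k1.symm

theorem a2ii (E : ES z Q) (F : Fr z Q m a) {s y : G} (hs : s * z = z * s) (h2 : s * s = 1)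
    (hy : y * z = z * y) (yy : y * y = s) (hB : ∀ b ∈ Q, b * s = s * b → b * y = y * b) {f : ℕ → ℕ}
    (hf : ∀ u < 256, rc z a s u = f u) (f1 : ∀ u ∈ [0, 32, 64, 96], qf m (u ^^^ f u) = false)
    (f2 : ∀ n < 256, (∀ u ∈ [0, 32, 64, 96], Pp m n (u ^^^ f u)) → f n = n)
    (f3 : ∀ b ∈ [1, 2, 4, 8, 16, 128], f b = b)
    (f4 : ∀ n < 256, (∀ b ∈ [1, 2, 4, 8, 16, 128], Pp m n b) → ∃ u ∈ [0, 32, 64, 96], n = u ^^^ f u)
    (f5 : f 32 ≠ 32) : False := by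
  have l1 : ∀ u ∈ [0, 32, 64, 96], u < 256 := by decide
  have l2 : ∀ u ∈ [1, 2, 4, 8, 16, 128], u < 256 := by decide
  have k1 : ∀ u ∈ [0, 32, 64, 96], ∃ b ∈ Q, co a b = u ^^^ f u ∧ b * s = s * b := fun u hu => by
    obtain ⟨n1, n2, n3⟩ := cn E F hs h2 (ev_mem E F (bw u))
    rw [co_bw E F (l1 u hu), hf u (l1 u hu)] at n2
    exact ⟨_, n1, n2, cn_comm n3 (by rw [sq_co E F n1, n2, f1 u hu]; rfl)⟩
  have k2 : ∀ b ∈ Q, f (co a b) = co a b → s * b * s⁻¹ = b ∨ s * b * s⁻¹ = z * b := fun b hb e =>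
    eq_of_co E F (E.nrm s hs b hb) hb (by rw [co_conj E F hs hb, hf _ (co_lt _ _), e])
  have hq := ev_mem E F (bw 32)
  have cq : co a _ = 32 := co_bw E F (by norm_num)
  generalize evL (fa z a) (bw 32) = q at hq cq
  have n1 : q * (y * q⁻¹ * y⁻¹) ∈ Q := Q.mul_mem hq (E.nrm y hy _ (Q.inv_mem hq))
  have n2 : ∀ b ∈ Q, b * s = s * b → b * (q * (y * q⁻¹ * y⁻¹)) = q * (y * q⁻¹ * y⁻¹) * b := by
    intro b hb e
    have e1 := hB b hb e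
    rw [← mul_inv_eq_iff_eq_mul]
    have : b * (q * (y * q⁻¹ * y⁻¹)) * b⁻¹ = b * q * b⁻¹ * ((b * y * b⁻¹) * (b * q * b⁻¹)⁻¹ * (b * y * b⁻¹)⁻¹) := by
      group
    rw [this, e1, mul_inv_cancel_right]
    rcases E.comm q hq b hb with h | h <;> rw [h]
    · rw [mul_inv_cancel_right]
    · rw [← mul_assoc z, mul_inv_cancel_right, mul_inv_rev, E.zinv, ← E.qz q hq]
      calc q * z * (y * (q⁻¹ * z) * y⁻¹) = q * (z * y) * (q⁻¹ * z) * y⁻¹ := by group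
        _ = q * y * (z * (z * q⁻¹)) * y⁻¹ := by rw [← hy, E.qz _ (Q.inv_mem hq)]; group
        _ = _ := by rw [E.zzm]; group
  have e0 : y * q⁻¹ * y⁻¹ = q⁻¹ * (q * (y * q⁻¹ * y⁻¹)) := by group
  generalize q * (y * q⁻¹ * y⁻¹) = n at n1 n2 e0
  have n3 : n * s = s * n := by
    rcases k2 n n1 (f2 _ (co_lt _ _) fun u hu => by
      obtain ⟨b, hb, e1, e2⟩ := k1 u hu
      exact e1 ▸ (comm_iff E F n1 hb).mp (n2 b hb e2)) with h | h
    · exact (mul_inv_eq_iff_eq_mul.mp h).symm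
    obtain ⟨u, hu, e⟩ := f4 _ (co_lt a n) fun u hu => by
      have hb := ev_mem E F (bw u)
      have cb := co_bw E F (l2 u hu)
      generalize evL (fa z a) (bw u) = b at hb cb
      refine cb ▸ (comm_iff E F n1 hb).mp ?_
      rcases k2 b hb (by rw [cb, f3 u hu]) with h' | h'
      · exact n2 b hb (mul_inv_eq_iff_eq_mul.mp h').symm
      · have := n2 _ (Q.mul_mem n1 hb) (by
          symm
          rw [← mul_inv_eq_iff_eq_mul]
          calc s * (n * b) * s⁻¹ = s * n * s⁻¹ * (s * b * s⁻¹) := by group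
            _ = z * (n * z) * b := by rw [h, h']; group
            _ = _ := by rw [E.qz n n1, E.zzm])
        rw [mul_assoc] at this
        exact mul_left_cancel this
    obtain ⟨b, hb, e1, e2⟩ := k1 u hu
    rcases eq_of_co E F n1 hb (e.trans e1.symm) with rfl | rfl
    · exact e2
    · rw [mul_assoc, e2, ← mul_assoc, ← hs, mul_assoc]
  have e1 : s * q⁻¹ * s⁻¹ = q⁻¹ * (n * n) := by
    calc _ = y * (y * q⁻¹ * y⁻¹) * y⁻¹ := by rw [← yy]; group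
      _ = y * q⁻¹ * y⁻¹ * (y * n * y⁻¹) := by rw [e0]; nth_rewrite 2 [← e0]; group
      _ = _ := by rw [e0, ← hB n n1 n3]; group
  have e2 := congrArg (co a) e1
  rw [co_conj E F hs (Q.inv_mem hq), co_mul E F (Q.inv_mem hq) (Q.mul_mem n1 n1), co_mul E F n1 n1,
    co_inv E F hq, cq, hf _ (by norm_num), Nat.xor_self, Nat.xor_zero] at e2
  exact f5 e2

/-- Words moving the singular vectors orthogonal to the fixed vector to the first one. -/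
def TW : List (List ℕ) := [[], [5], [1, 5], [7, 5], [7, 1, 5], [3, 7, 5], [9, 7, 5], [3, 7, 1, 5], [5, 7, 1, 5], [9, 7, 1, 5], [9, 3, 7, 5], [11, 9, 7, 5], [5, 3, 7, 1, 5], [9, 3, 7, 1, 5], [9, 5, 7, 1, 5], [11, 9, 7, 1, 5], [7, 9, 3, 7, 5], [11, 9, 3, 7, 5], [13, 11, 9, 7, 5], [7, 5, 3, 7, 1, 5], [9, 5, 3, 7, 1, 5], [7, 9, 3, 7, 1, 5], [11, 9, 3, 7, 1, 5], [7, 9, 5, 7, 1, 5], [11, 9, 5, 7, 1, 5], [13, 11, 9, 7, 1, 5], [5, 7, 9, 3, 7, 5], [11, 7, 9, 3, 7, 5], [13, 11, 9, 3, 7, 5], [11, 9, 5, 3, 7, 1, 5], [11, 7, 9, 3, 7, 1, 5], [13, 11, 9, 3, 7, 1, 5], [11, 7, 9, 5, 7, 1, 5], [13, 11, 9, 5, 7, 1, 5], [11, 5, 7, 9, 3, 7, 5], [9, 11, 7, 9, 3, 7, 5], [13, 11, 7, 9, 3, 7, 5], [13, 11, 9, 5, 3, 7, 1, 5], [9, 11, 7, 9, 3, 7, 1, 5], [13, 11, 7, 9, 3, 7, 1, 5], [9, 11, 7, 9, 5, 7, 1, 5], [13, 11, 7, 9, 5, 7, 1, 5], [9, 11, 5, 7, 9, 3, 7, 5], [13, 11, 5, 7, 9, 3, 7,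 5], [13, 9, 11, 7, 9, 3, 7, 5], [13, 9, 11, 7, 9, 3, 7, 1, 5], [13, 9, 11, 7, 9, 5, 7, 1, 5], [7, 9, 11, 5, 7, 9, 3, 7, 5], [13, 9, 11, 5, 7, 9, 3, 7, 5], [11, 13, 9, 11, 7, 9, 3, 7, 5], [11, 13, 9, 11, 7, 9, 3, 7, 1, 5], [11, 13, 9, 11, 7, 9, 5, 7, 1, 5], [3, 7, 9, 11, 5, 7, 9, 3, 7, 5], [13, 7, 9, 11, 5, 7, 9, 3, 7, 5], [11, 13, 9, 11, 5, 7, 9, 3, 7, 5], [13, 3, 7, 9, 11, 5, 7, 9, 3, 7, 5], [11, 13, 7, 9, 11, 5, 7, 9, 3, 7, 5], [11, 13, 3, 7, 9, 11, 5, 7, 9, 3, 7, 5], [9, 11, 13, 7, 9, 11, 5, 7, 9, 3, 7, 5], [9, 11, 13, 3, 7, 9, 11, 5, 7, 9, 3, 7, 5], [7, 9, 11, 13, 3, 7, 9, 11, 5, 7, 9, 3, 7, 5], [5, 7, 9, 11, 13, 3, 7, 9, 11, 5, 7, 9, 3, 7, 5], [1, 5, 7, 9, 11, 13, 3, 7, 9, 11, 5, 7, 9, 3, 7, 5]]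

/-- The fixed vector. -/
def vv (μ : ℕ) : ℕ := cond (Nat.beq μ 1) 136 8

theorem hvv : ∀ μ ∈ [1, 2], vv μ < 256 ∧ qf (mt μ) (vv μ) = true ∧ ∀ l < 16, imM μ l (vv μ) = vv μ := by
  decide +kernel

theorem hTW : ∀ μ ∈ [1, 2], ∀ σ < 256, σ ≠ 0 → qf (mt μ) σ = false → Pp (mt μ) σ (vv μ) →
    ∃ w ∈ TW, inR 16 w = true ∧ trF (imM μ) w σ = 1 := by decide +kernel

theorem hSW : ∀ μ ∈ [1, 2], ∀ p < 256, qf (mt μ) p = false → Pp (mt μ) p 1 → p = 0 ∨ p = 1 ∨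
    ∃ w ∈ [[3, 7], [9, 11], [3, 7, 9, 11], [3, 7, 3, 9, 7]], inR 16 w = true ∧ trF (imM μ) w 1 = 1 ∧
      qf (mt μ) (p ^^^ trF (imM μ) w p) = true := by decide +kernel

theorem hpair : ∀ μ ∈ [1, 2], ∀ σ < 256, ∃ u < 256, (Pp (mt μ) u σ ∧ Pp (mt μ) u (vv μ)) ∧
    ∃ w < 256, (Pp (mt μ) w σ ∧ Pp (mt μ) w (vv μ)) ∧ ¬ Pp (mt μ) u w := by decide +kernel

theorem hsing : ∀ μ ∈ [1, 2], ∀ k < 5, k = 0 ∨ ∃ u ∈ [8, 32, 48, 128],
    u ^^^ trF (imM μ) (rep k) u ≠ 0 ∧ qf (mt μ) (u ^^^ trF (imM μ) (rep k) u) = false := by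
  decide +kernel

theorem hns : ∀ μ ∈ [1, 2], ∀ k < 5, k = 0 ∨ k = 2 ∨ qf (mt μ) (16 ^^^ trF (imM μ) (rep k) 16) = true := by
  decide +kernel

theorem h2 : ∀ μ ∈ [1, 2], (∀ u ∈ [0, 32, 64, 96], qf (mt μ) (u ^^^ trF (imM μ) (rep 2) u) = false) ∧
    (∀ n < 256, (∀ u ∈ [0, 32, 64, 96], Pp (mt μ) n (u ^^^ trF (imM μ) (rep 2) u)) →
      trF (imM μ) (rep 2) n = n) ∧ (∀ b ∈ [1, 2, 4, 8, 16, 128], trF (imM μ) (rep 2) b = b) ∧
    (∀ n < 256, (∀ b ∈ [1, 2, 4, 8, 16, 128], Pp (mt μ) n b) →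
      ∃ u ∈ [0, 32, 64, 96], n = u ^^^ trF (imM μ) (rep 2) u) ∧ trF (imM μ) (rep 2) 32 ≠ 32 := by
  decide +kernel

theorem h16 : ∀ m, ∀ x < 256, qf m x = qf m 16 →
    (∀ u ∈ [1, 2, 4, 8, 32, 64, 128], qf m (x ^^^ u) = qf m (16 ^^^ u)) → x = 16 := by decide +kernel

theorem exists_word (x : Sp) : ∃ w, inR 16 w = true ∧ evL Co3G.evM w = x := by
  have e : ∀ w ∈ X7, inR 16 w = true ∧ ∃ l ∈ w, w = [l] := by decide
  have hg : x ∈ gen Co3G.evM X7 := gen_Sp ▸ Subgroup.mem_top x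
  induction hg using Subgroup.closure_induction'' with
  | mem g hg =>
    obtain ⟨w, hw, rfl⟩ := hg
    exact ⟨w, (e w hw).1, rfl⟩
  | inv_mem g hg =>
    obtain ⟨w, hw, rfl⟩ := hg
    obtain ⟨h, l, -, rfl⟩ := e w hw
    exact ⟨_, h, by rw [evL_singleton, inv_eq_of_mul_eq_one_right (evM_sq l)]⟩
  | one => exact ⟨[], rfl, rfl⟩
  | mul g h _ _ a b =>
    obtain ⟨u, u1, rfl⟩ := a
    obtain ⟨w, w1, rfl⟩ := b
    exact ⟨u ++ w, by rw [inR, List.all_append, ← inR, ← inR, u1, w1]; rfl, evL_append _ _ _⟩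

variable {μ : ℕ} {π : centralizer ({z} : Set G) →* Sp}

theorem rc_inv (h : Ch μ z Q a π) {c : centralizer ({z} : Set G)} {w : List ℕ} (hw : inR 16 w = true)
    (e : π c = evL Co3G.evM w) {u : ℕ} (hu : u < 256) : rc z a (c⁻¹).1 u = trF (imM μ) w u := by
  rw [← evMM_inv h.lt hw ⟨u, hu⟩, ← h.act c w hw e, ← map_inv]
  rfl

theorem lift_w (h : Ch μ z Q a π) {w : List ℕ} (hw : inR 16 w = true) :
    ∃ c, c * z = z * c ∧ ∀ u < 256, rc z a c u = trF (imM μ) w u := by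
  obtain ⟨c, e⟩ := h.surj (evL Co3G.evM w)
  exact ⟨(c⁻¹).1, mem_cen.mp (c⁻¹).2, fun u hu => rc_inv h hw e hu⟩

theorem rc_vv (h : Ch μ z Q a π) (hμ : μ ∈ [1, 2]) {c : G} (hc : c * z = z * c) :
    rc z a c (vv μ) = vv μ := by
  obtain ⟨w, hw, e⟩ := exists_word (π (⟨c, mem_cen.mpr hc⟩⁻¹))
  have := rc_inv h hw e.symm (hvv μ hμ).1
  rw [inv_inv, trF_eq] at this
  refine this.trans ?_
  have hw' := inR_spec hw
  clear hw e this
  induction w with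
  | nil => rfl
  | cons l w ih =>
    obtain ⟨a1, a2⟩ := List.forall_mem_cons.mp hw'
    rw [tr_cons, (hvv μ hμ).2.2 l a1.2, ih a2]

theorem nv (h : Ch μ z Q a π) (hμ : μ ∈ [1, 2]) : ∃ v, Nv z Q v ∧ co a v = vv μ := by
  have e := co_bw h.es h.fr (hvv μ hμ).1
  have hv := ev_mem h.es h.fr (bw (vv μ))
  refine ⟨_, ⟨h.es, hv, by rw [sq_co h.es h.fr hv, e, (hvv μ hμ).2.1]; rfl, fun c hc => ?_⟩, e⟩
  exact eq_of_co h.es h.fr (h.es.nrm c hc _ hv) hv (by rw [co_conj h.es h.fr hc hv, e, rc_vv h hμ hc])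

theorem red (h : Ch μ z Q a π) {s : G} (hs : s * z = z * s) (h2 : s * s = 1) (hQ : s ∉ Q) :
    ∃ c, c * z = z * c ∧ ∃ k < 5, k ≠ 0 ∧ ∀ u < 256, rc z a (c * s * c⁻¹) u = trF (imM μ) (rep k) u := by
  let s0 : centralizer ({z} : Set G) := ⟨s, mem_cen.mpr hs⟩
  have e0 : s0 * s0 = 1 := Subtype.ext h2
  obtain ⟨i, -, -, -, l, y, e⟩ := inv_list (π s0) (by rw [← map_mul, e0, map_one])
  obtain ⟨c, rfl⟩ := h.surj y
  refine ⟨c, mem_cen.mp c.2, _, l, fun k0 => hQ ((h.ker s0).mp ?_), fun u hu => ?_⟩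
  · rw [k0] at e
    exact conj_eq_one_iff.mp e
  · rw [← map_inv, ← map_mul, ← map_mul] at e
    rw [← rc_inv h ((by decide : ∀ k < 5, inR 16 (rep k) = true) _ l) e hu, mul_inv_rev, mul_inv_rev,
      inv_inv, inv_eq_of_mul_eq_one_right e0, ← mul_assoc]
    rfl

end Cfsg.Co2.N
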