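import Cfsg.Agent.Co2.N1

/-! The modules with a fixed vector do not occur. -/

set_option autoImplicit false
set_option maxRecDepth 100000
set_option linter.unusedSectionVars false

namespace Cfsg.Co2

open Subgroup Cfsg.H6 Cfsg.Co.Rc
open Cfsg.Co3G (Sp)

variable {G : Type*} [Group G] [Finite G] {z : G} {Q : Subgroup G} {a : ℕ → G} {μ : ℕ}
  {π : centralizer ({z} : Set G) →* Sp} {v g : G}

namespace N

theorem cjz (c g z : G) : c * g * z * (c * g)⁻¹ = c * (g * z * g⁻¹) * c⁻¹ := by group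

theorem cj_comm {c s : G} (hc : c * z = z * c) (hs : s * z = z * s) :
    c * s * c⁻¹ * z = z * (c * s * c⁻¹) :=
  mem_cen.mp (mul_mem (mul_mem (mem_cen.mpr hc) (mem_cen.mpr hs)) (inv_mem (mem_cen.mpr hc)))

theorem cj_mem (E : ES z Q) {c s : G} (hc : c * z = z * c) (h : c * s * c⁻¹ ∈ Q) : s ∈ Q := by
  have := E.nrm c⁻¹ (mem_cen.mp (inv_mem (mem_cen.mpr hc))) _ h
  rwa [show c⁻¹ * (c * s * c⁻¹) * c⁻¹⁻¹ = s by group] at this

theorem Nv.cj (H : Nv z Q v) {c s : G} (hc : c * z = z * c) (hs : s * z = z * s) (h : v * s = s * v) :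
    v * (c * s * c⁻¹) = c * s * c⁻¹ * v := by
  have e : c * v * c⁻¹ * (c * s * c⁻¹) = c * s * c⁻¹ * (c * v * c⁻¹) := by
    calc _ = c * (v * s) * c⁻¹ := by group
      _ = _ := by rw [h]; group
  rcases H.nv c hc with k | k <;> rw [k] at e
  · exact e
  · rw [← mul_assoc (c * s * c⁻¹), cj_comm hc hs, mul_assoc z, mul_assoc z] at e
    exact mul_left_cancel e

theorem A2 (h : Ch μ z Q a π) (hμ : μ ∈ [1, 2]) (H : Nv z Q v)
    (hs : g * z * g⁻¹ * z = z * (g * z * g⁻¹)) (hQ : g * z * g⁻¹ ∉ Q)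
    (hc : v * (g * z * g⁻¹) = g * z * g⁻¹ * v) : False := by
  obtain ⟨c, c1, k, lk, k0, hf⟩ := red h hs (ss h.es g) hQ
  replace hc := H.cj c1 hs hc
  replace hs := cj_comm c1 hs
  replace hQ := fun e => hQ (cj_mem h.es c1 e)
  rw [← cjz] at hc hs hQ hf
  generalize c * g = g at hc hs hQ hf
  have hy := H.a1 hc
  have hB := fun b hb => H.cenB hQ hy (b := b) hb
  have yy : g * v * g⁻¹ * (g * v * g⁻¹) = g * z * g⁻¹ := by rw [← H.sq]; group
  rcases (hns μ hμ k lk).resolve_left k0 with rfl | e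
  · obtain ⟨f1, f2, f3, f4, f5⟩ := h2 μ hμ
    exact a2ii h.es h.fr hs (ss h.es g) hy.symm yy hB hf f1 f2 f3 f4 f5
  · have hq := ev_mem h.es h.fr (bw 16)
    obtain ⟨n1, n2, n3⟩ := cn h.es h.fr hs (ss h.es g) hq
    rw [co_bw h.es h.fr (by norm_num), hf _ (by norm_num)] at n2
    exact a2i h.es hs (ss h.es g) hy.symm yy hB hq n1 n3 (by rw [sq_co h.es h.fr n1, n2, e]; rfl)

theorem B0 (h : Ch μ z Q a π) (hμ : μ ∈ [1, 2]) (H : Nv z Q v) (hv : co a v = vv μ)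
    (hQ : g * z * g⁻¹ ∈ Q) (hn : g * z * g⁻¹ ≠ z) (hc : v * (g * z * g⁻¹) ≠ g * z * g⁻¹ * v) : False := by
  have E := h.es
  have F := h.fr
  have k : ∀ u < 256, Pp (mt μ) u (co a (g * z * g⁻¹)) ∧ Pp (mt μ) u (vv μ) →
      ∃ p ∈ Q, g⁻¹ * p * g ∈ Q ∧ co a p = u := fun u hu e => by
    have hb := ev_mem E F (bw u)
    have cb := co_bw E F hu
    generalize evL (fa z a) (bw u) = b at hb cb
    rcases H.b1 (E.qz _ hQ) hc hb ((comm_iff E F hb hQ).mpr (cb ▸ e.1)).symm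
      ((comm_iff E F hb H.mem).mpr (by rw [cb, hv]; exact e.2)).symm with e | e
    · exact ⟨b, hb, e, cb⟩
    · exact ⟨_, Q.mul_mem E.zQ hb, e, (co_zm E F hb).trans cb⟩
  obtain ⟨u, lu, e1, w, lw, e2, e3⟩ := hpair μ hμ _ (co_lt a (g * z * g⁻¹))
  obtain ⟨p, p1, p2, rfl⟩ := k u lu e1
  obtain ⟨q, q1, q2, rfl⟩ := k w lw e2
  exact e3 ((comm_iff E F p1 q1).mp (rcomm E hn p1 q1 p2 q2))

/-- The stabiliser of a vector. -/
def Kf {m : Bool} (E : ES z Q) (F : Fr z Q m a) (u : ℕ) (hu : u < 256) : Subgroup G where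
  carrier := {c | c * z = z * c ∧ rc z a c u = u}
  one_mem' := ⟨by simp, rc_Q E F Q.one_mem hu⟩
  mul_mem' := fun {c d} h k => ⟨by rw [mul_assoc, k.1, ← mul_assoc, h.1, mul_assoc],
    by rw [rc_mul E F h.1 k.1, k.2, h.2]⟩
  inv_mem' := fun {c} h => by
    have e := mem_cen.mp (inv_mem (mem_cen.mpr h.1))
    refine ⟨e, ?_⟩
    rw [← h.2, ← rc_mul E F e h.1, inv_mul_cancel, h.2, rc_Q E F Q.one_mem hu]

theorem A3 (h : Ch μ z Q a π) (hμ : μ ∈ [1, 2]) (H : Nv z Q v) (hv : co a v = vv μ)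
    (hQ : g * z * g⁻¹ ∈ Q) (hQ' : g⁻¹ * z * g ∈ Q) (hn : g * z * g⁻¹ ≠ z)
    (hc : v * (g * z * g⁻¹) = g * z * g⁻¹ * v) : False := by
  have E := h.es
  have F := h.fr
  have s1 : ∀ g : G, g * z * g⁻¹ ≠ 1 := fun g e => E.z1 (conj_eq_one_iff.mp e)
  obtain ⟨w, -, hw, e⟩ := hTW μ hμ _ (co_lt a (g * z * g⁻¹))
    (fun e => (eq_of_co_zero E F hQ e).elim (s1 g) hn)
    (by
      have := sq_co E F hQ
      rw [ss E g] at this
      by_contra k
      rw [if_pos (by simpa using k)] at this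
      exact E.z1 this.symm)
    (hv ▸ (comm_iff E F hQ H.mem).mp hc)
  obtain ⟨c, c1, hf⟩ := lift_w h hw
  rw [← hf _ (co_lt _ _), ← co_conj E F c1 hQ, ← cjz] at e
  replace hQ' : (c * g)⁻¹ * z * (c * g) ∈ Q := by
    rwa [show (c * g)⁻¹ * z * (c * g) = g⁻¹ * (c⁻¹ * (z * c)) * g by group, ← c1, inv_mul_cancel_left]
  replace hn : c * g * z * (c * g)⁻¹ ≠ z := fun k => hn (by
    rw [cjz, mul_inv_eq_iff_eq_mul, ← c1] at k
    exact mul_left_cancel k)
  replace hQ := E.nrm c c1 _ hQ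
  rw [← cjz] at hQ
  clear hf hc
  generalize c * g = g at e hQ hQ' hn
  clear c1 c hw w
  have hs := E.qz _ hQ
  have nS : ∀ {c p : G}, c * (g * z * g⁻¹) = g * z * g⁻¹ * c → g⁻¹ * p * g ∈ Q →
      g⁻¹ * (c * p * c⁻¹) * g ∈ Q := fun {c p} h1 h2 => by
    have := E.nrm _ (cz h1) _ h2
    rwa [show g⁻¹ * c * g * (g⁻¹ * p * g) * (g⁻¹ * c * g)⁻¹ = g⁻¹ * (c * p * c⁻¹) * g by group] at this
  have mS : ∀ {p q : G}, g⁻¹ * p * g ∈ Q → g⁻¹ * q * g ∈ Q → g⁻¹ * (p * q) * g ∈ Q := fun {p q} h1 h2 => by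
    have := Q.mul_mem h1 h2
    rwa [show g⁻¹ * p * g * (g⁻¹ * q * g) = g⁻¹ * (p * q) * g by group] at this
  have cS : ∀ {p : G}, g⁻¹ * p * g ∈ Q → p * (g * z * g⁻¹) = g * z * g⁻¹ * p := fun {p} h1 => by
    calc _ = g * (g⁻¹ * p * g * z) * g⁻¹ := by group
      _ = _ := by rw [E.qz _ h1]; group
  have sing : ∀ {p : G}, p ∈ Q → g⁻¹ * p * g ∈ Q → qf (mt μ) (co a p) = false := fun {p} h1 h2 => by
    have := sq_co E F h1
    rw [rsq E hn h1 h2] at this
    by_contra k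
    rw [if_pos (by simpa using k)] at this
    exact E.z1 this.symm
  have Rb : ∀ {p : G}, p ∈ Q → g⁻¹ * p * g ∈ Q → co a p = 0 ∨ co a p = 1 := fun {p} h1 h2 => by
    rcases hSW μ hμ _ (co_lt a p) (sing h1 h2) (e ▸ (comm_iff E F h1 hQ).mp (cS h2).symm) with
      k | k | ⟨w, -, hw, k1, k2⟩
    · exact Or.inl k
    · exact Or.inr k
    obtain ⟨c, c1, hf⟩ := lift_w h hw
    obtain ⟨d, d1, d2, d3⟩ : ∃ d, d * z = z * d ∧ d * (g * z * g⁻¹) = g * z * g⁻¹ * d ∧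
        co a (d * p * d⁻¹) = trF (imM μ) w (co a p) := by
      have k3 := E.nrm c c1 _ h1
      have k4 : co a (c * p * c⁻¹) = trF (imM μ) w (co a p) := by
        rw [co_conj E F c1 h1, hf _ (co_lt _ _)]
      rcases eq_of_co E F (E.nrm c c1 _ hQ) hQ
        (by rw [co_conj E F c1 hQ, e, hf _ (by norm_num), k1]) with k | k
      · exact ⟨c, c1, mul_inv_eq_iff_eq_mul.mp k, k4⟩
      · have q1 := F.mem 4 (by norm_num)
        have q2 : g * z * g⁻¹ * a 4 = z * (a 4 * (g * z * g⁻¹)) :=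
          (E.comm _ q1 _ hQ).resolve_left fun e' => by
            have := (comm_iff E F q1 hQ).mp e'
            rw [co_a E F (by norm_num), e] at this
            revert this
            cases mt μ <;> decide +kernel
        refine ⟨a 4 * c, by rw [mul_assoc, c1, ← mul_assoc, E.qz _ q1, mul_assoc], ?_, ?_⟩
        · rw [mul_inv_eq_iff_eq_mul] at k
          rw [mul_assoc (a 4), k, ← mul_assoc _ (a 4), q2, ← mul_assoc (a 4), ← mul_assoc (a 4), E.qz _ q1,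
            mul_assoc z]
        · rw [show a 4 * c * p * (a 4 * c)⁻¹ = a 4 * (c * p * c⁻¹) * (a 4)⁻¹ by group,
            co_conj E F (E.qz _ q1) k3, rc_Q E F q1 (co_lt _ _), k4]
    have := sing (Q.mul_mem h1 (E.nrm d d1 _ h1)) (mS h2 (nS d2 h2))
    rw [co_mul E F h1 (E.nrm d d1 _ h1), d3, k2] at this
    exact absurd this (by simp)
  let P : Subgroup G := (Q ⊓ centralizer {g⁻¹ * z * g}).map (MulAut.conj g).toMonoidHom
  have hP : ∀ p ∈ P, p * z = z * p ∧ g⁻¹ * p * g ∈ Q := by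
    rintro _ ⟨q, ⟨q1, q2⟩, rfl⟩
    have q3 := mem_cen.mp q2
    change g * q * g⁻¹ * z = z * (g * q * g⁻¹) ∧ g⁻¹ * (g * q * g⁻¹) * g ∈ Q
    refine ⟨?_, by simpa [mul_assoc] using q1⟩
    calc _ = g * (q * (g⁻¹ * z * g)) * g⁻¹ := by group
      _ = _ := by rw [q3]; group
  have cP : 256 ≤ Nat.card P := by
    have := E.card_le le_rfl hQ'
    rw [E.card] at this
    rw [card_map_of_injective (MulAut.conj g).injective]
    omega
  have r1 : ∀ p ∈ P, rc z a p 1 = 1 := fun p hp => by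
    rw [← e, ← co_conj E F (hP p hp).1 hQ, cS (hP p hp).2, mul_inv_cancel_right]
  have ru : ∀ u < 256, Pp (mt μ) u 1 → ∀ p ∈ P, rc z a p u = u ∨ rc z a p u = u ^^^ 1 := by
    intro u hu k p hp
    have hb := ev_mem E F (bw u)
    have cb := co_bw E F hu
    generalize evL (fa z a) (bw u) = b at hb cb
    have k1 : b * (g * z * g⁻¹) = g * z * g⁻¹ * b := ((comm_iff E F hb hQ).mpr (by rwa [cb, e])).symm
    have k2 := E.nrm p (hP p hp).1 _ hb
    have k3 := Rb (Q.mul_mem k2 (Q.inv_mem hb)) (by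
      rw [mul_assoc (p * b), mul_assoc p, ← mul_assoc b]
      exact mS (hP p hp).2 (nS k1 (hP _ (P.inv_mem hp)).2))
    rw [co_mul E F k2 (Q.inv_mem hb), co_inv E F hb, co_conj E F (hP p hp).1 hb, cb] at k3
    rcases k3 with k3 | k3
    · exact Or.inl (Nat.xor_eq_zero_iff.mp k3)
    · exact Or.inr (by rw [← k3, Nat.xor_comm (rc z a p u), Nat.xor_xor_cancel_left])
  have st : ∀ u (hu : u < 256), Pp (mt μ) u 1 → ∀ S ≤ P,
      Nat.card S ≤ 2 * Nat.card (S ⊓ Kf E F u hu : Subgroup G) := fun u hu k S hS =>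
    card_le_two fun s hs t ht n1 n2 => by
      have s1 := (hP s (hS hs)).1
      have t1 := (hP t (hS ht)).1
      have s2 := (ru u hu k s (hS hs)).resolve_left fun e => n1 ⟨s1, e⟩
      have t2 := (ru u hu k t (hS ht)).resolve_left fun e => n2 ⟨t1, e⟩
      exact ⟨by rw [mul_assoc, t1, ← mul_assoc, s1, mul_assoc], by
        rw [rc_mul E F s1 t1, t2, rc_xor E F s1 hu (by norm_num), s2, r1 s (hS hs),
          Nat.xor_xor_cancel_right]⟩
  have pp : ∀ m, ∀ u ∈ [2, 4, 32, 64, 128], Pp m u 1 := by decide +kernel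
  have t1 := st 2 (by norm_num) (pp _ _ (by decide)) P le_rfl
  have t2 := st 4 (by norm_num) (pp _ _ (by decide)) _ (inf_le_left (b := Kf E F 2 (by norm_num)))
  have t3 := st 32 (by norm_num) (pp _ _ (by decide)) _
    ((inf_le_left (b := Kf E F 4 (by norm_num))).trans (inf_le_left (b := Kf E F 2 (by norm_num))))
  have t4 := st 64 (by norm_num) (pp _ _ (by decide)) _ ((inf_le_left (b := Kf E F 32 (by norm_num))).trans
    ((inf_le_left (b := Kf E F 4 (by norm_num))).trans (inf_le_left (b := Kf E F 2 (by norm_num)))))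
  have t5 := st 128 (by norm_num) (pp _ _ (by decide)) _ ((inf_le_left (b := Kf E F 64 (by norm_num))).trans
    ((inf_le_left (b := Kf E F 32 (by norm_num))).trans
    ((inf_le_left (b := Kf E F 4 (by norm_num))).trans (inf_le_left (b := Kf E F 2 (by norm_num))))))
  have t6 : ((P ⊓ Kf E F 2 (by norm_num) ⊓ Kf E F 4 (by norm_num) ⊓ Kf E F 32 (by norm_num) ⊓
      Kf E F 64 (by norm_num) ⊓ Kf E F 128 (by norm_num) : Subgroup G) : Set G) ⊆
      {1, z, g * z * g⁻¹, z * (g * z * g⁻¹)} := by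
    rintro p ⟨⟨⟨⟨⟨hp, -, f2⟩, -, f4⟩, -, f32⟩, -, f64⟩, -, f128⟩
    have p1 := (hP p hp).1
    have f1 := r1 p hp
    have f8 : rc z a p 8 = 8 := by
      have := rc_vv h hμ p1
      simp only [List.mem_cons, List.not_mem_nil, or_false] at hμ
      rcases hμ with rfl | rfl
      · rw [show 8 = vv 1 ^^^ 128 from rfl, rc_xor E F p1 (by decide) (by norm_num), this, f128]
      · exact this
    have f16 : rc z a p 16 = 16 := h16 (mt μ) _ (co_lt _ _) (rc_qf E F p1 (by norm_num)) fun u hu => by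
      have l : u < 256 := by revert u; decide
      have : rc z a p u = u := by
        simp only [List.mem_cons, List.not_mem_nil, or_false] at hu
        rcases hu with rfl | rfl | rfl | rfl | rfl | rfl | rfl <;> assumption
      rw [← rc_qf E F p1 (v := 16 ^^^ u) (xor_lt (by norm_num) l), rc_xor E F p1 (by norm_num) l, this]
    have pQ : p ∈ Q := mem_of_triv E F p1 fun j hj => by
      rw [co_conj E F p1 (F.mem j hj), co_a E F hj]
      interval_cases j <;> assumption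
    rcases Rb pQ (hP p hp).2 with k | k
    · rcases eq_of_co_zero E F pQ k with k | k <;> simp [k]
    · rcases eq_of_co E F pQ hQ (k.trans e.symm) with k | k <;> simp [k]
  have t7 := Set.ncard_le_ncard t6 (Set.toFinite _)
  have t8 : ({1, z, g * z * g⁻¹, z * (g * z * g⁻¹)} : Set G).ncard ≤ 4 :=
    (Set.ncard_insert_le _ _).trans (Nat.succ_le_succ ((Set.ncard_insert_le _ _).trans
      (Nat.succ_le_succ ((Set.ncard_insert_le _ _).trans (by simp)))))
  have t9 : ∀ S : Subgroup G, Nat.card S = (S : Set G).ncard := fun _ => rfl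
  rw [← t9] at t7
  omega

theorem wc (h : Ch μ z Q a π) (hμ : μ ∈ [1, 2]) (H : Nv z Q v) (hv : co a v = vv μ) (g : G)
    (hQ : g * z * g⁻¹ ∈ Q) : g * z * g⁻¹ = z := by
  by_contra hn
  by_cases hc : v * (g * z * g⁻¹) = g * z * g⁻¹ * v
  · by_cases hQ' : g⁻¹ * z * g ∈ Q
    · exact A3 h hμ H hv hQ hQ' hn hc
    · have e1 := h.es.qz _ hQ
      have e2 := H.a1 hc
      refine A2 (g := g⁻¹) h hμ H ?_ (by rwa [inv_inv]) ?_
      · calc _ = g⁻¹ * (z * (g * z * g⁻¹)) * g := by group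
          _ = _ := by rw [← e1]; group
      · calc _ = g⁻¹ * (g * v * g⁻¹ * z) * g := by group
          _ = _ := by rw [← e2]; group
  · exact B0 h hμ H hv hQ hn hc

theorem B2 (h : Ch μ z Q a π) (hμ : μ ∈ [1, 2]) (H : Nv z Q v) (hv : co a v = vv μ)
    (hs : g * z * g⁻¹ * z = z * (g * z * g⁻¹)) (hQ : g * z * g⁻¹ ∉ Q)
    (hc : v * (g * z * g⁻¹) ≠ g * z * g⁻¹ * v) : False := by
  have E := h.es
  have F := h.fr
  obtain ⟨c, c1, k, lk, k0, hf⟩ := red h hs (ss E g) hQ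
  replace hs := cj_comm c1 hs
  replace hc : v * (c * (g * z * g⁻¹) * c⁻¹) ≠ c * (g * z * g⁻¹) * c⁻¹ * v := fun e => hc (by
    have := H.cj (mem_cen.mp (inv_mem (mem_cen.mpr c1))) hs e
    rwa [show c⁻¹ * (c * (g * z * g⁻¹) * c⁻¹) * c⁻¹⁻¹ = g * z * g⁻¹ by group] at this)
  rw [← cjz] at hc hs hf
  clear hQ
  generalize c * g = g at hc hs hf
  obtain ⟨u, hu, e1, e2⟩ := (hsing μ hμ k lk).resolve_left k0
  have lu : u < 256 := by clear e1 e2; revert u; decide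
  have hq := ev_mem E F (bw u)
  obtain ⟨n1, n2, n3⟩ := cn E F hs (ss E g) hq
  rw [co_bw E F lu, hf _ lu] at n2
  generalize evL (fa z a) (bw u) = q at hq n1 n2 n3
  have n4 := cn_comm n3 (by rw [sq_co E F n1, n2, e2]; rfl)
  have e3 := H.inv hs hc
  have e4 := ss E g
  have n5 : v * (q * (g * z * g⁻¹) * q⁻¹) * v⁻¹ = z * (q * (g * z * g⁻¹) * q⁻¹) := by
    have : v * (q * (g * z * g⁻¹) * q⁻¹) * v⁻¹ =
        v * q * v⁻¹ * (v * (g * z * g⁻¹) * v⁻¹) * (v * q * v⁻¹)⁻¹ := by group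
    rw [this, e3]
    generalize g * z * g⁻¹ = s at hs
    rcases E.comm q hq v H.mem with k | k <;> rw [k]
    · rw [mul_inv_cancel_right, ← mul_assoc q, E.qz q hq]; group
    · rw [← mul_assoc z, mul_inv_cancel_right, mul_inv_rev, E.zinv]
      calc z * q * (z * s) * (q⁻¹ * z) = z * (q * z) * s * (q⁻¹ * z) := by group
        _ = z * (z * (q * (s * z) * q⁻¹)) := by rw [E.qz q hq, E.qz _ (Q.inv_mem hq)]; group
        _ = _ := by rw [hs, E.zzm, ← mul_assoc q, E.qz q hq]; group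
  have n6 : q * (g * z * g⁻¹) * q⁻¹ * (g * z * g⁻¹) * v = v * (q * (g * z * g⁻¹) * q⁻¹ * (g * z * g⁻¹)) := by
    symm
    rw [← mul_inv_eq_iff_eq_mul]
    calc _ = v * (q * (g * z * g⁻¹) * q⁻¹) * v⁻¹ * (v * (g * z * g⁻¹) * v⁻¹) := by group
      _ = z * (q * (g * z * g⁻¹) * q⁻¹ * z) * (g * z * g⁻¹) := by rw [n5, e3]; group
      _ = _ := by rw [cj_comm (E.qz q hq) hs, E.zzm]
  have fin : ∀ r x : G, r * (g * z * g⁻¹) = x * (g * z * g⁻¹) * x⁻¹ → g⁻¹ * r * g ∈ Q → r = 1 := by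
    intro r x k1 k2
    have k3 : g⁻¹ * x * g * z * (g⁻¹ * x * g)⁻¹ = g⁻¹ * r * g * z := by
      calc _ = g⁻¹ * (x * (g * z * g⁻¹) * x⁻¹) * g := by group
        _ = _ := by rw [← k1]; group
    have := wc h hμ H hv (g⁻¹ * x * g) (k3 ▸ Q.mul_mem k2 E.zQ)
    rw [k3, mul_eq_right] at this
    simpa [mul_assoc] using congrArg (fun y => g * y * g⁻¹) this
  rcases H.b1 hs hc n1 n4 n6 with k | k
  · rw [fin _ q (by rw [mul_assoc _ (g * z * g⁻¹), e4, mul_one]) k, co_one] at n2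
    exact e1 n2.symm
  · rw [← co_zm E F n1, fin _ (v * q) (by
      rw [mul_assoc z, mul_assoc _ (g * z * g⁻¹), e4, mul_one, ← n5]; group) k, co_one] at n2
    exact e1 n2.symm

end N

theorem not_nat (h : Ch μ z Q a π) (hμ : μ ≠ 0) {g : G}
    (hs : g * z * g⁻¹ * z = z * (g * z * g⁻¹)) : g * z * g⁻¹ = z := by
  have hμ' : μ ∈ [1, 2] := by
    have := h.lt
    simp only [List.mem_cons, List.not_mem_nil, or_false]
    omega
  obtain ⟨v, H, hv⟩ := N.nv h hμ'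
  by_cases hQ : g * z * g⁻¹ ∈ Q
  · exact N.wc h hμ' H hv g hQ
  · by_cases hc : v * (g * z * g⁻¹) = g * z * g⁻¹ * v
    · exact (N.A2 h hμ' H hs hQ hc).elim
    · exact (N.B2 h hμ' H hv hs hQ hc).elim

end Cfsg.Co2
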