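import Cfsg.Agent.Co2.D0

/-! Eight-dimensional quadratic modules of the symplectic group: letters and coordinates. -/

set_option autoImplicit false
set_option maxRecDepth 100000
set_option linter.unusedSectionVars false

namespace Cfsg.Co2.R

open Cfsg.H6 Cfsg.Co.Rc Matrix Finset
open Cfsg.Co3G (Sp evM I6 dec pos mkSp mu mu_inj pos_lt bS matS)

def rowsA : List (List ℕ) := [[], [1, 2, 4, 9, 16, 32], [9, 2, 4, 8, 16, 32], [1, 2, 4, 8, 18, 32], [1, 18, 4, 8, 16, 32], [1, 2, 4, 8, 16, 36], [1, 2, 36, 8, 16, 32], [1, 2, 4, 11, 19, 32], [1, 2, 4, 8, 22, 38], [4, 1, 2, 32, 8, 16], [9, 2, 4, 1, 16, 32], [1, 18, 4, 8, 2, 32], [1, 2, 36, 8, 16, 4], [1, 2, 4, 9, 18, 36], [2, 4, 1, 16, 32, 8], [3, 2, 4, 10, 27, 32], [1, 19, 4, 25, 16, 32], [1, 2, 4, 8, 16, 32]]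

noncomputable def rwA (x : ℕ) : ℕ → ℕ := nthN (nthW rowsA x)

noncomputable def matA (x : ℕ) : Matrix I6 I6 (ZMod 2) := Matrix.of fun i => dec (rwA x (pos i))

theorem hA : ∀ x < 18, 1 ≤ x → matEq (matA x * Matrix.J (Fin 3) (ZMod 2) * (matA x)ᵀ)
    (Matrix.J (Fin 3) (ZMod 2)) = true := by decide +kernel

/-- The letters: `x1 f1 x2 f2 x3 f3 y12 y23 p d1 d2 d3 X p⁻¹ h t 1`. -/
noncomputable def ga (x : ℕ) : Sp :=
  if h : 1 ≤ x ∧ x < 18 then mkSp _ (eq_of_matEq (hA x h.2 h.1)) else 1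

noncomputable def imA (x p : ℕ) : ℕ := xv (rwA x) p 6

theorem hμA : ∀ x, 1 ≤ x → x < 18 → mu (ga x) = matA x := by
  intro x h1 h2
  unfold ga
  rw [dif_pos ⟨h1, h2⟩]
  rfl

theorem hrowA : ∀ x < 18, 1 ≤ x → ∀ k < 6, dec (rwA x k) = dec (2 ^ k) ᵥ* matA x := by
  decide +kernel

theorem hactA : MAct matA dec imA 18 :=
  mact_xv (fun a b => funext fun i => by
      simp only [dec, Nat.testBit_xor, Pi.add_apply]
      cases a.testBit (pos i) <;> cases b.testBit (pos i) <;> rfl)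
    (fun p => funext fun i => by
      simp only [dec, Nat.testBit_mod_two_pow, pos_lt i, decide_true, Bool.true_and])
    fun x h1 h2 => hrowA x h2 h1

/-- Two words are equal. -/
noncomputable def chk (u w : List ℕ) : Bool :=
  inR 18 u && inR 18 w && bS.all fun b => Nat.beq (trF imA u b) (trF imA w b)

theorem og {u w : List ℕ} (h : chk u w = true) : evL ga u = evL ga w := by
  simp only [chk, Bool.and_eq_true, List.all_eq_true, Nat.beq_eq] at h
  apply mu_inj
  ext i j
  have he : ∀ i, dec (2 ^ pos i) = Pi.single i 1 := by decide +kernel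
  have hb : ∀ i, 2 ^ pos i ∈ bS := by decide +kernel
  rw [hactA.row hμA h.1.1 he, hactA.row hμA h.1.2 he, h.2 _ (hb i)]

/-- The original letters as words. -/
def UL : List (List ℕ) := [[], [1], [1], [3], [3], [2], [2], [3, 4, 7, 4, 3], [3, 4, 7, 4, 3], [8], [8], [6], [6], [5], [5], []]

theorem evM_eq {l : ℕ} (h1 : 1 ≤ l) (h2 : l < 16) : evM l = evL ga (UL.getD l []) := by
  have k : ∀ l < 16, 1 ≤ l → ∃ x < 18, 1 ≤ x ∧ matEq (matS l) (matA x) = true ∧
      chk [x] (UL.getD l []) = true := by decide +kernel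
  obtain ⟨x, a, b, c, d⟩ := k l h2 h1
  rw [← og d, evL_singleton]
  exact mu_inj (by rw [Co3G.hμ l h1 h2, hμA x b a, eq_of_matEq c])

variable {V : Type*} [AddCommGroup V] [Module (ZMod 2) V] [DistribMulAction Sp V]

omit [DistribMulAction Sp V] in
theorem vadd (v : V) : v + v = 0 := by
  rw [← two_smul (ZMod 2) v, show (2 : ZMod 2) = 0 from rfl, zero_smul]

omit [DistribMulAction Sp V] in
theorem vadd' (u v : V) : u + (u + v) = v := by rw [← add_assoc, vadd, zero_add]

omit [DistribMulAction Sp V] in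
theorem veq {u v : V} : u + v = 0 ↔ u = v :=
  ⟨fun h => by rw [← vadd' v u, add_comm v u, h, add_zero], fun h => h ▸ vadd u⟩

theorem z2 : ∀ z : ZMod 2, z = 0 ∨ z = 1 := by decide

theorem sm_comm (g : Sp) (z : ZMod 2) (v : V) : g • z • v = z • g • v := by
  rcases z2 z with rfl | rfl <;> simp

omit [Module (ZMod 2) V] in
theorem ev_smul (w : List ℕ) (v : V) : evL ga w • v = w.foldr (fun l x => ga l • x) v := by
  induction w with
  | nil => exact one_smul _ _
  | cons l w ih => rw [evL_cons, mul_smul, ih]; rfl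

omit [Module (ZMod 2) V] in
theorem ow (u w : List ℕ) (h : chk u w = true) (v : V) :
    u.foldr (fun l x => ga l • x) v = w.foldr (fun l x => ga l • x) v := by
  rw [← ev_smul, ← ev_smul, og h]

/-- The vector with given coordinates. -/
def vec (b : ℕ → V) (c : ℕ) : V := ∑ k ∈ range 8, if c.testBit k then b k else 0

omit [DistribMulAction Sp V] in
theorem vec_xor (b : ℕ → V) (a c : ℕ) : vec b (a ^^^ c) = vec b a + vec b c := by
  rw [vec, vec, vec, ← sum_add_distrib]
  refine sum_congr rfl fun k _ => ?_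
  rw [Nat.testBit_xor]
  cases a.testBit k <;> cases c.testBit k <;> simp [vadd]

omit [Module (ZMod 2) V] [DistribMulAction Sp V] in
theorem vec_zero (b : ℕ → V) : vec b 0 = 0 := by simp [vec]

omit [Module (ZMod 2) V] [DistribMulAction Sp V] in
theorem vec_pow (b : ℕ → V) {k : ℕ} (hk : k < 8) : vec b (2 ^ k) = b k := by
  rw [vec, sum_eq_single k (fun j _ h => by simp [Nat.testBit_two_pow, h.symm])
    (fun h => absurd (mem_range.mpr hk) h)]
  simp

omit [Module (ZMod 2) V] [DistribMulAction Sp V] in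
theorem vec_mod (b : ℕ → V) (c : ℕ) : vec b (c % 256) = vec b c :=
  sum_congr rfl fun k hk => by
    rw [show 256 = 2 ^ 8 from rfl, Nat.testBit_mod_two_pow]; simp [mem_range.mp hk]

omit [Module (ZMod 2) V] [DistribMulAction Sp V] in
theorem map_vec {W : Type*} [AddCommGroup W] {f : V → W} (h : ∀ u v, f (u + v) = f u + f v)
    (b : ℕ → V) (c : ℕ) : f (vec b c) = ∑ k ∈ range 8, if c.testBit k then f (b k) else 0 := by
  have e := map_sum (AddMonoidHom.mk' f h) (fun k => if c.testBit k then b k else 0) (range 8)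
  refine e.trans (sum_congr rfl fun k _ => ?_)
  split_ifs
  · rfl
  · exact map_zero _

/-- The element acts on coordinates as the function. -/
def Act (b : ℕ → V) (g : Sp) (f : ℕ → ℕ) : Prop := ∀ c, g • vec b c = vec b (f c)

theorem act_of_basis {b : ℕ → V} {g : Sp} {rw : ℕ → ℕ} (h : ∀ k < 8, g • b k = vec b (rw k)) :
    Act b g fun c => xv rw c 8 := fun c => by
  rw [additive_xv (vec_xor b), map_vec (f := fun v => g • v) (smul_add g)]
  exact sum_congr rfl fun k hk => by rw [h k (mem_range.mp hk)]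

/-- A word applied to coordinates. -/
noncomputable def apw (im : ℕ → ℕ → ℕ) (w : List ℕ) (c : ℕ) : ℕ :=
  @List.rec ℕ (fun _ => ℕ) c (fun l _ ih => frc (im l) ih) w

omit [Module (ZMod 2) V] in
theorem act_w {b : ℕ → V} {im : ℕ → ℕ → ℕ} {ls : List ℕ} (h : ∀ l ∈ ls, Act b (ga l) (im l))
    {w : List ℕ} (hw : w.all ls.contains = true) : Act b (evL ga w) (apw im w) := fun c => by
  induction w with
  | nil => exact one_smul _ _
  | cons l w ih =>
    simp only [List.all_cons, Bool.and_eq_true, List.contains_iff_mem] at hw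
    rw [evL_cons, mul_smul, ih hw.2, h l hw.1]
    exact congrArg _ (frc_eq _ _).symm

/-- The coordinates are unique. -/
def Inj (b : ℕ → V) : Prop := ∀ c < 256, vec b c = 0 → c = 0

omit [DistribMulAction Sp V] in
theorem Inj.eq {b : ℕ → V} (h : Inj b) {a c : ℕ} (e : vec b a = vec b c) : a % 256 = c % 256 :=
  Nat.xor_eq_zero_iff.mp (h _ (xor_lt (Nat.mod_lt _ (by norm_num)) (Nat.mod_lt _ (by norm_num)))
    (by rw [vec_xor, vec_mod, vec_mod, e, vadd]))

omit [DistribMulAction Sp V] in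
theorem Inj.surj {b : ℕ → V} (h : Inj b) (hc : Nat.card V = 256) (v : V) : ∃ c < 256, vec b c = v := by
  have : Finite V := Nat.finite_of_card_ne_zero (by omega)
  obtain ⟨c, e⟩ := ((Nat.bijective_iff_injective_and_card fun c : Fin 256 => vec b c).mpr
    ⟨fun a c e => Fin.ext (by
      have := h.eq e
      rwa [Nat.mod_eq_of_lt a.2, Nat.mod_eq_of_lt c.2] at this), by simp [hc]⟩).2 v
  exact ⟨c, c.2, e⟩

/-- The word fixes the vector. -/
noncomputable def fx (im : ℕ → ℕ → ℕ) (w : List ℕ) (c : ℕ) : Bool := Nat.beq (Nat.mod (apw im w c) 256) c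

/-- The relations hold in coordinates. -/
noncomputable def relOK (im : ℕ → ℕ → ℕ) (R : List (List ℕ)) : Bool :=
  R.all fun r => [1, 2, 4, 8, 16, 32, 64, 128].all (fx im r)

theorem fx_of {b : ℕ → V} {im : ℕ → ℕ → ℕ} {ls : List ℕ} (hi : Inj b)
    (h : ∀ l ∈ ls, Act b (ga l) (im l)) {w : List ℕ} (hw : w.all ls.contains = true) {c : ℕ}
    (hc : c < 256) (e : evL ga w • vec b c = vec b c) : fx im w c = true := by
  rw [act_w h hw] at e
  have := hi.eq e
  rw [Nat.mod_eq_of_lt hc] at this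
  exact Nat.beq_eq ▸ this

theorem rels_ok {b : ℕ → V} {im : ℕ → ℕ → ℕ} {ls : List ℕ} (hi : Inj b)
    (h : ∀ l ∈ ls, Act b (ga l) (im l)) {R : List (List ℕ)}
    (hR : (R.all fun r => r.all ls.contains && chk r []) = true) : relOK im R = true := by
  simp only [List.all_eq_true, Bool.and_eq_true] at hR
  simp only [relOK, List.all_eq_true]
  intro r hr c hc
  refine fx_of hi h (List.all_eq_true.mpr (hR r hr).1) (by revert c; decide) ?_
  rw [og (hR r hr).2]
  exact one_smul _ _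

/-- The polar form. -/
def Bf (q : V → ZMod 2) (u v : V) : ZMod 2 := q (u + v) + q u + q v

/-- A faithful nondegenerate quadratic module with 256 vectors. -/
structure Md (q : V → ZMod 2) : Prop where
  card : Nat.card V = 256
  add : ∀ u v w, Bf q (u + v) w = Bf q u w + Bf q v w
  q0 : q 0 = 0
  inv : ∀ (g : Sp) v, q (g • v) = q v
  nd : ∀ u, (∀ v, Bf q u v = 0) → u = 0
  fa : ∃ v : V, ga 10 • v ≠ v

variable {q : V → ZMod 2}

omit [Module (ZMod 2) V] [DistribMulAction Sp V] in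
theorem Bf_comm (u v : V) : Bf q u v = Bf q v u := by rw [Bf, Bf, add_comm u v]; ring

theorem Md.add' (H : Md q) (u v w : V) : Bf q u (v + w) = Bf q u v + Bf q u w := by
  rw [Bf_comm, H.add, Bf_comm v, Bf_comm w]

theorem Md.self (H : Md q) (u : V) : Bf q u u = 0 := by
  rw [Bf, vadd, H.q0, zero_add, CharTwo.add_self_eq_zero]

theorem Md.zero (H : Md q) (u : V) : Bf q u 0 = 0 := by
  rw [Bf, add_zero, H.q0, add_zero, CharTwo.add_self_eq_zero]

theorem Md.Binv (H : Md q) (g : Sp) (u v : V) : Bf q (g • u) (g • v) = Bf q u v := by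
  rw [Bf, Bf, ← smul_add, H.inv, H.inv, H.inv]

theorem Md.qadd (_ : Md q) (u v : V) : q (u + v) = q u + q v + Bf q u v := by
  rw [Bf]
  generalize q (u + v) = a, q u = b, q v = c
  revert a b c
  decide

/-- The standard alternating form. -/
noncomputable def B0 (a c : ℕ) : ℕ := Nat.land (xv (fun k => Nat.shiftRight c (Nat.xor k 1)) a 8) 1

/-- The Gram matrix is standard. -/
def Gr (q : V → ZMod 2) (b : ℕ → V) : Prop :=
  ∀ i < 8, ∀ j < 8, Bf q (b i) (b j) = if j = i ^^^ 1 then 1 else 0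

theorem cast_xor (a c : ℕ) : ((a ^^^ c : ℕ) : ZMod 2) = a + c := by
  rw [← ZMod.natCast_mod (a ^^^ c), Nat.xor_mod_two_eq, ZMod.natCast_mod, Nat.cast_add]

theorem Md.B_vec (H : Md q) {b : ℕ → V} (h : Gr q b) (a c : ℕ) :
    Bf q (vec b a) (vec b c) = B0 a c := by
  have e : (B0 a c : ZMod 2) = (xv (fun k => Nat.shiftRight c (Nat.xor k 1)) a 8 : ℕ) := by
    rw [B0, ← ZMod.natCast_mod (xv _ _ _)]
    exact congrArg _ (Nat.and_one_is_mod _)
  rw [e, additive_xv (f := fun n => (n : ZMod 2)) cast_xor,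
    map_vec (f := fun u => Bf q u (vec b c)) fun u v => H.add u v _]
  refine sum_congr rfl fun k hk => ?_
  have hk' := mem_range.mp hk
  have h1 : k ^^^ 1 < 8 := Nat.xor_lt_two_pow (n := 3) hk' (by norm_num)
  split_ifs
  · rw [map_vec (H.add' _), sum_eq_single (k ^^^ 1) (fun j hj e => by
      rw [h k hk' j (mem_range.mp hj), if_neg e, ite_self]) (fun h => absurd (mem_range.mpr h1) h),
      h k hk' _ h1, if_pos rfl, ← ZMod.natCast_mod]
    have := land_one_testBit c (k ^^^ 1)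
    rw [show Nat.land (Nat.shiftRight c (k ^^^ 1)) 1 = Nat.shiftRight c (Nat.xor k 1) % 2 from
      Nat.and_one_is_mod _] at this
    rw [this]
    split_ifs <;> simp
  · rfl

theorem Md.inj (H : Md q) {b : ℕ → V} (h : Gr q b) : Inj b := fun c hc e => by
  have k : ∀ c < 256, (∀ j < 8, (B0 (2 ^ j) c : ZMod 2) = 0) → c = 0 := by decide +kernel
  exact k c hc fun j _ => by rw [← H.B_vec h, e, H.zero]

/-- The quadratic form in coordinates. -/
def qq (s t c : ℕ) : ℕ :=
  (c % 2 + c / 2 % 2 + c % 2 * (c / 2 % 2) + c / 4 % 2 + c / 8 % 2 + c / 4 % 2 * (c / 8 % 2) +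
    c / 16 % 2 + c / 32 % 2 + c / 16 % 2 * (c / 32 % 2) + s * (c / 64 % 2) + t * (c / 128 % 2) +
    c / 64 % 2 * (c / 128 % 2)) % 2

theorem Md.q_vec (H : Md q) {b : ℕ → V} (h : Gr q b) {s t : ℕ} (hs : s < 2) (ht : t < 2)
    (h1 : ∀ i < 6, q (b i) = 1) (h6 : q (b 6) = s) (h7 : q (b 7) = t) {c : ℕ} (hc : c < 256) :
    q (vec b c) = qq s t c := by
  have k : ∀ s < 2, ∀ t < 2, ∀ c < 256, c = 0 ∨ ∃ i < 8, c ^^^ 2 ^ i < c ∧
      (qq s t c : ZMod 2) = qq s t (c ^^^ 2 ^ i) +
        (if i = 6 then (s : ZMod 2) else if i = 7 then (t : ZMod 2) else 1) + B0 (c ^^^ 2 ^ i) (2 ^ i) := by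
    decide +kernel
  induction c using Nat.strong_induction_on with
  | _ c ih =>
    rcases k s hs t ht c hc with rfl | ⟨i, hi, h2, h3⟩
    · rw [vec_zero, H.q0]; simp [qq]
    · rw [h3, ← ih _ h2 (h2.trans hc), ← H.B_vec h, ← Nat.xor_xor_cancel_right c (2 ^ i), vec_xor,
        Nat.xor_xor_cancel_right, H.qadd, vec_pow b hi]
      congr 2
      split_ifs with e e'
      · rw [e, h6]
      · rw [e', h7]
      · exact h1 i (by omega)

/-- The module is one of the three models. -/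
def Out (q : V → ZMod 2) : Prop :=
  ∃ μ < 3, ∃ φ : ℕ → V, (∀ a c, φ (a ^^^ c) = φ a + φ c) ∧
    (∀ c < 256, q (φ c) = if qf (mt μ) c = true then 1 else 0) ∧
    ∀ l, 1 ≤ l → l < 16 → ∀ c < 256, evM l • φ c = φ (imM μ l c)

/-- The base change to a model. -/
noncomputable def finChk (im : ℕ → ℕ → ℕ) (s t T μ : ℕ) : Bool :=
  allR (fun c => frcB (fun y => Nat.blt y 256 && Nat.beq (qq s t y) (cond (qf (mt μ) c) 1 0) &&
    allR (fun l => Nat.beq (apw im (UL.getD l []) y) (ap8 T (imM μ l c))) 1 15) (ap8 T c)) 0 256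

theorem Md.out (H : Md q) {b : ℕ → V} (h : Gr q b) {s t : ℕ} (hs : s < 2) (ht : t < 2)
    (h1 : ∀ i < 6, q (b i) = 1) (h6 : q (b 6) = s) (h7 : q (b 7) = t) {im : ℕ → ℕ → ℕ}
    (ha : ∀ l ∈ [1, 2, 3, 4, 5, 6, 7, 8], Act b (ga l) (im l)) {T μ : ℕ} (hμ : μ < 3)
    (hc : finChk im s t T μ = true) : Out q := by
  have k := fun c hc' => allR_range hc rfl c (Nat.zero_le _) hc'
  simp only [frcB_eq, Bool.and_eq_true, Nat.blt_eq, Nat.beq_eq] at k
  refine ⟨μ, hμ, fun c => vec b (ap8 T c), fun a c => ?_, fun c hc => ?_, fun l l1 l2 c hc => ?_⟩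
  · rw [← vec_xor]
    exact congrArg _ (xv_xor _ _ _ _)
  · rw [H.q_vec h hs ht h1 h6 h7 (k c hc).1.1, (k c hc).1.2]
    cases qf (mt μ) c <;> simp
  · have e : ∀ l < 16, (UL.getD l []).all [1, 2, 3, 4, 5, 6, 7, 8].contains = true := by decide
    rw [evM_eq l1 l2, act_w ha (e l l2), Nat.eq_of_beq_eq_true (allR_range (k c hc).2 rfl l l1 l2)]

end Cfsg.Co2.R
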