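import Cfsg.Agent.Co2.R1

/-! Elements of order three on the module; the spin module. -/

set_option autoImplicit false
set_option maxRecDepth 100000
set_option linter.unusedSectionVars false

namespace Cfsg.Co2.R

open Cfsg.H6 Cfsg.Co.Rc Finset
open Cfsg.Co3G (Sp evM)

variable {V : Type*} [AddCommGroup V] [Module (ZMod 2) V] [DistribMulAction Sp V] {q : V → ZMod 2}

/-- The vector lies in the commutator space of `d`. -/
def Fp (d : Sp) (v : V) : Prop := d • d • v = v + d • v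

/-- The projection to the commutator space. -/
def nn (d : Sp) (v : V) : V := d • v + d • d • v

variable {d d' g x : Sp}

theorem nn_add (d : Sp) (u v : V) : nn d (u + v) = nn d u + nn d v := by
  simp only [nn, smul_add]; abel

theorem fp_nn (h : ∀ v : V, d • d • d • v = v) (v : V) : Fp d (nn d v) := by
  simp only [Fp, nn, smul_add, h, add_assoc, vadd', add_comm v]

theorem fx_nn (h : ∀ v : V, d • d • d • v = v) (v : V) : d • (v + nn d v) = v + nn d v := by
  simp only [nn, smul_add, h]; abel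

theorem Fp.nn {v : V} (h : Fp d v) : nn d v = v := by
  rw [R.nn, h, add_comm v, vadd']

theorem nn_fx {v : V} (h : d • v = v) : nn d v = 0 := by rw [nn, h, h, vadd]

theorem fx_of_nn {v : V} (h : nn d v = 0) : d • v = v :=
  (smul_left_cancel d (veq.mp h)).symm

theorem Fp.zero {v : V} (h : Fp d v) (e : d • v = v) : v = 0 := by rw [← h.nn, nn_fx e]

theorem fp_zero (d : Sp) : Fp d (0 : V) := by simp [Fp]

theorem Fp.add {u v : V} (h : Fp d u) (k : Fp d v) : Fp d (u + v) := by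
  unfold Fp at *
  rw [smul_add, smul_add, h, k]; abel

theorem Fp.smul {v : V} (h : Fp d v) (e : ∀ v : V, d' • g • v = g • d • v) : Fp d' (g • v) := by
  unfold Fp at *
  rw [e, e, h, smul_add]

theorem Fp.inv {v : V} (h : Fp d v) (e : ∀ v : V, d • g • v = g • d • d • v)
    (h3 : ∀ v : V, d • d • d • v = v) : Fp d (g • v) := by
  unfold Fp at *
  rw [e, e, h3, h, smul_add, vadd']

theorem Fp.nn' {v : V} (h : Fp d v) (e : ∀ v : V, d • d' • v = d' • d • v) : Fp d (R.nn d' v) :=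
  (h.smul e).add ((h.smul e).smul e)

theorem sne {v : V} (g : Sp) (h : v ≠ 0) : g • v ≠ 0 := fun e => h ((smul_eq_zero_iff_eq g).mp e)

theorem Md.orth (H : Md q) {a c : V} (h : Fp d a) (e : d • c = c) : Bf q a c = 0 := by
  have h1 : Bf q (d • a) c = Bf q a c := by rw [← H.Binv d a c, e]
  have h2 : Bf q (d • d • a) c = Bf q a c := by rw [← h1, ← H.Binv d (d • a) c, e]
  rw [← h2, h, H.add, h1, CharTwo.add_self_eq_zero]

theorem Md.plane (H : Md q) {a : V} (h : Fp d a) : Bf q a (d • a) = q a := by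
  rw [Bf, ← h, H.inv, H.inv, CharTwo.add_self_eq_zero, zero_add]

theorem nrm1 {A : V → Prop} (h1 : ∀ v, A v → Fp d v) (h2 : ∀ v, A v → Fp d' v)
    (ad : ∀ u v, A u → A v → A (u + v)) (cd : ∀ v, A v → A (d • v)) (cd' : ∀ v, A v → A (d' • v))
    (cx : ∀ v, A v → A (x • v)) (c1 : ∀ v : V, d • d' • v = d' • d • v)
    (c2 : ∀ v : V, d • x • v = x • d • v) (c3 : ∀ v : V, d' • x • v = x • d' • d' • v)
    (h3 : ∀ v : V, d' • d' • d' • v = v) {v : V} (hv : A v) (h0 : v ≠ 0) :
    ∃ w, w ≠ 0 ∧ A w ∧ d • w = d' • w := by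
  by_cases e : d • v + d' • d' • v = 0
  · exact ⟨x • v, sne x h0, cx v hv, by rw [c2, c3, veq.mp e]⟩
  · refine ⟨_, e, ad _ _ (cd v hv) (cd' _ (cd' v hv)), ?_⟩
    rw [smul_add, smul_add, h3, h1 v hv, h2 v hv, smul_add, add_assoc, vadd', c1, add_comm]

theorem nrm2 {A : V → Prop} (ad : ∀ u v, A u → A v → A (u + v)) (cx : ∀ v, A v → A (x • v))
    (h2 : ∀ v : V, x • x • v = v) {v : V} (hv : A v) (h0 : v ≠ 0) :
    ∃ w, w ≠ 0 ∧ A w ∧ x • w = w := by
  by_cases e : v + x • v = 0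
  · exact ⟨v, h0, hv, (veq.mp e).symm⟩
  · exact ⟨_, e, ad _ _ hv (cx v hv), by rw [smul_add, h2, add_comm]⟩

theorem vec_ind {A : V → Prop} (h0 : A 0) (ad : ∀ u v, A u → A v → A (u + v)) {b : ℕ → V}
    (h : ∀ k < 8, A (b k)) (c : ℕ) : A (vec b c) :=
  sum_induction _ A ad h0 fun k hk => by
    split_ifs
    exacts [h k (mem_range.mp hk), h0]

theorem Md.three (H : Md q) {A : V → Prop} (h0 : A 0) (ad : ∀ u v, A u → A v → A (u + v))
    {π : V → V} (hπ : ∀ u v, π (u + v) = π u + π v)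
    (h1 : ∀ a, A a → π a = a ∧ π (g • a) = 0 ∧ π (g • g • a) = 0) (h3 : ∀ v : V, g • g • g • v = v)
    {w1 w2 w3 : V} (a1 : A w1) (a2 : A w2) (a3 : A w3) (n1 : w1 ≠ 0) (n2 : w2 ≠ 0) (n3 : w1 ≠ w2) :
    w3 = 0 ∨ w3 = w1 ∨ w3 = w2 ∨ w3 = w1 + w2 := by
  by_contra hc
  push Not at hc
  let b : ℕ → V := fun k => if k = 0 then w1 else if k = 1 then w2 else w3
  have hA : ∀ c, A (vec b c) := vec_ind h0 ad fun k _ => by
    simp only [b]
    split_ifs <;> assumption
  have v1 : vec b 1 = w1 := vec_pow b (k := 0) (by norm_num)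
  have v2 : vec b 2 = w2 := vec_pow b (k := 1) (by norm_num)
  have v4 : vec b 4 = w3 := vec_pow b (k := 2) (by norm_num)
  have v3 : vec b 3 = w1 + w2 := by rw [← v1, ← v2]; exact vec_xor b 1 2
  have hi : ∀ c < 8, vec b c = 0 → c = 0 := fun c hc' e => by
    interval_cases c
    · rfl
    · exact absurd (v1 ▸ e) n1
    · exact absurd (v2 ▸ e) n2
    · exact absurd (veq.mp (v3 ▸ e)) n3
    · exact absurd (v4 ▸ e) hc.1
    · exact absurd (veq.mp (by rw [← v1, ← v4, ← vec_xor]; exact e)) hc.2.1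
    · exact absurd (veq.mp (by rw [← v2, ← v4, ← vec_xor]; exact e)) hc.2.2.1
    · exact absurd (veq.mp (by rw [← v3, ← v4, ← vec_xor]; exact e)) hc.2.2.2
  have hi' : ∀ a c : Fin 8, vec b a = vec b c → a = c := fun a c e =>
    Fin.ext (Nat.xor_eq_zero_iff.mp (hi _ (Nat.xor_lt_two_pow (n := 3) a.2 c.2)
      (by rw [vec_xor, e, vadd])))
  have : Finite V := Nat.finite_of_card_ne_zero (by rw [H.card]; omega)
  have := Nat.card_le_card_of_injective (fun i : Fin 8 × Fin 8 × Fin 8 =>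
    vec b i.1 + g • vec b i.2.1 + g • g • vec b i.2.2) fun i j e => by
      have e1 := congrArg π e
      have e2 := congrArg (fun v => π (g • g • v)) e
      have e3 := congrArg (fun v => π (g • v)) e
      simp only [smul_add, hπ, h3, (h1 _ (hA _)).1, (h1 _ (hA _)).2.1, (h1 _ (hA _)).2.2, add_zero,
        zero_add] at e1 e2 e3
      exact Prod.ext (hi' _ _ e1) (Prod.ext (hi' _ _ e2) (hi' _ _ e3))
  rw [H.card] at this
  simp at this

/-! ### The spin module -/

/-- The words of the basis. -/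
def bwd (k : ℕ) : List ℕ := [[], [1, 3, 5], [1], [3, 5], [3], [1, 5], [5], [1, 3]].getD k []

noncomputable def SM : ℕ → ℕ := nthN [0, 1161999622395201540, 3463479494575328264, 290484380365758480, 865818143983939616, 144401095729381440, 72915231093866624]

noncomputable def im0 (l c : ℕ) : ℕ := ap8 (SM l) c

noncomputable def yf (γ c : ℕ) : ℕ := xv (fun k => apw im0 (bwd k) γ) c 8

noncomputable def imS (γ δ l : ℕ) : ℕ → ℕ :=
  cond (Nat.beq l 7) (yf γ) (cond (Nat.beq l 8) (yf δ) (im0 l))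

/-- A formal sum applied to a vector. -/
noncomputable def val (u : V) (S : List (List ℕ)) : V := (S.map fun w => evL ga w • u).sum

theorem val_shift (u : V) (w : List ℕ) (S : List (List ℕ)) :
    val u (S.map (w ++ ·)) = evL ga w • val u S := by
  induction S with
  | nil => simp [val]
  | cons s S ih =>
    unfold val at *
    simp only [List.map_cons, List.sum_cons, smul_add, ih, evL_append, mul_smul]

noncomputable def eqS : List (List ℕ) → List (List ℕ) → Bool
  | [], [] => true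
  | s :: S, t :: T => chk s t && eqS S T
  | _, _ => false

theorem val_eq (u : V) : ∀ {S T : List (List ℕ)}, eqS S T = true → val u S = val u T
  | [], [], _ => rfl
  | s :: S, t :: T, h => by
    simp only [eqS, Bool.and_eq_true] at h
    have := val_eq u h.2
    unfold val at *
    rw [List.map_cons, List.map_cons, List.sum_cons, List.sum_cons, this, og h.1]
  | [], _ :: _, h => by simp [eqS] at h
  | _ :: _, [], h => by simp [eqS] at h

theorem vec_val (u : V) (c : ℕ) : vec (fun k => evL ga (bwd k) • u) c =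
    val u (((List.range 8).filter c.testBit).map bwd) := by
  have : ∀ L : List ℕ, (L.map fun k => if c.testBit k then evL ga (bwd k) • u else 0).sum =
      val u ((L.filter c.testBit).map bwd) := fun L => by
    induction L with
    | nil => rfl
    | cons k L ih =>
      rw [List.map_cons, List.sum_cons, ih, List.filter_cons]
      split_ifs
      · rfl
      · exact zero_add _
  exact this (List.range 8)

def Rl : List (List (List ℕ)) := [[[], []], [[2], [1, 13]], [[4], [3, 13]], [[6], [5, 13]],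
  [[2, 1], [], [13]], [[4, 3], [], [13]], [[6, 5], [], [13]],
  [[2, 1], [13], []], [[4, 3], [13], []], [[6, 5], [13], []]]

theorem hRl : ∀ l ∈ [1, 2, 3, 4, 5, 6], ∀ k < 8, ∃ S ∈ Rl, ∃ j < 8,
    eqS ((l :: bwd k) :: ((List.range 8).filter (Nat.land (Nat.shiftRight (SM l) (Nat.mul 8 k)) 255).testBit).map bwd)
      (S.map (bwd j ++ ·)) = true := by decide +kernel

/-- A measure for the proof of irreducibility. -/
def dist (c : ℕ) : ℕ := (0x332322232222221322223312332221332222332233121232221221321231332322223312332221323313212312313222332312332132332221313222332322332222332233121232332312332132332233132133122123221232332123232232221221321231332221313222332322321232332123232231332322332232330 >>> (4 * c)) % 16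

theorem hdist : ∀ c < 256, c = 0 ∨ c = 255 ∨ ∃ l ∈ [1, 2, 3, 4, 5, 6], ∃ y ∈ [im0 l c, c ^^^ im0 l c],
    y < 256 ∧ y ≠ 0 ∧ dist y < dist c := by decide +kernel

set_option synthInstance.maxSize 4000 in
set_option synthInstance.maxHeartbeats 200000 in
theorem hGr : ∀ i < 8, ∀ j < 8, i = j ∨ (j = i ^^^ 1 ∧ ∃ a ∈ [i, j], ∃ c ∈ [i, j], a ≠ c ∧
    apw im0 [1, 2] (2 ^ a) = 2 ^ c ∧ apw im0 [1, 2] (2 ^ c) = 2 ^ a ^^^ 2 ^ c) ∨
    (j ≠ i ^^^ 1 ∧ ∃ w ∈ [[1, 2, 3, 4], [1, 2, 4, 3], [1, 2, 5, 6], [1, 2, 6, 5]], ∃ a ∈ [i, j], ∃ c ∈ [i, j],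
      a ≠ c ∧ apw im0 w (2 ^ c) = 2 ^ c ∧ apw im0 w (apw im0 w (2 ^ a)) = 2 ^ a ^^^ apw im0 w (2 ^ a)) := by
  decide +kernel

theorem hy7 : ∀ γ < 256, relOK (imS γ 0) [[7, 6, 7, 6], [7, 2, 7, 2, 7, 2], [7, 4, 7, 4, 7, 4], [7, 7]] = true →
    γ = 21 := by decide +kernel

theorem hy8 : ∀ γ < 256, relOK (imS 0 γ) [[8, 2, 8, 2], [8, 4, 8, 4, 8, 4], [8, 6, 8, 6, 8, 6], [8, 8]] = true →
    γ = 81 := by decide +kernel

theorem finS : finChk (imS 21 81) 1 1 1481801388535511551 0 = true := by decide +kernel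

theorem Md.spin1 (H : Md q) {u : V} (h0 : u ≠ 0) (h : ∀ S ∈ Rl, val u S = 0) : Out q := by
  let b : ℕ → V := fun k => evL ga (bwd k) • u
  have b0 : b 0 = u := one_smul _ _
  have ha : ∀ l ∈ [1, 2, 3, 4, 5, 6], Act b (ga l) (im0 l) := fun l hl =>
    act_of_basis (rw := fun k => Nat.land (Nat.shiftRight (SM l) (Nat.mul 8 k)) 255) fun k hk => by
      obtain ⟨S, hS, j, -, e⟩ := hRl l hl k hk
      have := val_eq u e
      rw [val_shift, h S hS, smul_zero, val, List.map_cons, List.sum_cons, ← val, evL_cons,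
        mul_smul] at this
      rw [vec_val]
      exact veq.mp this
  have hi : Inj b := by
    have k : ∀ n c, dist c = n → c < 256 → vec b c = 0 → c = 0 := fun n => by
      induction n using Nat.strong_induction_on with
      | _ n ih =>
        intro c e hc h1
        rcases hdist c hc with h2 | rfl | ⟨l, hl, y, hy, h2, h3, h4⟩
        · exact h2
        · have k : ∀ w : List ℕ, w.all [1, 2, 3, 4, 5, 6].contains = true → vec b (apw im0 w 255) = 0 :=
            fun w hw => by rw [← act_w ha hw, h1, smul_zero]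
          have e : 2 ^ 0 = apw im0 [1, 2] 255 ^^^ apw im0 [6, 4] 255 ^^^ apw im0 [5, 6, 3, 4, 2] 255 := by
            decide +kernel
          refine absurd ?_ h0
          rw [← b0, ← vec_pow b (by norm_num), e, vec_xor, vec_xor, k _ (by decide), k _ (by decide),
            k _ (by decide), add_zero, add_zero]
        · have h5 : vec b (im0 l c) = 0 := by rw [← ha l hl, h1, smul_zero]
          refine absurd (ih _ (e ▸ h4) y rfl h2 ?_) h3
          simp only [List.mem_cons, List.not_mem_nil, or_false] at hy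
          rcases hy with rfl | rfl
          · exact h5
          · rw [vec_xor, h1, h5, add_zero]
    exact fun c => k _ c rfl
  have hq : ∀ k, q (b k) = q u := fun k => H.inv _ _
  have hG : ∀ i < 8, ∀ j < 8, Bf q (b i) (b j) = if j = i ^^^ 1 then q u else 0 := fun i hi' j hj => by
    have m : ∀ a ∈ [i, j], ∀ c ∈ [i, j], a ≠ c → a < 8 ∧ c < 8 ∧ Bf q (b i) (b j) = Bf q (b a) (b c) := by
      simp only [List.forall_mem_cons, List.not_mem_nil, IsEmpty.forall_iff, implies_true, and_true,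
        ne_eq, not_true_eq_false, true_and, hi', hj, Bf_comm (b j)]
    rcases hGr i hi' j hj with rfl | ⟨e, a, ma, c, mc, n, e1, e2⟩ | ⟨e, w, hw, a, ma, c, mc, n, e1, e2⟩
    · rw [H.self, if_neg ((by decide : ∀ i < 8, ¬ i = i ^^^ 1) i hi')]
    · obtain ⟨la, lc, e3⟩ := m a ma c mc n
      have k := act_w ha (w := [1, 2]) (by decide)
      have k1 : evL ga [1, 2] • b a = b c := by rw [← vec_pow b la, k, e1, vec_pow b lc]
      rw [if_pos e, e3, ← k1, H.plane, hq]
      rw [Fp, k1, ← vec_pow b lc, k, e2, vec_xor, vec_pow b la]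
    · obtain ⟨la, lc, e3⟩ := m a ma c mc n
      have k := act_w ha (w := w) (by clear e1 e2; revert w; decide)
      rw [if_neg e, e3]
      refine H.orth (d := evL ga w) ?_ (by rw [← vec_pow b lc, k, e1])
      rw [Fp, ← vec_pow b la, k, k, e2, vec_xor]
  have q1 : q u = 1 := (z2 _).resolve_left fun e => h0 (H.nd u fun v => by
    obtain ⟨c, -, rfl⟩ := hi.surj H.card v
    refine vec_ind (A := fun v => Bf q u v = 0) (H.zero u) (fun a c h k => by rw [H.add', h, k, add_zero])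
      (fun k hk => ?_) c
    rw [← b0, hG 0 (by norm_num) k hk, e, ite_self])
  rw [q1] at hG hq
  have hy : ∀ y, (∀ k < 8, chk (y :: bwd k) (bwd k ++ [y]) = true) → ∃ γ < 256, Act b (ga y) (yf γ) := by
    intro y hy
    obtain ⟨γ, h1, e⟩ := hi.surj H.card (ga y • u)
    refine ⟨γ, h1, act_of_basis fun k hk => ?_⟩
    rw [← act_w ha (by revert k; decide), e, ← mul_smul, ← mul_smul, ← evL_cons, og (hy k hk),
      evL_append, evL_singleton]
  obtain ⟨γ, g1, g2⟩ := hy 7 (by decide +kernel)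
  obtain ⟨δ, d1, d2⟩ := hy 8 (by decide +kernel)
  simp only [List.forall_mem_cons] at ha
  obtain ⟨a1, a2, a3, a4, a5, a6, -⟩ := ha
  obtain rfl := hy7 γ g1 (rels_ok (ls := [2, 4, 6, 7]) hi (by
    simp only [List.forall_mem_cons]; exact ⟨a2, a4, a6, g2, by simp⟩) (by decide +kernel))
  obtain rfl := hy8 δ d1 (rels_ok (ls := [2, 4, 6, 8]) hi (by
    simp only [List.forall_mem_cons]; exact ⟨a2, a4, a6, d2, by simp⟩) (by decide +kernel))
  exact H.out hG (by norm_num) (by norm_num) (fun i _ => hq i) (hq 6) (hq 7) (by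
    simp only [List.forall_mem_cons]; exact ⟨a1, a2, a3, a4, a5, a6, g2, d2, by simp⟩) (by norm_num) finS

theorem cm (a b : ℕ) (h : chk [a, b] [b, a] = true := by decide +kernel) (v : V) :
    ga a • ga b • v = ga b • ga a • v := ow [a, b] [b, a] h v

theorem cj (a b c : ℕ) (h : chk [a, b] [b, c] = true := by decide +kernel) (v : V) :
    ga a • ga b • v = ga b • ga c • v := ow [a, b] [b, c] h v

theorem iv (a b : ℕ) (h : chk [a, b] [b, a, a] = true := by decide +kernel) (v : V) :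
    ga a • ga b • v = ga b • ga a • ga a • v := ow [a, b] [b, a, a] h v

theorem o3 (a : ℕ) (h : chk [a, a, a] [] = true := by decide +kernel) (v : V) :
    ga a • ga a • ga a • v = v := ow [a, a, a] [] h v

theorem o2 (a : ℕ) (h : chk [a, a] [] = true := by decide +kernel) (v : V) :
    ga a • ga a • v = v := ow [a, a] [] h v

theorem Md.spin (H : Md q) {v : V} (h0 : v ≠ 0) (h1 : Fp (ga 10) v) (h2 : Fp (ga 11) v)
    (h3 : Fp (ga 12) v) : Out q := by
  obtain ⟨v, h0, h, e1⟩ := nrm1 (A := fun v : V => Fp (ga 10) v ∧ Fp (ga 11) v ∧ Fp (ga 12) v)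
    (d := ga 10) (d' := ga 11) (x := ga 3) (fun _ h => h.1) (fun _ h => h.2.1)
    (fun _ _ h k => ⟨h.1.add k.1, h.2.1.add k.2.1, h.2.2.add k.2.2⟩)
    (fun _ h => ⟨h.1.smul fun _ => rfl, h.2.1.smul (cm 11 10), h.2.2.smul (cm 12 10)⟩)
    (fun _ h => ⟨h.1.smul (cm 10 11), h.2.1.smul fun _ => rfl, h.2.2.smul (cm 12 11)⟩)
    (fun _ h => ⟨h.1.smul (cm 10 3), h.2.1.inv (iv 11 3) (o3 11), h.2.2.smul (cm 12 3)⟩)
    (cm 10 11) (cm 10 3) (iv 11 3) (o3 11) ⟨h1, h2, h3⟩ h0
  obtain ⟨v, h0, h, e2⟩ := nrm1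
    (A := fun v : V => (Fp (ga 10) v ∧ Fp (ga 11) v ∧ Fp (ga 12) v) ∧ ga 10 • v = ga 11 • v)
    (d := ga 10) (d' := ga 12) (x := ga 5) (fun _ h => h.1.1) (fun _ h => h.1.2.2)
    (fun _ _ h k => ⟨⟨h.1.1.add k.1.1, h.1.2.1.add k.1.2.1, h.1.2.2.add k.1.2.2⟩,
      by rw [smul_add, smul_add, h.2, k.2]⟩)
    (fun _ h => ⟨⟨h.1.1.smul fun _ => rfl, h.1.2.1.smul (cm 11 10), h.1.2.2.smul (cm 12 10)⟩,
      by rw [cm 11 10, h.2]⟩)
    (fun _ h => ⟨⟨h.1.1.smul (cm 10 12), h.1.2.1.smul (cm 11 12), h.1.2.2.smul fun _ => rfl⟩,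
      by rw [cm 10 12, cm 11 12, h.2]⟩)
    (fun _ h => ⟨⟨h.1.1.smul (cm 10 5), h.1.2.1.smul (cm 11 5), h.1.2.2.inv (iv 12 5) (o3 12)⟩,
      by rw [cm 10 5, cm 11 5, h.2]⟩)
    (cm 10 12) (cm 10 5) (iv 12 5) (o3 12) ⟨h, e1⟩ h0
  obtain ⟨w, h0, ⟨⟨⟨f1, f2, f3⟩, e1⟩, e2⟩, e3⟩ := nrm2
    (A := fun v : V => ((Fp (ga 10) v ∧ Fp (ga 11) v ∧ Fp (ga 12) v) ∧ ga 10 • v = ga 11 • v) ∧
      ga 10 • v = ga 12 • v) (x := ga 13)
    (fun _ _ h k => ⟨⟨⟨h.1.1.1.add k.1.1.1, h.1.1.2.1.add k.1.1.2.1, h.1.1.2.2.add k.1.1.2.2⟩,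
      by rw [smul_add, smul_add, h.1.2, k.1.2]⟩, by rw [smul_add, smul_add, h.2, k.2]⟩)
    (fun _ h => ⟨⟨⟨h.1.1.1.inv (iv 10 13) (o3 10), h.1.1.2.1.inv (iv 11 13) (o3 11),
      h.1.1.2.2.inv (iv 12 13) (o3 12)⟩, by rw [iv 10 13, iv 11 13, h.1.1.1, h.1.1.2.1, h.1.2]⟩,
      by rw [iv 10 13, iv 12 13, h.1.1.1, h.1.1.2.2, h.2]⟩) (o2 13) ⟨h, e2⟩ h0
  have x1 : ga 13 • ga 10 • w = ga 10 • ga 10 • w := by
    rw [show ga 13 • ga 10 • w = ga 10 • ga 10 • ga 13 • w from
      ow [13, 10] [10, 10, 13] (by decide +kernel) w, e3]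
  have x2 : ga 13 • ga 10 • w = ga 11 • ga 10 • w := by rw [x1, cm 11 10, e1]
  have x3 : ga 13 • ga 10 • w = ga 12 • ga 10 • w := by rw [x1, cm 12 10, e2]
  have f1' : Fp (ga 10) (ga 10 • w) := f1.smul fun _ => rfl
  have f2' := f2.smul (cm 11 10)
  have f3' := f3.smul (cm 12 10)
  generalize hu : ga 10 • w = u at x1 x2 x3 f1' f2' f3'
  have a : ∀ f x d, chk [f] [x, d] = true → chk [f, x] [d, d] = true → Fp (ga d) u →
      ga 13 • u = ga d • u →
      ga f • u = ga x • ga 13 • u ∧ ga f • ga x • u = u + ga 13 • u := fun f x d c1 c2 h e => by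
    rw [e]
    exact ⟨ow [f] [x, d] c1 u, (ow [f, x] [d, d] c2 u).trans h⟩
  obtain ⟨a1, b1⟩ := a 2 1 10 (by decide +kernel) (by decide +kernel) f1' x1
  obtain ⟨a2, b2⟩ := a 4 3 11 (by decide +kernel) (by decide +kernel) f2' x2
  obtain ⟨a3, b3⟩ := a 6 5 12 (by decide +kernel) (by decide +kernel) f3' x3
  refine H.spin1 (hu ▸ sne _ h0) ?_
  simp only [Rl, List.forall_mem_cons, val, List.map_cons, List.map_nil, List.sum_cons, List.sum_nil,
    evL_cons, evL_nil, mul_smul, one_smul, add_zero, a1, a2, a3, b1, b2, b3, vadd, add_comm (ga 13 • u) u,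
    List.not_mem_nil, IsEmpty.forall_iff, implies_true, and_self]

end Cfsg.Co2.R
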