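import Cfsg.Agent.Co2.R2

/-! The modules with a fixed vector, and the classification. -/

set_option autoImplicit false
set_option maxRecDepth 100000
set_option linter.unusedSectionVars false
set_option synthInstance.maxSize 4000

namespace Cfsg.Co2.R

open Cfsg.H6 Cfsg.Co.Rc Finset
open Cfsg.Co3G (Sp evM)

variable {V : Type*} [AddCommGroup V] [Module (ZMod 2) V] [DistribMulAction Sp V] {q : V → ZMod 2}

/-- The element is a product of two transvections. -/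
def Tv (q : V → ZMod 2) (g : Sp) (c e : V) : Prop := ∀ v, g • v = v + Bf q v c • c + Bf q v e • e

theorem Md.tv_conj (H : Md q) {g l h : Sp} {c e : V} (k : Tv q g c e)
    (hh : ∀ v : V, l • h • v = h • g • v) : Tv q l (h • c) (h • e) := fun v => by
  obtain ⟨v, rfl⟩ : ∃ u : V, v = h • u := ⟨h⁻¹ • v, (smul_inv_smul h v).symm⟩
  rw [hh, k, smul_add, smul_add, sm_comm, sm_comm, H.Binv, H.Binv]

/-- The product of two transvections in coordinates. -/
noncomputable def tv (γ δ c : ℕ) : ℕ :=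
  Nat.xor (Nat.xor c (Nat.mul (B0 c γ) γ)) (Nat.mul (B0 c δ) δ)

theorem vec_B0 (b : ℕ → V) (c γ : ℕ) : vec b (B0 c γ * γ) = (B0 c γ : ZMod 2) • vec b γ := by
  have : B0 c γ = _ % 2 := Nat.and_one_is_mod _
  rcases Nat.mod_two_eq_zero_or_one _ with e | e <;> rw [this, e] <;> simp [vec_zero]

theorem Md.act_tv (H : Md q) {b : ℕ → V} (h : Gr q b) {g : Sp} {γ δ : ℕ}
    (k : Tv q g (vec b γ) (vec b δ)) : Act b g (tv γ δ) := fun c => by
  rw [k, H.B_vec h, H.B_vec h, ← vec_B0, ← vec_B0, ← vec_xor, ← vec_xor]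
  rfl

noncomputable def imN (t a a' c c' l : ℕ) : ℕ → ℕ :=
  tv (nthN [0, 1, 2, 4, 8, 16, 32, a, c] l) (nthN [0, t, t, t, t, t, t, a', c'] l)

theorem hn1 : ∀ γ < 256, (∀ k < 6, (B0 (2 ^ k) γ : ZMod 2) = 0) → γ ≠ 0 →
    relOK (fun l => tv (nthN [0, 1, 0, 4] l) (nthN [0, 64, 0, γ] l)) [[1, 3, 1, 3]] = true → γ = 64 := by
  decide +kernel

theorem hz7 : ∀ γ < 256, relOK (imN 0 γ 0 0 0) [[7, 1, 7, 1], [7, 3, 7, 3], [7, 5, 7, 5], [7, 6, 7, 6],
    [7, 2, 7, 2, 7, 2], [7, 4, 7, 4, 7, 4]] = true → γ ∈ [5, 69, 133, 197] := by decide +kernel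

theorem hz8 : ∀ γ < 256, relOK (imN 0 0 0 γ 0) [[8, 1, 8, 1], [8, 3, 8, 3], [8, 5, 8, 5], [8, 2, 8, 2],
    [8, 4, 8, 4, 8, 4], [8, 6, 8, 6, 8, 6]] = true → γ ∈ [20, 84, 148, 212] := by decide +kernel

theorem hz9 : ∀ a ∈ [69, 133, 197], ∀ c ∈ [84, 148, 212], relOK (imN 0 a 0 c 0)
    [[1, 3, 5, 7, 8, 2, 7, 4, 8, 3, 4, 7, 2, 1, 2, 7, 4, 3, 8, 4, 7, 2, 4, 8, 7, 4, 3, 4, 7, 8, 4]] = false := by
  decide +kernel

theorem hn7 : ∀ γ < 256, fx (imN 64 0 0 0 0) [5, 6] γ = true → ∀ δ < 256,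
    fx (imN 64 0 0 0 0) [5, 6] δ = true → relOK (imN 64 γ δ 0 0) [[7, 2, 7, 2, 7, 2], [7, 4, 7, 4, 7, 4],
      [7, 1, 7, 1], [7, 3, 7, 3], [7, 5, 7, 5]] = true →
      γ = 5 ∨ δ = 5 ∨ (γ, δ) ∈ [(64, 69), (69, 64)] := by decide +kernel

theorem hn8 : ∀ γ < 256, fx (imN 64 0 0 0 0) [1, 2] γ = true → ∀ δ < 256,
    fx (imN 64 0 0 0 0) [1, 2] δ = true → relOK (imN 64 0 0 γ δ) [[8, 4, 8, 4, 8, 4], [8, 6, 8, 6, 8, 6],
      [8, 1, 8, 1], [8, 3, 8, 3], [8, 5, 8, 5]] = true →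
      γ = 20 ∨ δ = 20 ∨ (γ, δ) ∈ [(64, 84), (84, 64)] := by decide +kernel

theorem hn9 : ∀ a ∈ [(64, 69), (69, 64)], ∀ c ∈ [(64, 84), (84, 64)],
    finChk (imN 64 a.1 a.2 c.1 c.2) 1 0 13790101508392502337 2 = true ∧
    finChk (imN 64 a.1 a.2 c.1 c.2) 1 1 18401787528950596673 1 = true := by decide +kernel

theorem hq5 : ∀ s < 2, ∀ t < 2, (qq s t 5 : ZMod 2) ≠ 1 ∧ (qq s t 20 : ZMod 2) ≠ 1 := by decide

theorem cast2 (z : ZMod 2) : ∃ s < 2, z = (s : ℕ) := by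
  rcases z2 z with rfl | rfl
  exacts [⟨0, by norm_num, rfl⟩, ⟨1, by norm_num, rfl⟩]

/-- The end of the argument, in coordinates. -/
theorem Md.nat2 (H : Md q) {b : ℕ → V} (h : Gr q b) (h1 : ∀ i < 6, q (b i) = 1) {t : ℕ}
    (ht : t = 0 ∨ t = 64 ∧ q (b 6) = 1) (k1 : Tv q (ga 1) (b 0) (vec b t))
    (e1 : ga 10 • b 0 = b 1) (e2 : ga 9 • b 0 = b 2) (e3 : ga 9 • b 1 = b 3) (e4 : ga 9 • b 2 = b 4)
    (e5 : ga 9 • b 3 = b 5) (f1 : ga 10 • vec b t = vec b t) 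
    (f2 : ∀ k < 6, Bf q (b k) (ga 9 • vec b t) = 0)
    (f3 : ga 12 • vec b t = vec b t) (f4 : ga 12 • b 0 = b 0) : Out q := by
  have hi := H.inj h
  have a1 := H.act_tv h (γ := 2 ^ 0) (vec_pow b (k := 0) (by norm_num) ▸ k1)
  have k2 := H.tv_conj k1 (cj 2 10 1)
  rw [e1, f1] at k2
  have k3 := H.tv_conj k1 (cj 3 9 1)
  replace f2 : ga 9 • vec b t = vec b t := by
    rcases ht with rfl | ⟨rfl, ht⟩
    · rw [vec_zero, smul_zero]
    obtain ⟨γ, l, e⟩ := hi.surj H.card (ga 9 • vec b 64)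
    rw [e2, ← e, ← vec_pow b (k := 2) (by norm_num)] at k3
    have a3 := H.act_tv h k3
    rw [← e, hn1 γ l (fun k hk => by rw [← H.B_vec h, vec_pow b (by omega), e, f2 k hk])
      (fun e0 => by
        rw [e0, vec_zero] at e
        exact absurd (hi 64 (by norm_num) ((smul_eq_zero_iff_eq _).mp e.symm)) (by norm_num))
      (rels_ok (ls := [1, 3]) hi (by simp only [List.forall_mem_cons]; exact ⟨a1, a3, by simp⟩)
        (by decide +kernel))]
  have k4 := H.tv_conj k2 (cj 4 9 2)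
  rw [e2, f2] at k3
  rw [e3, f2] at k4
  have k5 := H.tv_conj k3 (cj 5 9 3)
  have k6 := H.tv_conj k4 (cj 6 9 4)
  rw [e4, f2] at k5
  rw [e5, f2] at k6
  have k7 := H.tv_conj k1 (cj 7 15 1)
  have k8 := H.tv_conj k7 (cj 8 9 7)
  obtain ⟨a, la, ea⟩ := hi.surj H.card (ga 15 • b 0)
  obtain ⟨a', la', ea'⟩ := hi.surj H.card (ga 15 • vec b t)
  obtain ⟨c, lc, ec⟩ := hi.surj H.card (ga 9 • ga 15 • b 0)
  obtain ⟨c', lc', ec'⟩ := hi.surj H.card (ga 9 • ga 15 • vec b t)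
  have a2 := H.act_tv h (γ := 2 ^ 1) (vec_pow b (k := 1) (by norm_num) ▸ k2)
  have a3 := H.act_tv h (γ := 2 ^ 2) (vec_pow b (k := 2) (by norm_num) ▸ k3)
  have a4 := H.act_tv h (γ := 2 ^ 3) (vec_pow b (k := 3) (by norm_num) ▸ k4)
  have a5 := H.act_tv h (γ := 2 ^ 4) (vec_pow b (k := 4) (by norm_num) ▸ k5)
  have a6 := H.act_tv h (γ := 2 ^ 5) (vec_pow b (k := 5) (by norm_num) ▸ k6)
  have a7 := H.act_tv h (ea ▸ ea' ▸ k7)
  have a8 := H.act_tv h (ec ▸ ec' ▸ k8)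
  have A7 : ∀ l ∈ [1, 2, 3, 4, 5, 6, 7], Act b (ga l) (imN t a a' 0 0 l) := by
    simp only [List.forall_mem_cons]; exact ⟨a1, a2, a3, a4, a5, a6, a7, by simp⟩
  have A8 : ∀ l ∈ [1, 2, 3, 4, 5, 6, 8], Act b (ga l) (imN t 0 0 c c' l) := by
    simp only [List.forall_mem_cons]; exact ⟨a1, a2, a3, a4, a5, a6, a8, by simp⟩
  have A9 : ∀ l ∈ [1, 2, 3, 4, 5, 6, 7, 8], Act b (ga l) (imN t a a' c c' l) := by
    simp only [List.forall_mem_cons]; exact ⟨a1, a2, a3, a4, a5, a6, a7, a8, by simp⟩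
  have A6 : ∀ l ∈ [1, 2, 3, 4, 5, 6], Act b (ga l) (imN t 0 0 0 0 l) := by
    simp only [List.forall_mem_cons]; exact ⟨a1, a2, a3, a4, a5, a6, by simp⟩
  obtain ⟨s, ls, es⟩ := cast2 (q (b 6))
  obtain ⟨r, lr, er⟩ := cast2 (q (b 7))
  have hq : ∀ c < 256, q (vec b c) = 1 → c ≠ 5 ∧ c ≠ 20 := fun c hc e => by
    rw [H.q_vec h ls lr h1 es er hc] at e
    constructor <;> rintro rfl
    exacts [(hq5 s ls r lr).1 e, (hq5 s ls r lr).2 e]
  have qa := (hq a la (by rw [ea, H.inv, h1 0 (by norm_num)])).1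
  have qc := (hq c lc (by rw [ec, H.inv, H.inv, h1 0 (by norm_num)])).2
  rcases ht with rfl | ⟨rfl, ht⟩
  · rw [vec_zero, smul_zero] at ea' ec'
    rw [smul_zero] at ec'
    obtain rfl := hi _ la' ea'
    obtain rfl := hi _ lc' ec'
    have m1 := hz7 a la (rels_ok hi A7 (by decide +kernel))
    have m2 := hz8 c lc (rels_ok hi A8 (by decide +kernel))
    have := hz9 a ((List.mem_cons.mp m1).resolve_left qa) c ((List.mem_cons.mp m2).resolve_left qc)
    rw [rels_ok hi A9 (by decide +kernel)] at this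
    exact absurd this (by simp)
  · have v6 : vec b 64 = b 6 := vec_pow b (k := 6) (by norm_num)
    have qa' := (hq a' la' (by rw [ea', H.inv, v6, ht])).1
    have qc' := (hq c' lc' (by rw [ec', H.inv, H.inv, v6, ht])).2
    have x3 : ∀ v : V, ga 12 • v = v → evL ga [5, 6] • ga 15 • v = ga 15 • v := fun v e => by
      rw [← og (u := [12]) (by decide +kernel), evL_singleton, cm 12 15, e]
    have x1 : ∀ v : V, ga 12 • v = v → evL ga [1, 2] • ga 9 • ga 15 • v = ga 9 • ga 15 • v := fun v e => by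
      rw [← og (u := [10]) (by decide +kernel), evL_singleton, cj 10 9 12, cm 12 15, e]
    have m1 := ((hn7 a la (fx_of hi A6 (by decide) la (ea ▸ x3 _ f4)) a' la'
      (fx_of hi A6 (by decide) la' (ea' ▸ x3 _ f3))
      (rels_ok hi A7 (by decide +kernel))).resolve_left qa).resolve_left qa'
    have m2 := ((hn8 c lc (fx_of hi A6 (by decide) lc (ec ▸ x1 _ f4)) c' lc'
      (fx_of hi A6 (by decide) lc' (ec' ▸ x1 _ f3))
      (rels_ok hi A8 (by decide +kernel))).resolve_left qc).resolve_left qc'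
    have := hn9 _ m1 _ m2
    interval_cases r
    · exact H.out h (by norm_num) lr h1 ht er A9 (by norm_num) this.1
    · exact H.out h (by norm_num) lr h1 ht er A9 (by norm_num) this.2

theorem Md.nat (H : Md q) (h3 : ∀ v : V, Fp (ga 10) v → Fp (ga 11) v → Fp (ga 12) v → v = 0) :
    Out q := by
  have p3 : ∀ v : V, ga 9 • ga 9 • ga 9 • v = v := o3 9
  have s12 : ∀ v : V, Fp (ga 10) v → Fp (ga 11) v → v = 0 := fun v h1 h2 => by
    by_contra h0
    obtain ⟨w, h0, ⟨h1, h2⟩, e⟩ := nrm1 (A := fun v : V => Fp (ga 10) v ∧ Fp (ga 11) v)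
      (d := ga 10) (d' := ga 11) (x := ga 3) (fun _ h => h.1) (fun _ h => h.2)
      (fun _ _ h k => ⟨h.1.add k.1, h.2.add k.2⟩)
      (fun _ h => ⟨h.1.smul fun _ => rfl, h.2.smul (cm 11 10)⟩)
      (fun _ h => ⟨h.1.smul (cm 10 11), h.2.smul fun _ => rfl⟩)
      (fun _ h => ⟨h.1.smul (cm 10 3), h.2.inv (iv 11 3) (o3 11)⟩)
      (cm 10 11) (cm 10 3) (iv 11 3) (o3 11) ⟨h1, h2⟩ h0
    have k1 : Fp (ga 10) (ga 3 • w) := h1.smul (cm 10 3)
    have k := H.three (A := fun v : V => Fp (ga 10) v ∧ Fp (ga 11) v) (g := ga 9)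
      ⟨fp_zero _, fp_zero _⟩ (fun _ _ h k => ⟨h.1.add k.1, h.2.add k.2⟩)
      (π := fun v => v + nn (ga 12) v) (fun u v => by rw [nn_add]; abel)
      (fun a h => ⟨by rw [h3 _ (h.1.nn' (cm 10 12)) (h.2.nn' (cm 11 12)) (fp_nn (o3 12) a), add_zero],
        by rw [(h.2.smul (cj 12 9 11)).nn, vadd],
        by rw [((h.1.smul (cj 11 9 10)).smul (cj 12 9 11)).nn, vadd]⟩) p3
      ⟨h1, h2⟩ ⟨h1.smul fun _ => rfl, h2.smul (cm 11 10)⟩ ⟨k1, h2.inv (iv 11 3) (o3 11)⟩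
      h0 (sne _ h0) fun e => h0 (h1.zero e.symm)
    have e' : ga 10 • ga 10 • w = ga 11 • ga 10 • w := by rw [cm 11 10, e]
    have k2 : ga 10 • ga 3 • w = ga 11 • ga 3 • w := by
      rcases k with k | k | k | k <;> rw [k]
      · rw [smul_zero, smul_zero]
      · exact e
      · exact e'
      · rw [smul_add, smul_add, e', e]
    rw [iv 11 3, ← e, ← e', ← cm 10 3, ← cm 10 3] at k2
    exact sne _ h0 (k1.zero (smul_left_cancel _ k2).symm)
  have s23 : ∀ v : V, Fp (ga 11) v → Fp (ga 12) v → v = 0 := fun v h1 h2 =>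
    (smul_eq_zero_iff_eq (ga 14)).mp (s12 _ (h1.smul (cj 10 14 11)) (h2.smul (cj 11 14 12)))
  have s31 : ∀ v : V, Fp (ga 12) v → Fp (ga 10) v → v = 0 := fun v h1 h2 =>
    (smul_eq_zero_iff_eq (ga 9)).mp (s12 _ (h1.smul (cj 10 9 12)) (h2.smul (cj 11 9 10)))
  have x12 : ∀ {v : V}, Fp (ga 10) v → ga 11 • v = v := fun h =>
    fx_of_nn (s12 _ (h.nn' (cm 10 11)) (fp_nn (o3 11) _))
  have x13 : ∀ {v : V}, Fp (ga 10) v → ga 12 • v = v := fun h =>
    fx_of_nn (s31 _ (fp_nn (o3 12) _) (h.nn' (cm 10 12)))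
  have x21 : ∀ {v : V}, Fp (ga 11) v → ga 10 • v = v := fun h =>
    fx_of_nn (s12 _ (fp_nn (o3 10) _) (h.nn' (cm 11 10)))
  have x23 : ∀ {v : V}, Fp (ga 11) v → ga 12 • v = v := fun h =>
    fx_of_nn (s23 _ (h.nn' (cm 11 12)) (fp_nn (o3 12) _))
  have x31 : ∀ {v : V}, Fp (ga 12) v → ga 10 • v = v := fun h =>
    fx_of_nn (s31 _ (h.nn' (cm 12 10)) (fp_nn (o3 10) _))
  have x32 : ∀ {v : V}, Fp (ga 12) v → ga 11 • v = v := fun h =>
    fx_of_nn (s23 _ (fp_nn (o3 11) _) (h.nn' (cm 12 11)))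
  have p12 : ∀ {v : V}, Fp (ga 10) v → Fp (ga 11) (ga 9 • v) := fun h => h.smul (cj 11 9 10)
  have p23 : ∀ {v : V}, Fp (ga 11) v → Fp (ga 12) (ga 9 • v) := fun h => h.smul (cj 12 9 11)
  have p31 : ∀ {v : V}, Fp (ga 12) v → Fp (ga 10) (ga 9 • v) := fun h => h.smul (cj 10 9 12)
  obtain ⟨v, hv⟩ := H.fa
  obtain ⟨w, w0, w1, wx⟩ := nrm2 (A := Fp (ga 10)) (x := ga 1) (fun _ _ => Fp.add)
    (fun _ h => h.inv (iv 10 1) (o3 10)) (o2 1) (fp_nn (o3 10) v) fun e => hv (fx_of_nn e)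
  have w2 : Fp (ga 10) (ga 10 • w) := w1.smul fun _ => rfl
  have wn : w ≠ ga 10 • w := fun e => w0 (w1.zero e.symm)
  have V1 : ∀ {a : V}, Fp (ga 10) a → a = 0 ∨ a = w ∨ a = ga 10 • w ∨ a = w + ga 10 • w := fun h =>
    H.three (A := Fp (ga 10)) (g := ga 9) (fp_zero _) (fun _ _ => Fp.add) (nn_add (ga 10))
      (fun a h => ⟨h.nn, nn_fx (x21 (p12 h)), nn_fx (x31 (p23 (p12 h)))⟩) p3 w1 w2 h w0 (sne _ w0) wn
  have xd : ga 1 • ga 10 • w = w + ga 10 • w := by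
    rw [show ga 1 • ga 10 • w = ga 10 • ga 10 • ga 1 • w from
      ow [1, 10] [10, 10, 1] (by decide +kernel) w, wx, w1]
  have triv : ∀ y : Sp, (∀ v : V, ga 10 • y • v = y • ga 10 • v) → (∀ v : V, ga 1 • y • v = y • ga 1 • v) →
      y • w = w := fun y c1 c2 => by
    have e := c2 w
    rw [wx] at e
    rcases V1 (w1.smul c1) with k | k | k | k
    · exact absurd k (sne _ w0)
    · exact k
    · rw [k, xd] at e
      exact absurd (add_eq_right.mp e) w0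
    · rw [k, smul_add, wx, xd, vadd'] at e
      exact absurd (right_eq_add.mp e) w0
  have q1 : q w = 1 := (z2 _).resolve_left fun e => w0 (H.nd w fun v => by
    have e1 : Bf q w (ga 10 • w) = 0 := by rw [H.plane w1, e]
    rw [← vadd' (nn (ga 10) v) v, H.add', add_comm _ v, H.orth w1 (fx_nn (o3 10) v), add_zero]
    rcases V1 (fp_nn (o3 10) v) with k | k | k | k <;> rw [k]
    · exact H.zero w
    · exact H.self w
    · exact e1
    · rw [H.add', H.self, e1, add_zero])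
  have T : ∀ v : V, ∃ t, (ga 10 • t = t ∧ ga 11 • t = t ∧ ga 12 • t = t) ∧
      v = t + (nn (ga 10) v + (nn (ga 11) v + nn (ga 12) v)) := fun v => by
    have n1 := fp_nn (o3 10) v
    have n2 := fp_nn (o3 11) v
    have n3 := fp_nn (o3 12) v
    refine ⟨v + (nn (ga 10) v + (nn (ga 11) v + nn (ga 12) v)), ⟨?_, ?_, ?_⟩,
      by rw [add_assoc, vadd, add_zero]⟩
    · rw [← add_assoc, smul_add, fx_nn (o3 10), smul_add, x21 n2, x31 n3]
    · rw [add_left_comm (nn (ga 10) v), ← add_assoc, smul_add, fx_nn (o3 11), smul_add, x12 n1, x32 n3]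
    · rw [← add_assoc (nn (ga 10) v), add_comm _ (nn (ga 12) v), ← add_assoc, smul_add, fx_nn (o3 12),
        smul_add, x13 n1, x23 n2]
  obtain ⟨t, t0, ht⟩ : ∃ t : V, t ≠ 0 ∧ ga 10 • t = t ∧ ga 11 • t = t ∧ ga 12 • t = t := by
    by_contra hc
    push Not at hc
    let s : Fin 4 → V := ![0, w, ga 10 • w, w + ga 10 • w]
    have hs : ∀ {a : V}, Fp (ga 10) a → ∃ i, s i = a := fun h => by
      rcases V1 h with k | k | k | k
      exacts [⟨0, k.symm⟩, ⟨1, k.symm⟩, ⟨2, k.symm⟩, ⟨3, k.symm⟩]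
    have := Nat.card_le_card_of_surjective (fun i : Fin 4 × Fin 4 × Fin 4 =>
      s i.1 + (ga 9 • s i.2.1 + ga 9 • ga 9 • s i.2.2)) fun v => by
        obtain ⟨t, ht, e⟩ := T v
        obtain ⟨i, hi⟩ := hs (fp_nn (o3 10) v)
        obtain ⟨j, hj⟩ := hs (p31 (p23 (fp_nn (o3 11) v)))
        obtain ⟨k, hk⟩ := hs (p31 (fp_nn (o3 12) v))
        refine ⟨(i, j, k), ?_⟩
        have : t = 0 := by_contra fun h => hc t h ht.1 ht.2.1 ht.2.2
        rw [this, zero_add] at e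
        simp only [hi, hj, hk, p3]
        exact e.symm
    rw [H.card] at this
    simp at this
  have cx : ∀ t : V, (ga 10 • t = t ∧ ga 11 • t = t ∧ ga 12 • t = t) →
      ga 10 • ga 1 • t = ga 1 • t ∧ ga 11 • ga 1 • t = ga 1 • t ∧ ga 12 • ga 1 • t = ga 1 • t :=
    fun t h => ⟨by rw [iv 10 1, h.1, h.1], by rw [cm 11 1, h.2.1], by rw [cm 12 1, h.2.2]⟩
  obtain ⟨t1, t0, h1, tx⟩ := nrm2 (A := fun t : V => ga 10 • t = t ∧ ga 11 • t = t ∧ ga 12 • t = t)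
    (x := ga 1) (fun _ _ h k => by simp only [smul_add, h.1, h.2.1, h.2.2, k.1, k.2.1, k.2.2, and_self])
    cx (o2 1) ht t0
  obtain ⟨t2, h2, B12⟩ : ∃ t2 : V, (ga 10 • t2 = t2 ∧ ga 11 • t2 = t2 ∧ ga 12 • t2 = t2) ∧
      Bf q t1 t2 = 1 := by
    obtain ⟨v, hv⟩ : ∃ v, Bf q t1 v ≠ 0 := by_contra fun h => t0 (H.nd _ (by simpa using h))
    obtain ⟨t, ht, e⟩ := T v
    refine ⟨t, ht, (z2 _).resolve_left fun e0 => hv ?_⟩
    rw [e, H.add', H.add', H.add', e0, Bf_comm, H.orth (fp_nn (o3 10) v) h1.1, Bf_comm,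
      H.orth (fp_nn (o3 11) v) h1.2.1, Bf_comm, H.orth (fp_nn (o3 12) v) h1.2.2]
    rfl
  let b : ℕ → V := fun k => [w, ga 10 • w, ga 9 • w, ga 9 • ga 10 • w, ga 9 • ga 9 • w,
    ga 9 • ga 9 • ga 10 • w, t1, t2].getD k 0
  have ob : ∀ t : V, (ga 10 • t = t ∧ ga 11 • t = t ∧ ga 12 • t = t) → ∀ k < 6, Bf q (b k) t = 0 :=
    fun t h k hk => by
      interval_cases k
      exacts [H.orth w1 h.1, H.orth w2 h.1, H.orth (p12 w1) h.2.1, H.orth (p12 w2) h.2.1,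
        H.orth (p23 (p12 w1)) h.2.2, H.orth (p23 (p12 w2)) h.2.2]
  have B01 : Bf q w (ga 10 • w) = 1 := by rw [H.plane w1, q1]
  have hG : Gr q b := by
    have k : ∀ i < 8, ∀ j < 8, i < j → Bf q (b i) (b j) = if j = i ^^^ 1 then 1 else 0 := by
      intro i hi j hj hij
      interval_cases j <;> interval_cases i
      exacts [B01, H.orth w1 (x21 (p12 w1)), H.orth w2 (x21 (p12 w1)),
        H.orth w1 (x21 (p12 w2)), H.orth w2 (x21 (p12 w2)), (H.Binv _ _ _).trans B01,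
        H.orth w1 (x31 (p23 (p12 w1))), H.orth w2 (x31 (p23 (p12 w1))),
        H.orth (p12 w1) (x32 (p23 (p12 w1))), H.orth (p12 w2) (x32 (p23 (p12 w1))),
        H.orth w1 (x31 (p23 (p12 w2))), H.orth w2 (x31 (p23 (p12 w2))),
        H.orth (p12 w1) (x32 (p23 (p12 w2))), H.orth (p12 w2) (x32 (p23 (p12 w2))),
        (H.Binv _ _ _).trans ((H.Binv _ _ _).trans B01),
        ob t1 h1 0 (by norm_num), ob t1 h1 1 (by norm_num), ob t1 h1 2 (by norm_num),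
        ob t1 h1 3 (by norm_num), ob t1 h1 4 (by norm_num), ob t1 h1 5 (by norm_num),
        ob t2 h2 0 (by norm_num), ob t2 h2 1 (by norm_num), ob t2 h2 2 (by norm_num),
        ob t2 h2 3 (by norm_num), ob t2 h2 4 (by norm_num), ob t2 h2 5 (by norm_num), B12]
    intro i hi j hj
    rcases lt_trichotomy i j with h | rfl | h
    · exact k i hi j hj h
    · rw [H.self, if_neg ((by decide : ∀ i < 8, ¬ i = i ^^^ 1) i hi)]
    · rw [Bf_comm, k j hj i hi h]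
      exact if_congr ((by decide : ∀ i < 8, ∀ j < 8, i = j ^^^ 1 ↔ j = i ^^^ 1) i hi j hj) rfl rfl
  have hi := H.inj hG
  have v6 : vec b 64 = t1 := vec_pow b (k := 6) (by norm_num)
  have v7 : vec b 128 = t2 := vec_pow b (k := 7) (by norm_num)
  obtain ⟨t, ht, et⟩ : ∃ t, (t = 0 ∨ t = 64) ∧ ga 1 • t2 = t2 + vec b t := by
    obtain ⟨γ, l, e⟩ := hi.surj H.card (ga 1 • t2)
    have k : ∀ γ < 256, (∀ k < 6, (B0 (2 ^ k) γ : ZMod 2) = 0) → (B0 64 γ : ZMod 2) = 1 →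
        ∃ t, (t = 0 ∨ t = 64) ∧ γ = 128 ^^^ t := by
      have : ∀ γ < 256, (∀ k < 6, (B0 (2 ^ k) γ : ZMod 2) = 0) → (B0 64 γ : ZMod 2) = 1 →
        γ = 128 ^^^ 0 ∨ γ = 128 ^^^ 64 := by decide +kernel
      intro γ a b c
      rcases this γ a b c with e | e
      exacts [⟨0, Or.inl rfl, e⟩, ⟨64, Or.inr rfl, e⟩]
    obtain ⟨t, ht, e'⟩ := k γ l
      (fun k hk => by rw [← H.B_vec hG, vec_pow b (by omega), e, ob _ (cx _ h2) k hk])
      (by rw [← H.B_vec hG, v6, e, ← tx, H.Binv, B12])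
    exact ⟨t, ht, by rw [← e, e', vec_xor, v7]⟩
  have ft : ga 10 • vec b t = vec b t ∧ ga 11 • vec b t = vec b t ∧ ga 12 • vec b t = vec b t := by
    rcases ht with rfl | rfl
    · simp only [vec_zero, smul_zero, and_self]
    · exact v6 ▸ h1
  have y5 := triv (ga 5) (cm 10 5) (cm 1 5)
  have y3 := triv (ga 3) (cm 10 3) (cm 1 3)
  have c5 : ∀ v : V, ga 1 • ga 9 • v = ga 9 • ga 5 • v := cj 1 9 5
  have c3 : ∀ v : V, ga 5 • ga 9 • v = ga 9 • ga 3 • v := cj 5 9 3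
  have k1 : Tv q (ga 1) (b 0) (vec b t) := fun v => by
    obtain ⟨c, -, rfl⟩ := hi.surj H.card v
    refine vec_ind (A := fun v => ga 1 • v = v + Bf q v (b 0) • b 0 + Bf q v (vec b t) • vec b t)
      (by simp only [smul_zero, Bf_comm (0 : V), H.zero, zero_smul, add_zero])
      (fun u v h k => by rw [smul_add, h, k, H.add, H.add, add_smul, add_smul]; abel) (fun k hk => ?_) c
    rw [hG k hk 0 (by norm_num)]
    by_cases h6 : k < 6
    · rw [ob _ ft k h6, zero_smul, add_zero]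
      interval_cases k
      · simpa [b] using wx
      · simpa [b, add_comm] using xd
      · simpa [b] using (c5 w).trans (by rw [y5])
      · simpa [b] using (c5 (ga 10 • w)).trans (by rw [← cm 10 5, y5])
      · simpa [b] using (c5 (ga 9 • w)).trans (by rw [c3, y3])
      · simpa [b] using (c5 (ga 9 • ga 10 • w)).trans (by rw [c3, ← cm 10 3, y3])
    · have : k = 6 ∨ k = 7 := by omega
      rcases ht with rfl | rfl <;> rcases this with rfl | rfl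
      · simpa [b, vec_zero] using tx
      · simpa [b, vec_zero] using et
      · rw [v6, show b 6 = t1 from rfl, H.self]
        simpa using tx
      · rw [v6, show b 7 = t2 from rfl, Bf_comm, B12, et, v6]
        simp
  refine H.nat2 hG (fun i hi => ?_) (ht.imp_right ?_) k1 rfl rfl rfl rfl rfl ft.1
    (ob _ ⟨by rw [cj 10 9 12, ft.2.2], by rw [cj 11 9 10, ft.1], by rw [cj 12 9 11, ft.2.1]⟩) ft.2.2 (x13 w1)
  · interval_cases i <;> simp only [b, List.getD_cons_succ, List.getD_cons_zero, H.inv, q1]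
  · rintro rfl
    refine ⟨rfl, ?_⟩
    have := H.inv (ga 1) t2
    rw [et, v6, H.qadd, Bf_comm, B12] at this
    change q t1 = 1
    revert this
    generalize q t1 = a, q t2 = c
    revert a c
    decide

theorem Md.classify (H : Md q) : Out q := by
  by_cases h : ∀ v : V, Fp (ga 10) v → Fp (ga 11) v → Fp (ga 12) v → v = 0
  · exact H.nat h
  · push Not at h
    obtain ⟨v, h1, h2, h3, h0⟩ := h
    exact H.spin h0 h1 h2 h3

end Cfsg.Co2.R
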