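import Cfsg.Agent.Co2.R1

/-! The symplectic group has no normal subgroup of odd order. -/

set_option autoImplicit false
set_option maxRecDepth 100000

namespace Cfsg.Co2.R

open Cfsg.H6 Cfsg.Co.Rc
open Cfsg.Co3G (Sp evM I6 dec mu mu_inj bS gen_Sp X7)

def TW : List (List ℕ) := [[1], [2], [3], [4], [5], [6], [7], [8], [2, 1, 2], [7, 2, 7], [4, 3, 4], [7, 4, 7], [8, 4, 8], [6, 5, 6], [8, 6, 8], [7, 2, 1, 2, 7], [4, 7, 2, 7, 4], [7, 4, 3, 4, 7], [8, 4, 3, 4, 8], [8, 7, 4, 7, 8], [6, 8, 4, 8, 6], [8, 6, 5, 6, 8], [4, 7, 2, 1, 2, 7, 4], [3, 4, 7, 2, 7, 4, 3], [8, 4, 7, 2, 7, 4, 8], [8, 7, 4, 3, 4, 7, 8], [6, 8, 4, 3, 4, 8, 6], [6, 8, 7, 4, 7, 8, 6], [5, 6, 8, 4, 8, 6, 5], [3, 4, 7, 2, 1, 2, 7, 4, 3], [8, 4, 7, 2, 1, 2, 7, 4, 8], [8, 3, 4, 7, 2, 7, 4, 3, 8], [6, 8, 4, 7, 2, 7, 4, 8, 6], [4, 8, 7, 4, 3, 4, 7, 8, 4], [6, 8, 7, 4, 3, 4, 7, 8,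 6], [5, 6, 8, 4, 3, 4, 8, 6, 5], [5, 6, 8, 7, 4, 7, 8, 6, 5], [8, 3, 4, 7, 2, 1, 2, 7, 4, 3, 8], [6, 8, 4, 7, 2, 1, 2, 7, 4, 8, 6], [4, 8, 3, 4, 7, 2, 7, 4, 3, 8, 4], [6, 8, 3, 4, 7, 2, 7, 4, 3, 8, 6], [5, 6, 8, 4, 7, 2, 7, 4, 8, 6, 5], [6, 4, 8, 7, 4, 3, 4, 7, 8, 4, 6], [5, 6, 8, 7, 4, 3, 4, 7, 8, 6, 5], [4, 8, 3, 4, 7, 2, 1, 2, 7, 4, 3, 8, 4], [6, 8, 3, 4, 7, 2, 1, 2, 7, 4, 3, 8, 6], [5, 6, 8, 4, 7, 2, 1, 2, 7, 4, 8, 6, 5], [6, 4, 8, 3, 4, 7, 2, 7, 4, 3, 8, 4, 6], [7, 4, 8, 3, 4, 7, 2, 7, 4, 3, 8, 4, 7], [5, 6, 8, 3, 4, 7, 2, 7, 4, 3, 8, 6, 5], [5, 6, 4, 8, 7, 4, 3, 4, 7, 8, 4, 6, 5], [8, 6, 4, 8, 7, 4, 3, 4, 7, 8, 4, 6, 8], [6, 4, 8, 3, 4, 7, 2, 1, 2, 7, 4, 3, 8, 4, 6], [7, 4, 8, 3, 4, 7, 2, 1, 2, 7, 4, 3, 8, 4, 7], [5, 6, 8, 3, 4, 7, 2, 1, 2, 7, 4, 3, 8, 6, 5], [5, 6, 4, 8, 3, 4, 7, 2, 7, 4, 3, 8, 4, 6, 5], [7, 6, 4, 8, 3, 4, 7, 2,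 7, 4, 3, 8, 4, 6, 7], [8, 6, 4, 8, 3, 4, 7, 2, 7, 4, 3, 8, 4, 6, 8], [8, 5, 6, 4, 8, 7, 4, 3, 4, 7, 8, 4, 6, 5, 8], [5, 6, 4, 8, 3, 4, 7, 2, 1, 2, 7, 4, 3, 8, 4, 6, 5], [7, 6, 4, 8, 3, 4, 7, 2, 1, 2, 7, 4, 3, 8, 4, 6, 7], [8, 6, 4, 8, 3, 4, 7, 2, 1, 2, 7, 4, 3, 8, 4, 6, 8], [2, 7, 4, 8, 3, 4, 7, 2, 1, 2, 7, 4, 3, 8, 4, 7, 2]]

def CT : List (List ℕ) := [[0, 0, 8, 0, 0, 0, 0, 0, 0], [0, 8, 1, 1, 1, 1, 1, 9, 1], [0, 2, 2, 2, 10, 2, 2, 2, 2], [0, 3, 3, 10, 3, 3, 3, 11, 12], [0, 4, 4, 4, 4, 4, 13, 4, 4], [0, 5, 5, 5, 5, 13, 5, 5, 14], [0, 6, 9, 6, 11, 6, 6, 6, 6], [0, 7, 7, 7, 12, 7, 14, 7, 7], [0, 1, 0, 8, 8, 8, 8, 15, 8], [0, 15, 6, 9, 16, 9, 9, 1, 9], [0, 10, 10, 3, 2, 10, 10, 17, 18], [0, 11, 16, 17, 6, 11, 11, 3, 19], [0, 12, 12, 18, 7, 12, 20, 19, 3], [0, 13, 13, 13, 13, 5, 4, 13, 21], [0, 14, 14, 14, 20, 21, 7, 14, 5], [0, 9, 15, 15,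 22, 15, 15, 8, 15], [0, 22, 11, 23, 9, 16, 16, 16, 24], [0, 17, 23, 11, 17, 17, 17, 10, 25], [0, 18, 18, 12, 18, 18, 26, 25, 10], [0, 19, 24, 25, 19, 19, 27, 12, 11], [0, 20, 20, 26, 14, 28, 12, 27, 20], [0, 21, 21, 21, 28, 14, 21, 21, 13], [0, 16, 22, 29, 15, 22, 22, 22, 30], [0, 29, 17, 16, 23, 23, 23, 23, 31], [0, 30, 19, 31, 24, 24, 32, 24, 16], [0, 25, 31, 19, 33, 25, 34, 18, 17], [0, 26, 26, 20, 26, 35, 18, 34, 26], [0, 27, 32, 34, 27, 36, 19, 20, 27], [0, 28, 28, 35, 21, 20, 28, 36, 28], [0, 23, 29, 22, 29, 29, 29, 29, 37], [0, 24, 30, 37, 30, 30, 38, 30, 22], [0, 37, 25, 24, 39, 31, 40, 31, 23], [0, 38, 27, 40, 32, 41, 24, 32, 32], [0, 33, 39, 33, 25, 33, 42, 33, 33], [0, 34, 40, 27, 42, 43, 25, 26, 34], [0, 35, 35, 28, 35, 26, 35, 43, 35], [0, 36, 41, 43, 36, 27, 36, 28, 36], [0, 31, 37, 30, 44, 37, 45, 37, 29], [0, 32, 38, 45,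 38, 46, 30, 38, 38], [0, 44, 33, 39, 31, 39, 47, 48, 39], [0, 45, 34, 32, 47, 49, 31, 40, 40], [0, 46, 36, 49, 41, 32, 41, 41, 41], [0, 42, 47, 42, 34, 50, 33, 42, 51], [0, 43, 49, 36, 50, 34, 43, 35, 43], [0, 39, 44, 44, 37, 44, 52, 53, 44], [0, 40, 45, 38, 52, 54, 37, 45, 45], [0, 41, 46, 54, 46, 38, 46, 46, 46], [0, 52, 42, 47, 40, 55, 39, 56, 57], [0, 53, 48, 48, 48, 48, 56, 39, 48], [0, 54, 43, 41, 55, 40, 49, 49, 49], [0, 50, 55, 50, 43, 42, 50, 50, 58], [0, 51, 57, 51, 51, 58, 51, 51, 42], [0, 47, 52, 52, 45, 59, 44, 60, 61], [0, 48, 62, 53, 53, 53, 60, 44, 53], [0, 49, 54, 46, 59, 45, 54, 54, 54], [0, 59, 50, 55, 49, 47, 55, 61, 60], [0, 60, 56, 56, 56, 61, 48, 47, 59], [0, 61, 51, 57, 57, 60, 57, 59, 47], [0, 58, 60, 58, 58, 51, 62, 58, 50], [0, 55, 59, 59, 54, 52, 59, 57, 56], [0, 56, 58, 60, 60, 57, 53, 52, 55], [0, 57, 61,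 61, 61, 56, 61, 55, 52], [0, 62, 53, 62, 62, 62, 58, 62, 62]]

theorem hCT : ∀ x < 63, ∀ a < 9, a = 0 ∨ (nthN (nthW CT x) a < 63 ∧
    chk (a :: nthW TW x) (nthW TW (nthN (nthW CT x) a) ++ [a]) = true) := by decide +kernel

theorem hTW : ∀ x < 63, x = 0 ∨ ∃ E ∈ [nthW TW x ++ [1], (nthW TW x ++ [1]) ++ [2] ++ (nthW TW x ++ [1]) ++ [2],
    (nthW TW x ++ [1]) ++ [7] ++ (nthW TW x ++ [1]) ++ [7]],
    chk (E ++ E) [] = true ∧ inR 18 E = true ∧ ∃ b ∈ bS, dec (trF imA E b) ≠ dec b := by decide +kernel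

theorem conj_tw (g : Sp) : ∀ x < 63, ∃ y < 63, g * evL ga (nthW TW x) * g⁻¹ = evL ga (nthW TW y) := by
  have m : ∀ g h : Sp, (∀ x < 63, ∃ y < 63, g * evL ga (nthW TW x) * g⁻¹ = evL ga (nthW TW y)) →
      (∀ x < 63, ∃ y < 63, h * evL ga (nthW TW x) * h⁻¹ = evL ga (nthW TW y)) →
      ∀ x < 63, ∃ y < 63, g * h * evL ga (nthW TW x) * (g * h)⁻¹ = evL ga (nthW TW y) := by
    intro g h a b x hx
    obtain ⟨y, hy, e⟩ := b x hx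
    obtain ⟨u, hu, e'⟩ := a y hy
    exact ⟨u, hu, by rw [← e', ← e]; group⟩
  have k : ∀ w : List ℕ, (∀ a ∈ w, 1 ≤ a ∧ a < 9) →
      ∀ x < 63, ∃ y < 63, evL ga w * evL ga (nthW TW x) * (evL ga w)⁻¹ = evL ga (nthW TW y) := by
    intro w hw
    induction w with
    | nil => exact fun x hx => ⟨x, hx, by simp [evL_nil]⟩
    | cons a w ih =>
      obtain ⟨h1, h2⟩ := List.forall_mem_cons.mp hw
      rw [evL_cons]
      refine m _ _ (fun x hx => ?_) (ih h2)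
      obtain ⟨h3, h4⟩ := (hCT x hx a h1.2).resolve_left (by omega)
      refine ⟨_, h3, mul_inv_eq_iff_eq_mul.mpr ?_⟩
      rw [← evL_cons, og h4, evL_append, evL_singleton]
  have e : ∀ w ∈ X7, ∃ l < 16, 1 ≤ l ∧ w = [l] ∧ (∀ a ∈ UL.getD l [], 1 ≤ a ∧ a < 9) ∧
      chk (UL.getD l [] ++ UL.getD l []) [] = true := by decide +kernel
  have hg : g ∈ gen evM X7 := gen_Sp ▸ Subgroup.mem_top g
  induction hg using Subgroup.closure_induction'' with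
  | mem g hg =>
    obtain ⟨w, hw, rfl⟩ := hg
    obtain ⟨l, h1, h2, rfl, h3, -⟩ := e w hw
    rw [evL_singleton, evM_eq h2 h1]
    exact k _ h3
  | inv_mem g hg =>
    obtain ⟨w, hw, rfl⟩ := hg
    obtain ⟨l, h1, h2, rfl, h3, h4⟩ := e w hw
    have := og h4
    rw [evL_append, evL_nil] at this
    rw [evL_singleton, evM_eq h2 h1, inv_eq_of_mul_eq_one_right this]
    exact k _ h3
  | one => exact fun x hx => ⟨x, hx, by simp⟩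
  | mul g h _ _ a b => exact m g h a b

theorem odd_normal (N : Subgroup Sp) [hN : N.Normal] (h : (Nat.card N).Coprime 2) : N = ⊥ := by
  have k2 : ∀ e ∈ N, e * e = 1 → e = 1 := fun e he h2 => orderOf_eq_one_iff.mp
    (Nat.eq_one_of_dvd_coprimes h (N.orderOf_dvd_natCard he) (orderOf_dvd_of_pow_eq_one (by rwa [pow_two])))
  have sq : ∀ a, chk [a, a] [] = true → (ga a)⁻¹ = ga a := fun a c => by
    have := og c
    simp only [evL_cons, evL_nil, mul_one] at this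
    exact inv_eq_of_mul_eq_one_right this
  have k1 : ∀ n ∈ N, n * ga 1 * n⁻¹ = ga 1 := fun n hn => by
    obtain ⟨x, hx, e⟩ := conj_tw n 0 (by norm_num)
    rw [show nthW TW 0 = [1] from rfl, evL_singleton] at e
    have hm : evL ga (nthW TW x ++ [1]) ∈ N := by
      rw [evL_append, evL_singleton, ← e, mul_assoc, mul_assoc, ← mul_assoc (ga 1)]
      refine N.mul_mem hn ?_
      have := hN.conj_mem _ (N.inv_mem hn) (ga 1)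
      rwa [sq 1 (by decide +kernel)] at this
    rcases hTW x hx with rfl | ⟨E, hE, c1, c2, b, -, c3⟩
    · exact e.trans (evL_singleton _ _)
    have hE' : evL ga E ∈ N := by
      generalize nthW TW x ++ [1] = m at hE hm
      have c : ∀ a, chk [a, a] [] = true → evL ga (m ++ [a] ++ m ++ [a]) ∈ N := fun a c => by
        have := N.mul_mem hm (hN.conj_mem _ hm (ga a))
        rw [sq a c] at this
        simpa only [evL_append, evL_singleton, mul_assoc] using this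
      simp only [List.mem_cons, List.not_mem_nil, or_false] at hE
      rcases hE with rfl | rfl | rfl
      exacts [hm, c 2 (by decide +kernel), c 7 (by decide +kernel)]
    have := k2 _ hE' (by rw [← evL_append, og c1, evL_nil])
    rw [hactA.tr hμA c2, this, map_one, Matrix.vecMul_one] at c3
    exact absurd rfl c3
  refine eq_bot_iff.mpr fun n hn => ?_
  have k3 : ∀ a : I6, ∃ a' : I6, ∃ x < 7, 1 ≤ x ∧ matEq (matA x) (1 + Matrix.single a' a 1) = true ∧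
      ∃ w ∈ [[], [10], [9], [9, 10], [9, 9], [9, 9, 10]], chk (x :: w) (w ++ [1]) = true := by
    decide +kernel
  have k4 : ∀ a b : I6, b ≠ a → mu n a b = 0 := fun a b hb => by
    obtain ⟨a', x, x1, x2, c, w, -, e⟩ := k3 a
    have e1 := og e
    rw [evL_cons, evL_append, evL_singleton] at e1
    have e2 := k1 _ (hN.conj_mem' n hn (evL ga w))
    have e3 : n * ga x = ga x * n := by
      rw [eq_mul_inv_of_mul_eq e1]
      nth_rewrite 2 [← e2]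
      group
    have e4 := congrArg mu e3
    rw [map_mul, map_mul, hμA x x2 (by omega), eq_of_matEq c, mul_add, add_mul, mul_one, one_mul,
      add_right_inj] at e4
    have e5 := congrFun (congrFun e4 a') b
    rw [Matrix.mul_single_apply_of_ne _ _ _ _ _ hb, Matrix.single_mul_apply_same, one_mul] at e5
    exact e5.symm
  apply mu_inj
  ext a b
  by_cases hb : b = a
  · subst hb
    have e : (mu n * mu n⁻¹) b b = 1 := by rw [← map_mul, mul_inv_cancel, map_one, Matrix.one_apply_eq]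
    rw [Matrix.mul_apply, Finset.sum_eq_single b (fun c _ hc => by rw [k4 b c hc, zero_mul]) (by simp)] at e
    rw [map_one, Matrix.one_apply_eq]
    exact (z2 _).resolve_left fun e0 => by simp [e0] at e
  · rw [k4 a b hb, map_one, Matrix.one_apply_ne' hb]

end Cfsg.Co2.R
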