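import Cfsg.Agent.Co2.R3
import Cfsg.Agent.Co2.R4
import Cfsg.Agent.L0.Class2
import Cfsg.Agent.L0.Subnormal
import Cfsg.Agent.H7.Core
import Cfsg.Prelude.Def_CaseTheorems
import Cfsg.Prelude.Def_Local

/-! Existence of charts. -/

set_option autoImplicit false
set_option maxRecDepth 100000

namespace Cfsg.Co2

open Subgroup Cfsg.H6 Cfsg.Co.Rc
open Cfsg.Co3G (Sp evM card_Sp)

variable {G : Type*} [Group G] [Finite G]

theorem es_of {z : G} (hz : orderOf z = 2) (Q : Subgroup (centralizer ({z} : Set G))) [hn : Q.Normal]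
    (h2 : centralizer (Q : Set (centralizer ({z} : Set G))) ≤ Q) (hQ : IsExtraspecial 2 Q)
    (hc : Nat.card Q = 2 ^ 9) (e : (centralizer ({z} : Set G)) ⧸ Q ≃* Sp) :
    ES z (Q.map (centralizer ({z} : Set G)).subtype) := by
  have z1 : z ≠ 1 := by rintro rfl; simp at hz
  have zz : z * z = 1 := by rw [← pow_two, ← hz, pow_orderOf_eq_one]
  let z0 : centralizer ({z} : Set G) := ⟨z, mem_cen.mpr rfl⟩
  have hzc : ∀ g, g * z0 = z0 * g := fun g => Subtype.ext (mem_cen.mp g.2)
  have zQ : z0 ∈ Q := h2 fun q _ => hzc q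
  obtain ⟨z', h1, h2', h3⟩ := L0.es_two_center hQ
  have hz' : z' = ⟨z0, zQ⟩ := by
    rcases (h3 ⟨z0, zQ⟩).mp (mem_center_iff.mpr fun g => Subtype.ext (hzc g)) with h | h
    · exact absurd (congrArg (fun x : Q => x.1.1) h) z1
    · exact h.symm
  subst hz'
  have key : ∀ x : Q, x ∈ center Q → x.1.1 = 1 ∨ x.1.1 = z := fun x hx =>
    ((h3 x).mp hx).imp (congrArg fun x : Q => x.1.1) (congrArg fun x : Q => x.1.1)
  refine ⟨z1, zz, ⟨z0, zQ, rfl⟩, ?_, ?_, ?_, ?_, ?_, ?_, ?_⟩
  · rintro _ ⟨q, -, rfl⟩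
    exact mem_cen.mp q.2
  · rintro c hc _ ⟨q, hq, rfl⟩
    exact ⟨_, hn.conj_mem q hq ⟨c, mem_cen.mpr hc⟩, rfl⟩
  · intro c hc h
    have hgQ : (⟨c, mem_cen.mpr hc⟩ : centralizer ({z} : Set G)) ∈ Q :=
      h2 fun q hq => Subtype.ext (h _ ⟨q, hq, rfl⟩).symm
    exact key ⟨_, hgQ⟩ (mem_center_iff.mpr fun q =>
      Subtype.ext (Subtype.ext (h _ ⟨q, q.2, rfl⟩).symm))
  · rintro _ ⟨p, hp, rfl⟩ _ ⟨q, hq, rfl⟩
    have := key _ (L0.comm_mem_center (L0.es_le hQ) ⟨q, hq⟩ ⟨p, hp⟩)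
    simp only [commutatorElement_def, coe_mul, coe_inv] at this
    change q.1 * p.1 = p.1 * q.1 ∨ q.1 * p.1 = z * (p.1 * q.1)
    rcases this with h | h
    · left
      calc q.1 * p.1 = (q.1 * p.1 * q.1⁻¹ * p.1⁻¹) * (p.1 * q.1) := by group
        _ = p.1 * q.1 := by rw [h, one_mul]
    · right
      calc q.1 * p.1 = (q.1 * p.1 * q.1⁻¹ * p.1⁻¹) * (p.1 * q.1) := by group
        _ = z * (p.1 * q.1) := by rw [h]
  · rintro _ ⟨q, hq, rfl⟩
    have : Fact (Nat.Prime 2) := ⟨Nat.prime_two⟩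
    have := key _ (L0.es_pow_mem hQ ⟨q, hq⟩)
    simpa [pow_two] using this
  · rw [card_subtype, hc]; rfl
  · rw [card_eq_card_quotient_mul_card_subgroup Q, Nat.card_congr e.toEquiv, card_Sp, hc]
    rfl

variable {z : G} {Q : Subgroup G} {m : Bool} {a : ℕ → G}

/-- The commutator of two elements of `Q` from the quadratic form. -/
theorem comm_co (E : ES z Q) (F : Fr z Q m a) {p q : G} (hp : p ∈ Q) (hq : q ∈ Q) :
    q * p = if qf m (co a p ^^^ co a q) = xor (qf m (co a p)) (qf m (co a q)) then p * q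
      else z * (p * q) := by
  have h1 := sq_co E F hp
  have h2 := sq_co E F hq
  have h3 := sq_co E F (Q.mul_mem hp hq)
  rw [co_mul E F hp hq] at h3
  have a1 := E.z1
  have a2 := E.zz
  rcases E.comm p hp q hq with e | e
  · have : p * q * (p * q) = p * p * (q * q) := by rw [mul_assoc, ← mul_assoc q, e]; group
    rw [this, h1, h2] at h3
    rw [if_pos, e]
    revert h3
    cases qf m (co a p) <;> cases qf m (co a q) <;> cases qf m (co a p ^^^ co a q) <;>
      simp [a1, a1.symm, a2]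
  · rw [E.sq_mul hp e, h1, h2] at h3
    rw [if_neg, e]
    revert h3
    cases qf m (co a p) <;> cases qf m (co a q) <;> cases qf m (co a p ^^^ co a q) <;>
      simp [a1, a1.symm, a2]

/-- The vectors with the action of the symplectic group. -/
def VV {m : Bool} (_r : Sp →* OG m) : Type := Fin 256

variable {r : Sp →* OG m}

instance : Add (VV r) := ⟨xo⟩
instance : Zero (VV r) := ⟨(0 : Fin 256)⟩
instance : Neg (VV r) := ⟨id⟩

instance : AddCommGroup (VV r) where
  add_assoc u v w := Fin.ext (Nat.xor_assoc _ _ _)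
  zero_add u := Fin.ext (Nat.zero_xor _)
  add_zero u := Fin.ext (Nat.xor_zero _)
  add_comm u v := Fin.ext (Nat.xor_comm _ _)
  neg_add_cancel u := Fin.ext (Nat.xor_self _)
  nsmul := nsmulRec
  zsmul := zsmulRec

instance : Module (ZMod 2) (VV r) :=
  AddCommGroup.zmodModule fun v => (two_nsmul v).trans (Fin.ext (Nat.xor_self _))

instance : DistribMulAction Sp (VV r) where
  smul g v := (r g).1 v
  one_smul v := by change (r 1).1 v = v; rw [map_one]; rfl
  mul_smul g h v := by change (r (g * h)).1 v = _; rw [map_mul]; rfl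
  smul_zero g := OG_zero (r g).2
  smul_add g u v := (r g).2.1 u v

/-- The quadratic form with values in the field. -/
def qz (m : Bool) (v : ℕ) : ZMod 2 := if qf m v = true then 1 else 0

theorem qz_B : ∀ m, allR (fun u => allR (fun w => Nat.beq (cond (xor (xor (qf m (Nat.xor u w)) (qf m u)) (qf m w)) 1 0)
    (Nat.mod (xv (fun k => Nat.shiftRight w (pr k)) u 8) 2)) 0 256) 0 256 = true := by
  decide +kernel

theorem Bf_eq (u w : VV r) : R.Bf (V := VV r) (fun v => qz m v.1) u w =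
    (xv (fun k => Nat.shiftRight w.1 (pr k)) u.1 8 : ℕ) := by
  have := Nat.eq_of_beq_eq_true (allR_range (allR_range (qz_B m) rfl u.1 (Nat.zero_le _) u.2) rfl w.1
    (Nat.zero_le _) w.2)
  rw [← ZMod.natCast_mod, show _ % 2 = _ from this.symm]
  change qz m (Nat.xor u.1 w.1) + qz m u.1 + qz m w.1 = _
  unfold qz
  cases qf m (Nat.xor u.1 w.1) <;> cases qf m u.1 <;> cases qf m w.1 <;> decide

theorem md (hr : Function.Injective r) : R.Md (V := VV r) fun v => qz m v.1 where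
  card := Nat.card_fin 256
  add u v w := by
    rw [Bf_eq, Bf_eq, Bf_eq, ← R.cast_xor, ← xv_xor]
    rfl
  q0 := (by decide +kernel : ∀ m, qz m 0 = 0) m
  inv g v := congrArg (fun b => if b = true then (1 : ZMod 2) else 0) ((r g).2.2 v)
  nd u h := by
    have k : ∀ u < 256, (∀ j < 8, ((xv (fun k => Nat.shiftRight (fv (2 ^ j)).1 (pr k)) u 8 : ℕ) : ZMod 2) = 0) →
        u = 0 := by decide +kernel
    exact Fin.ext (k u.1 u.2 fun j _ => (Bf_eq u (fv (2 ^ j))).symm.trans (h _))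
  fa := by
    by_contra h
    push Not at h
    have h1 : R.ga 10 = 1 := hr (by rw [map_one]; exact Subtype.ext (Equiv.ext h))
    have h2 := R.hμA 10 (by norm_num) (by norm_num)
    rw [h1, map_one] at h2
    exact absurd h2 (by decide +kernel)

theorem exists_ch (E : ES z Q) (π : centralizer ({z} : Set G) →* Sp) (hs : Function.Surjective π)
    (hk : ∀ c, π c = 1 ↔ c.1 ∈ Q) : ∃ μ < 3, ∃ a, Ch μ z Q a π := by
  obtain ⟨x, hx, n1, xz, xx⟩ := Gd.inv E
    (⟨le_rfl, E.zQ, fun s hs h => E.cen s (E.qz s hs) h, by rw [E.card]; norm_num⟩ : Gd z Q Q 12)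
  obtain ⟨m, a, F, -⟩ := E.exists_fr hx n1 xz xx
  let ρ : centralizer ({z} : Set G) →* OG m := (rho E F).codRestrict _ (rho_mem E F)
  have hρ : ∀ c, ρ c = 1 ↔ c.1 ∈ Q := fun c => by rw [← rho_eq_one E F, Subtype.ext_iff]; rfl
  let r : Sp →* OG m := π.liftOfRightInverse (Function.surjInv hs) (Function.rightInverse_surjInv hs)
    ⟨ρ, fun c hc => (hρ c).mpr ((hk c).mp hc)⟩
  have hr : ∀ c, r (π c) = ρ c := fun c => MonoidHom.liftOfRightInverse_comp_apply _ _ _ _ _
  have hi : Function.Injective r := (injective_iff_map_eq_one r).mpr fun g hg => by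
    obtain ⟨c, rfl⟩ := hs g
    exact (hk c).mpr ((hρ c).mp (hr c ▸ hg))
  obtain ⟨μ, hμ, φ, h1, h2, h3⟩ := (md hi).classify
  have h1' : ∀ u v, (φ (u ^^^ v)).1 = (φ u).1 ^^^ (φ v).1 := fun u v => congrArg Fin.val (h1 u v)
  have h0 : (φ 0).1 = 0 := by have := h1' 0 0; rwa [Nat.xor_self, Nat.xor_self] at this
  have h2' : ∀ c < 256, qf m (φ c).1 = qf (mt μ) c := fun c hc => by
    have : qz m (φ c).1 = _ := h2 c hc
    revert this
    unfold qz
    cases qf m (φ c).1 <;> cases qf (mt μ) c <;> simp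
  let a' : ℕ → G := fun j => evL (fa z a) (bw (φ (2 ^ j)).1)
  have ca : ∀ j, co a (a' j) = (φ (2 ^ j)).1 := fun j => co_bw E F (φ _).2
  have p2 : ∀ j < 8, 2 ^ j < 256 := by decide
  have F' : Fr z Q (mt μ) a' := by
    refine ⟨fun i _ => ev_mem E F _, fun i hi => ?_, fun i hi j hj => ?_⟩
    · rw [sq_co E F (ev_mem E F _), ca, h2' _ (p2 i hi)]
      exact if_congr ((by decide : ∀ m, ∀ i < 8, qf m (2 ^ i) = true ↔ m = true ∧ i % 4 = 3) _ i hi) rfl rfl
    · rw [comm_co E F (ev_mem E F _) (ev_mem E F _), ca, ca, ← h1', h2' _ (p2 i hi), h2' _ (p2 j hj),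
        h2' _ (xor_lt (p2 i hi) (p2 j hj)), ← ite_not]
      exact if_congr ((by decide : ∀ m, ∀ i < 8, ∀ j < 8,
        ¬ qf m (2 ^ i ^^^ 2 ^ j) = xor (qf m (2 ^ i)) (qf m (2 ^ j)) ↔ j = pr i) _ i hi j hj) rfl rfl
  have c1 : ∀ w, co a (evL (fa z a') w) = (φ (xs w)).1 := fun w => by
    induction w with
    | nil => exact co_one.trans h0.symm
    | cons l w ih =>
      rw [evL_cons, co_mul E F (fa_mem E F' l) (ev_mem E F' w), ih, show xs (l :: w) = x1 l ^^^ xs w from rfl,
        h1']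
      congr 1
      unfold fa x1
      split_ifs with e1 e2 e2
      · omega
      · exact (co_z E F).trans h0.symm
      · exact ca _
      · exact co_one.trans h0.symm
  have c2 : ∀ p ∈ Q, co a p = (φ (co a' p)).1 := fun p hp => by
    have := c1 (bw (co a' p))
    rw [xs_bw _ (co_lt _ _)] at this
    rcases nf E F' hp with e | e
    · rw [← this, ← e]
    · rw [← this, ← co_zm E F (ev_mem E F' _), ← e]
  have c3 : ∀ c (v : Fin 256), φ (rho E F' c v) = π c • φ v := fun c v => by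
    refine Fin.ext ?_
    change _ = ((r (π c)).1 (φ v)).1
    rw [hr, rho_val, rc, ← c2 _ (E.nrm _ (mem_cen.mp c.2) _ (ev_mem E F' _)),
      co_conj E F (mem_cen.mp c.2) (ev_mem E F' _), c1, xs_bw _ v.2]
    rfl
  have c4 : ∀ u v : Fin 256, φ u = φ v → u = v := fun u v e => by
    have k : ∀ m, ∀ c < 256, (∀ j < 8, qf m (c ^^^ 2 ^ j) = qf m (2 ^ j)) → qf m c = false → c = 0 := by
      decide +kernel
    have e0 : (φ (u ^^^ v)).1 = 0 := by rw [h1', e, Nat.xor_self]
    have l := xor_lt u.2 v.2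
    refine Fin.ext (Nat.xor_eq_zero_iff.mp (k (mt μ) _ l (fun j hj => ?_) ?_))
    · rw [← h2' _ (xor_lt l (p2 j hj)), h1', e0, Nat.zero_xor, h2' _ (p2 j hj)]
    · rw [← h2' _ l, e0]
      cases m <;> rfl
  have c5 : ∀ w, inR 16 w = true → ∀ v : Fin 256, evL evM w • φ v = φ (evL (MM μ) w v) := fun w hw v => by
    have hw' := inR_spec hw
    clear hw
    induction w with
    | nil => exact one_smul _ _
    | cons l w ih =>
      obtain ⟨a1, a2⟩ := List.forall_mem_cons.mp hw'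
      rw [evL_cons, mul_smul, ih a2, h3 l a1.1 a1.2 _ (Fin.is_lt _), evL_cons, Equiv.Perm.mul_apply,
        MM_apply hμ a1.2]
      exact congrArg φ (Nat.mod_eq_of_lt (invM μ hμ l a1.2 _).2).symm
  exact ⟨μ, hμ, a', hμ, E, F', hs, hk, fun c w hw e =>
    Equiv.ext fun v => c4 _ _ (by rw [c3, e, c5 w hw])⟩

theorem start {t : G} (ht : orderOf t = 2) (hcon : IsPConstrained 2 (centralizer ({t} : Set G)))
    (hQ : IsExtraspecial 2 (pCore 2 (centralizer ({t} : Set G))))
    (hcard : Nat.card (pCore 2 (centralizer ({t} : Set G))) = 2 ^ 9)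
    (e : (centralizer ({t} : Set G)) ⧸ pCore 2 (centralizer ({t} : Set G)) ≃*
      Matrix.symplecticGroup (Fin 3) (ZMod 2)) :
    ∃ Q μ a π, Ch μ t Q a π := by
  have : Fact (Nat.Prime 2) := ⟨Nat.prime_two⟩
  let π : centralizer ({t} : Set G) →* Sp := e.toMonoidHom.comp (QuotientGroup.mk' _)
  have hs : Function.Surjective π := e.surjective.comp (QuotientGroup.mk'_surjective _)
  have hk : ∀ c, π c = 1 ↔ c ∈ pCore 2 (centralizer ({t} : Set G)) := fun c => by
    simp [π, QuotientGroup.eq_one_iff]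
  have hc := L0.coprime_card_pPrimeCore (G := centralizer ({t} : Set G)) 2
  have h1 : pPrimeCore 2 (centralizer ({t} : Set G)) = ⊥ := by
    have : ((pPrimeCore 2 (centralizer ({t} : Set G))).map π).Normal := Normal.map inferInstance π hs
    have h2 := R.odd_normal _ (Nat.Coprime.coprime_dvd_left (card_map_dvd _ π) hc)
    have h3 : pPrimeCore 2 (centralizer ({t} : Set G)) ≤ pCore 2 _ := fun c hc =>
      (hk c).mp (by have := mem_map_of_mem π hc; rwa [h2, mem_bot] at this)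
    have h4 := card_dvd_of_le h3
    rw [hcard] at h4
    exact card_eq_one.mp (Nat.eq_one_of_dvd_coprimes (hc.pow_right 9) dvd_rfl h4)
  have h2 : pPrimePCore 2 (centralizer ({t} : Set G)) = pCore 2 _ :=
    H7.comap_pCore (QuotientGroup.mk'_surjective _) (by
      rw [QuotientGroup.ker_mk', h1]; exact IsPGroup.of_bot)
  have h3 : centralizer (pCore 2 (centralizer ({t} : Set G)) : Set (centralizer ({t} : Set G))) ≤
      pCore 2 _ := by
    obtain ⟨P⟩ : Nonempty (Sylow 2 (pPrimePCore 2 (centralizer ({t} : Set G)))) := inferInstance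
    exact h2 ▸ (centralizer_le (map_subtype_le _)).trans (hcon P)
  obtain ⟨μ, -, a, h⟩ := exists_ch (es_of ht _ h3 hQ hcard e) π hs fun c => (hk c).trans
    ⟨fun h => ⟨c, h, rfl⟩, fun ⟨d, h, e⟩ => (Subtype.ext e : d = c) ▸ h⟩
  exact ⟨_, μ, a, π, h⟩

end Cfsg.Co2
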