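import Cfsg.Agent.Co2.S1

/-! Two obstructions in the symplectic group. -/

set_option autoImplicit false
set_option maxRecDepth 100000
set_option synthInstance.maxSize 4096

namespace Cfsg.Co2

open Subgroup Cfsg.H6 Cfsg.Co.Rc Matrix
open Cfsg.Co3G (Sp imS dec mu labS I6 Dc)

/-- The class of an involution. -/
def Cl (x : Sp) (k : ℕ) : Prop := ∃ y, y * x * y⁻¹ = evL Co3G.evM (rep k)

theorem inR_rep (k : ℕ) : inR 16 (rep k) = true := by
  by_cases h : k < 5
  · interval_cases k <;> rfl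
  · rw [rep, List.getD_eq_default _ _ (by simpa using h)]; rfl

theorem sq_S {g : Sp} {k : ℕ} (h : g * g = evL Co3G.evM (rep k)) {x y : ℕ} (hx : x < 64)
    (hy : y < 64) (e : dec y = dec x ᵥ* mu g) :
    b6 y (trF fS (rep k) y) = b6 x (trF fS (rep k) x) ∧ b6 x y = b6 y (trF fS (rep k) x) := by
  have k1 : ∀ u v : I6 → ZMod 2, ((u ᵥ* mu g) ᵥ* J (Fin 3) (ZMod 2)) ⬝ᵥ (v ᵥ* mu g) =
      (u ᵥ* J (Fin 3) (ZMod 2)) ⬝ᵥ v := fun u v => by
    have e : mu g * J (Fin 3) (ZMod 2) * (mu g)ᵀ = J (Fin 3) (ZMod 2) := g.2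
    rw [← mulVec_transpose (mu g) v, dotProduct_mulVec, vecMul_vecMul, vecMul_vecMul, ← mul_assoc, e]
  have k2 : ∀ a b : Bool, ((if a = true then 1 else 0 : ZMod 2) = if b = true then 1 else 0) →
      a = b := by decide
  have k3 : ∀ a < 64, trF fS (rep k) a < 64 ∧
      dec (trF fS (rep k) a) = dec a ᵥ* mu g ᵥ* mu g := fun a ha => by
    rw [trF_fS (inR_rep k) a ha, vecMul_vecMul, ← map_mul, h]
    exact ⟨(labS.tr (inR_rep k) ha).2, (labS.tr (inR_rep k) ha).1.symm⟩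
  refine ⟨k2 _ _ ?_, k2 _ _ ?_⟩
  · rw [← b6_eq _ hy _ (k3 _ hy).1, ← b6_eq _ hx _ (k3 _ hx).1, (k3 _ hy).2, (k3 _ hx).2, e, k1]
  · rw [← b6_eq _ hx _ hy, ← b6_eq _ hy _ (k3 _ hx).1, (k3 _ hx).2, e, k1]

theorem no_q8 {g g' x : Sp} {k : ℕ} (hk : k = 1 ∨ k = 3) (hx : Cl x k) (h1 : g * g = x)
    (h2 : g' * g' = x) (h3 : g * g' * (g * g') = x) : False := by
  obtain ⟨y, hy⟩ := hx
  have k1 : ∀ {g : Sp}, g * g = x → y * g * y⁻¹ * (y * g * y⁻¹) = evL Co3G.evM (rep k) :=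
    fun h => by rw [conj_mul, h, hy]
  obtain ⟨u, u1, u2⟩ := dec_surj (dec 8 ᵥ* mu (y * g * y⁻¹))
  obtain ⟨v, v1, v2⟩ := dec_surj (dec u ᵥ* mu (y * g' * y⁻¹))
  have a1 := sq_S (k1 h1) (by norm_num) u1 u2
  have a2 := sq_S (k1 h2) u1 v1 v2
  have a3 := sq_S (k1 h3) (by norm_num : 8 < 64) v1
    (by rw [v2, u2, vecMul_vecMul, ← map_mul, conj_mul])
  have : ∀ k ∈ [1, 3], ∀ u < 64, b6 u (trF fS (rep k) u) = b6 8 (trF fS (rep k) 8) ∧
      b6 8 u = b6 u (trF fS (rep k) 8) → ∀ v < 64, b6 v (trF fS (rep k) v) =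
      b6 u (trF fS (rep k) u) ∧ b6 u v = b6 v (trF fS (rep k) u) →
      b6 8 v ≠ b6 v (trF fS (rep k) 8) := by decide +kernel
  exact this k (by simpa using hk) u u1 a1 v v1 a2 a3.2

theorem evL_rev : ∀ w : List ℕ, evL Co3G.evM w.reverse = (evL Co3G.evM w)⁻¹
  | [] => by simp [evL_nil]
  | l :: w => by
    rw [List.reverse_cons, evL_append, evL_rev w, evL_singleton, evL_cons, _root_.mul_inv_rev,
      inv_eq_of_mul_eq_one_right (evM_sq l)]

open Cfsg.H6.Co3.P in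
theorem exists_cover : ∃ θ : Grp →* Sp, Dc θ (ev 15) ∧ ∀ i < 7,
    θ (ev (2 * i + 1)) = Co3G.evM (2 * i + 1) := by
  have o : ∀ {w : List ℕ}, fixB imS 16 Co3G.bS w = true → evL Co3G.evM w = 1 := Co3G.oraM _
  obtain ⟨θ, t1, t2⟩ := Co3G.lift0 (x := fun i => Co3G.evM (2 * i + 1)) (z := 1) (mul_one 1)
    (fun _ _ => evM_sq _) (fun e he => by
      have := o (w := [2 * e.1 + 1, 2 * e.2 + 1, 2 * e.1 + 1] ++ [2 * e.2 + 1, 2 * e.1 + 1,
        2 * e.2 + 1].reverse) (by revert e; decide +kernel)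
      rw [evL_append, evL_rev, mul_inv_eq_one] at this
      simpa [evL_cons, evL_nil, mul_assoc] using this) (fun e he => by
      have := o (w := [2 * e.1 + 1, 2 * e.2.1 + 1, 2 * e.1 + 1, 2 * e.2.1 + 1])
        (by revert e; decide +kernel)
      simpa [evL_cons, evL_nil, mul_assoc, inv_eq_of_mul_eq_one_right (evM_sq _)] using this) (by
      have := Co3G.map_ev0 (π := MonoidHom.id Sp) (x := fun i => Co3G.evM (2 * i + 1))
        (fun _ _ => rfl) (w := [1, 3, 5, 7, 9, 11, 13]) (by decide)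
      rw [MonoidHom.id_apply] at this
      rw [this, ← evL_rp]
      exact o (by decide +kernel))
  have su : θ.range = ⊤ := top_le_iff.mp (Co3G.gen_Sp ▸ gen_le fun w hw => by
    have e : ∀ w ∈ Co3G.X7, ∃ i < 7, w = [2 * i + 1] := by decide
    obtain ⟨i, hi, rfl⟩ := e w hw
    exact ⟨ev (2 * i + 1), by rw [t2 i hi, evL_singleton]⟩)
  have hk : Nat.card θ.ker = 2 := by
    have := θ.ker.card_mul_index
    rw [index_ker, su, card_top, Co3G.card_Sp, card] at this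
    omega
  obtain ⟨y, -, hy⟩ := (Nat.card_eq_two_iff' (1 : θ.ker)).mp hk
  have d1 : ev 15 ≠ 1 := by
    simpa [evL_singleton] using Co3G.ne1_spec (w := [15]) (by decide +kernel)
  refine ⟨θ, ⟨MonoidHom.range_eq_top.mp su, ?_, fun x => (Co3G.cen_t x).eq, fun x hx => ?_, t1⟩, t2⟩
  · simpa [evL_cons, evL_nil] using Co3G.eq1_spec (w := [15, 15]) (by decide +kernel)
  · by_cases c : x = 1
    · exact Or.inl c
    · have a := hy ⟨x, hx⟩ fun e => c (congrArg Subtype.val e)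
      have b := hy ⟨ev 15, t1⟩ fun e => d1 (congrArg Subtype.val e)
      exact Or.inr (congrArg Subtype.val (a.trans b.symm))

open Cfsg.H6.Co3.P in
theorem exists_quad : ∃ (Θ : Sp → ZMod 2) (c : Sp → Sp → ZMod 2),
    (∀ x y, x * x = 1 → y * y = 1 → x * y = y * x → Θ (x * y) = Θ x + Θ y + c y x) ∧
    (∀ x y w, x * w = w * x → y * w = w * y → c (x * y) w = c x w + c y w) ∧
    (∀ x y, c x y = c y x) ∧ ∀ x, Cl x 1 ∨ Cl x 3 → Θ x = 1 := by
  classical
  obtain ⟨θ, D, t2⟩ := exists_cover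
  choose L hL using D.surj
  have d1 : ev 15 ≠ 1 := by
    simpa [evL_singleton] using Co3G.ne1_spec (w := [15]) (by decide +kernel)
  let ε : Grp → ZMod 2 := fun u => if u = 1 then 0 else 1
  have e1 : ∀ u v, θ u = 1 → θ v = 1 → ε (u * v) = ε u + ε v := fun u v hu hv => by
    rcases D.ker u hu with rfl | rfl <;> rcases D.ker v hv with rfl | rfl <;>
      simp [ε, d1, D.sq]
    rfl
  have cm : ∀ x y : Sp, x * y = y * x → θ (L x * L y * (L x)⁻¹ * (L y)⁻¹) = 1 := fun x y h => by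
    simp only [map_mul, map_inv, hL, h]; group
  refine ⟨fun x => ε (L x * L x), fun x y => ε (L x * L y * (L x)⁻¹ * (L y)⁻¹),
    fun x y hx hy h => ?_, fun x y w hx hy => ?_, fun x y => ?_, fun x hx => ?_⟩
  · have a : θ (L x * L x) = 1 := by rw [map_mul, hL, hx]
    have b : θ (L y * L y) = 1 := by rw [map_mul, hL, hy]
    have c := cm y x h.symm
    show ε _ = ε _ + ε _ + ε _
    rw [D.sq_eq (y := L x * L y) (by rw [map_mul, hL, hL, hL]), ← e1 _ _ a b,
      ← e1 _ _ (by rw [map_mul, a, b, mul_one]) c, D.cenk c]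
    congr 1
    calc _ = L x * (L y * L x * (L y)⁻¹ * (L x)⁻¹) * (L x * (L y * L y)) := by group
      _ = _ := by rw [D.cenk c (L x)]; group
  · show ε _ = ε _ + ε _
    rw [D.cm_eq (x' := L x * L y) (y' := L w) (by rw [map_mul, hL, hL, hL]) rfl, add_comm,
      ← e1 _ _ (cm _ _ hy) (cm _ _ hx), ← mul_assoc, ← mul_assoc, ← mul_assoc,
      ← D.cenk (cm _ _ hy) (L x)]
    congr 1
    group
  · refine if_congr ?_ rfl rfl
    rw [← inv_eq_one]
    simp [mul_assoc]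
  · have k : ∀ w : List ℕ, (∀ l ∈ w, ∃ i < 7, l = 2 * i + 1) → Co3G.ne1 (w ++ w) = true →
        (∃ y, y * x * y⁻¹ = evL Co3G.evM w) → ε (L x * L x) = 1 := by
      rintro w h1 h2 ⟨y, hy⟩
      have a := Co3G.ne1_spec h2
      rw [evL_append, ← D.sq_eq (x := L y * L x * (L y)⁻¹) (by
        rw [map_mul, map_mul, map_inv, hL, hL, hy, map_evL]
        exact evL_congr fun l hl => by
          obtain ⟨i, hi, rfl⟩ := h1 l hl
          exact (t2 i hi).symm), conj_mul] at a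
      exact if_neg fun e => a (by rw [e]; simp)
    rcases hx with hx | hx
    · exact k _ (by decide) (by decide +kernel) hx
    · exact k _ (by decide) (by decide +kernel) hx

theorem no_four {A : Subgroup Sp} (hA : ∀ x ∈ A, x * x = 1) {N : ℕ → Sp} {σ : Sp} (hσ : σ ∈ A)
    {a b c d : ℕ} (ha : N a ∈ A) (hb : N b ∈ A) (hc : N c ∈ A) (hd : N d ∈ A)
    (h : ∀ x ∈ [N a, N b, N c, N d, N a * N c, N a * N d, N b * N c, N b * N d, N a * N b * σ,
      N c * N d * σ, N a * N b * σ * N c, N a * N b * σ * N d, N c * N d * σ * N a,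
      N c * N d * σ * N b, N a * N b * σ * (N c * N d * σ)], Cl x 1 ∨ Cl x 3) : False := by
  obtain ⟨Θ, f, q1, q2, q3, q4⟩ := exists_quad
  have cm : ∀ x ∈ A, ∀ y ∈ A, x * y = y * x := fun x hx y hy => by
    rw [← inv_eq_of_mul_eq_one_right (hA _ (mul_mem hx hy)), _root_.mul_inv_rev,
      inv_eq_of_mul_eq_one_right (hA _ hx), inv_eq_of_mul_eq_one_right (hA _ hy)]
  have r1 : ∀ x y, x ∈ A → y ∈ A → Θ (x * y) = Θ x + Θ y + f x y := fun x y hx hy => by
    rw [q1 x y (hA _ hx) (hA _ hy) (cm _ hx _ hy), q3]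
  have r2 : ∀ x y w, x ∈ A → y ∈ A → w ∈ A → f (x * y) w = f x w + f y w :=
    fun x y w hx hy hw => q2 _ _ _ (cm _ hx _ hw) (cm _ hy _ hw)
  have r3 : ∀ x y w, x ∈ A → y ∈ A → w ∈ A → f w (x * y) = f w x + f w y :=
    fun x y w hx hy hw => by rw [q3, r2 _ _ _ hx hy hw, q3 x, q3 y]
  have r4 : f σ σ = 0 := by
    have := r1 σ σ hσ hσ
    have b := r1 1 1 (one_mem _) (one_mem _)
    have c := r2 1 1 1 (one_mem _) (one_mem _) (one_mem _)
    rw [hA _ hσ] at this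
    rw [mul_one] at b c
    revert this b c
    generalize Θ 1 = x; generalize Θ σ = y; generalize f 1 1 = u; generalize f σ σ = v
    revert x y u v
    decide
  have k := fun x hx => q4 x (h x hx)
  simp (maxDischargeDepth := 8) only [List.forall_mem_cons, List.not_mem_nil, false_imp_iff,
    implies_true, and_true, r1, r2, r3, mul_mem, ha, hb, hc, hd, hσ, q3 σ (N _), q3 (N c) (N a), q3 (N d) (N a),
    q3 (N c) (N b), q3 (N d) (N b), r4] at k
  obtain ⟨k1, k2, k3, k4, k⟩ := k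
  rw [k1, k2, k3, k4] at k
  revert k
  generalize Θ σ = x0; generalize f (N a) (N b) = x1; generalize f (N a) (N c) = x2
  generalize f (N a) (N d) = x3; generalize f (N b) (N c) = x4; generalize f (N b) (N d) = x5
  generalize f (N c) (N d) = x6; generalize f (N a) σ = x7; generalize f (N b) σ = x8
  generalize f (N c) σ = x9; generalize f (N d) σ = x10
  revert x0 x1 x2 x3 x4 x5 x6 x7 x8 x9 x10
  decide +kernel

end Cfsg.Co2
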