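import Cfsg.Agent.Co2.S2

/-! Change of charts and counting. -/

set_option autoImplicit false
set_option maxRecDepth 100000
set_option synthInstance.maxSize 4096
set_option linter.unusedSectionVars false

namespace Cfsg.Co2

open Subgroup Cfsg.H6 Cfsg.Co.Rc
open Cfsg.Co3G (Sp)

variable {G : Type*} [Group G] [Finite G] {z : G} {Q : Subgroup G} {a : ℕ → G}
  {π : centralizer ({z} : Set G) →* Sp}

theorem ES.conj (E : ES z Q) (c : G) : ES (c * z * c⁻¹) (Q.map (MulAut.conj c).toMonoidHom) := by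
  have m : ∀ q, q ∈ Q.map (MulAut.conj c).toMonoidHom ↔ ∃ p ∈ Q, c * p * c⁻¹ = q := fun _ => Iff.rfl
  have inj : ∀ {x y : G}, c * x * c⁻¹ = c * y * c⁻¹ ↔ x = y := by simp
  have sur : ∀ x : G, ∃ y, x = c * y * c⁻¹ := fun x => ⟨c⁻¹ * x * c, by group⟩
  refine ⟨by simpa using E.z1, by rw [conj_mul, E.zz]; simp, ⟨z, E.zQ, rfl⟩, ?_, ?_, ?_, ?_, ?_, ?_, ?_⟩
  · intro q hq
    obtain ⟨p, hp, rfl⟩ := (m q).mp hq
    rw [conj_mul, conj_mul, E.qz p hp]
  · intro x hx q hq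
    obtain ⟨p, hp, rfl⟩ := (m q).mp hq
    obtain ⟨x, rfl⟩ := sur x
    rw [conj_mul, conj_mul, inj] at hx
    exact (m _).mpr ⟨_, E.nrm x hx p hp, by group⟩
  · intro x hx h
    obtain ⟨x, rfl⟩ := sur x
    rw [conj_mul, conj_mul, inj] at hx
    refine (E.cen x hx fun q hq => ?_).imp (fun e => by simp [e]) fun e => by rw [e]
    have := h _ ((m _).mpr ⟨q, hq, rfl⟩)
    rwa [conj_mul, conj_mul, inj] at this
  · intro p hp q hq
    obtain ⟨p', hp', rfl⟩ := (m p).mp hp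
    obtain ⟨q', hq', rfl⟩ := (m q).mp hq
    simp only [conj_mul, inj]
    exact E.comm p' hp' q' hq'
  · intro q hq
    obtain ⟨p, hp, rfl⟩ := (m q).mp hq
    rw [conj_mul, inj]
    exact (E.sq p hp).imp (fun e => by simp [e]) id
  · rw [card_map_of_injective (MulAut.conj c).injective, E.card]
  · rw [← E.cardC, ← card_map_of_injective (f := (MulAut.conj c).toMonoidHom)
      (K := centralizer {z}) (MulAut.conj c).injective]
    congr 2
    ext x
    obtain ⟨x, rfl⟩ := sur x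
    rw [mem_cen, conj_mul, conj_mul, inj, ← mem_cen]
    exact (mem_map_iff_mem (f := (MulAut.conj c).toMonoidHom) (MulAut.conj c).injective).symm

/-- Transport of a chart along a conjugation. -/
theorem Ch.conj {μ : ℕ} (h : Ch μ z Q a π) (g : G) {z' : G} (e : g * z * g⁻¹ = z') :
    ∃ Q' a' π', Ch μ z' Q' a' π' ∧ (∀ x, g * x * g⁻¹ ∈ Q' ↔ x ∈ Q) ∧
      (∀ x, co a' (g * x * g⁻¹) = co a x) ∧ ∀ c c', c'.1 = g * c.1 * g⁻¹ → π' c' = π c := by
  subst e
  have inj : ∀ {x y : G}, g * x * g⁻¹ = g * y * g⁻¹ ↔ x = y := by simp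
  have m : ∀ x, g * x * g⁻¹ ∈ Q.map (MulAut.conj g).toMonoidHom ↔ x ∈ Q := fun x =>
    mem_map_iff_mem (f := (MulAut.conj g).toMonoidHom) (MulAut.conj g).injective
  have mc : ∀ x, g * x * g⁻¹ ∈ centralizer {g * z * g⁻¹} ↔ x ∈ centralizer {z} := fun x => by
    rw [mem_cen, mem_cen, conj_mul, conj_mul, inj]
  let ι : centralizer ({g * z * g⁻¹} : Set G) →* centralizer ({z} : Set G) :=
    ((MulAut.conj g⁻¹).toMonoidHom.comp (Subgroup.subtype _)).codRestrict _ fun c =>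
      (mc _).mp (by simpa [mul_assoc] using c.2)
  have hι : ∀ c, g * (ι c).1 * g⁻¹ = c.1 := fun c => by simp [ι, mul_assoc]
  have hco : ∀ x, co (fun j => g * a j * g⁻¹) (g * x * g⁻¹) = co a x := fun x => by
    unfold co
    congr 1
    funext i
    exact decide_eq_decide.mpr (by rw [conj_mul, conj_mul, ne_eq, ne_eq, inj])
  have F : Fr (g * z * g⁻¹) (Q.map (MulAut.conj g).toMonoidHom) (mt μ) fun j => g * a j * g⁻¹ :=
    ⟨fun i hi => (m _).mpr (h.fr.mem i hi),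
      fun i hi => by rw [conj_mul, h.fr.sq i hi]; split_ifs <;> simp,
      fun i hi j hj => by rw [conj_mul, h.fr.cm i hi j hj]; split_ifs <;> simp only [conj_mul]⟩
  refine ⟨_, _, π.comp ι, ⟨h.lt, h.es.conj g, F, fun x => ?_, fun c => ?_, fun c w hw hc => ?_⟩,
    m, hco, fun c c' e => congrArg π (Subtype.ext (inj.mp ((hι c').trans e)))⟩
  · obtain ⟨c, rfl⟩ := h.surj x
    exact ⟨⟨_, (mc _).mpr c.2⟩, congrArg π (Subtype.ext (inj.mp (hι _)))⟩
  · rw [MonoidHom.comp_apply, h.ker, ← m, hι]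
  · rw [← h.act _ w hw hc]
    ext v
    have : evL (fa (g * z * g⁻¹) fun j => g * a j * g⁻¹) (bw v) =
        g * evL (fa z a) (bw v) * g⁻¹ := by
      refine Eq.trans (evL_congr fun l _ => ?_) (map_evL (MulAut.conj g).toMonoidHom _ _).symm
      unfold fa
      split_ifs <;> simp
    rw [rho_val, rho_val, rc, rc, this, ← hι c, ← hco]
    congr 1
    group

/-- Change of the frame by an element of the centraliser. -/
theorem Ch.re {μ : ℕ} (h : Ch μ z Q a π) (c : centralizer ({z} : Set G)) :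
    ∃ a' π', Ch μ z Q a' π' ∧ (∀ x, co a' x = co a (c * x * c.1⁻¹)) ∧
      ∀ x, π' x = π c * π x * (π c)⁻¹ := by
  have cz := mem_cen.mp c.2
  have cz' := mem_cen.mp c⁻¹.2
  obtain ⟨Q', a', π', h1, h2, h3, h4⟩ := h.conj c.1⁻¹ (z' := z)
    (mul_inv_eq_iff_eq_mul.mpr cz')
  obtain rfl : Q' = Q := by
    ext x
    have := h2 (c * x * c.1⁻¹)
    rw [show c.1⁻¹ * (c * x * c.1⁻¹) * c.1⁻¹⁻¹ = x by group] at this
    refine this.trans ⟨fun k => ?_, h.es.nrm _ cz _⟩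
    simpa [mul_assoc] using h.es.nrm _ cz' _ k
  refine ⟨a', π', h1, fun x => ?_, fun x => ?_⟩
  · rw [← h3]; congr 1; group
  · rw [← map_inv, ← map_mul, ← map_mul]
    exact h4 _ _ (by simp [mul_assoc])

theorem Ch.reC (h : Ch 0 z Q a π) {x : centralizer ({z} : Set G)} {k : ℕ} (hx : Cl (π x) k) :
    ∃ a' π', Ch 0 z Q a' π' ∧ π' x = evL Co3G.evM (rep k) ∧ ∀ y j, Cl (π' y) j ↔ Cl (π y) j := by
  obtain ⟨y, hy⟩ := hx
  obtain ⟨c, rfl⟩ := h.surj y
  obtain ⟨a', π', h1, -, h2⟩ := h.re c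
  refine ⟨a', π', h1, (h2 x).trans hy, fun y j => ?_⟩
  rw [h2]
  exact ⟨fun ⟨u, hu⟩ => ⟨u * π c, by rw [← hu]; group⟩,
    fun ⟨u, hu⟩ => ⟨u * (π c)⁻¹, by rw [← hu]; group⟩⟩

variable (h : Ch 0 z Q a π)
include h

theorem rc_word {c : centralizer ({z} : Set G)} {w : List ℕ} (hw : inR 16 w = true)
    (hc : π c = (evL Co3G.evM w)⁻¹) : ∀ v < 256, rc z a c v = tM w v := fun v hv => by
  have := h.act c⁻¹ w hw (by rw [map_inv, hc, inv_inv])
  rw [map_inv, inv_eq_iff_eq_inv] at this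
  rw [← rho_val h.es h.fr c ⟨v, hv⟩, this, evMM_inv h.lt hw]
  rfl

theorem rc_rep {c : centralizer ({z} : Set G)} {k : ℕ} (hc : π c = evL Co3G.evM (rep k))
    (h2 : c.1 * c.1 = 1) : ∀ v < 256, rc z a c v = tM (rep k) v :=
  rc_word h (inR_rep k) (by
    rw [← hc, ← map_inv, inv_eq_of_mul_eq_one_right (Subtype.ext h2 : c * c = 1)])

theorem lift_word {w : List ℕ} (hw : inR 16 w = true) : ∃ c, c * z = z * c ∧
    (∀ v < 256, rc z a c v = tM w v) ∧ ∀ v < 256, rc z a c⁻¹ v = tM w.reverse v := by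
  obtain ⟨c, hc⟩ := h.surj (evL Co3G.evM w)⁻¹
  exact ⟨c, mem_cen.mp c.2, rc_word h hw hc, rc_word h (c := c⁻¹)
    (by simpa [inR] using hw) (by rw [map_inv, hc, evL_rev])⟩

theorem exL {c : G} (hc : c * z = z * c) (h2 : c * c ∈ Q) : ∃ i < 5104,
    (∀ v < 256, rc z a c v = ap8 (LM i) v) ∧ ik i < 5 ∧ Cl (π ⟨c, mem_cen.mpr hc⟩) (ik i) := by
  have e : π ⟨c, mem_cen.mpr hc⟩ * π ⟨c, mem_cen.mpr hc⟩ = 1 := by
    rw [← map_mul]; exact (h.ker _).mpr h2
  obtain ⟨i, h1, h3, h4, h5, h6⟩ := inv_list _ e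
  refine ⟨i, h1, fun v hv => ?_, h5, h6⟩
  rw [← tM_iw h1 v hv]
  exact rc_word h (c := ⟨c, mem_cen.mpr hc⟩) h3 (by rw [← h4, inv_eq_of_mul_eq_one_right e]) v hv

theorem pig {S F : Finset G} {L : List ℕ} (h1 : ∀ p ∈ S, p * z = z * p) (h2 : ∀ p ∈ S, p * p = 1)
    (h3 : ∀ p ∈ S, ∀ p' ∈ S, p⁻¹ * p' ∈ Q → p⁻¹ * p' ∈ F)
    (h4 : ∀ p (hp : p ∈ S), ∀ i < 5104, (∀ v < 256, rc z a p v = ap8 (LM i) v) →
      Cl (π ⟨p, mem_cen.mpr (h1 p hp)⟩) (ik i) → i ∈ L) : S.card ≤ F.card * L.length := by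
  classical
  have : ∀ p, ∃ i, p ∈ S → i ∈ L ∧ ∀ v < 256, rc z a p v = ap8 (LM i) v := fun p => by
    by_cases hp : p ∈ S
    · obtain ⟨i, k1, k2, -, k3⟩ := exL h (h1 p hp) (h2 p hp ▸ one_mem _)
      exact ⟨i, fun _ => ⟨h4 p hp i k1 k2 k3, k2⟩⟩
    · exact ⟨0, fun e => absurd e hp⟩
  choose f hf using this
  refine (Finset.card_le_mul_card_image_of_maps_to (t := L.toFinset) (f := f)
    (fun p hp => List.mem_toFinset.mpr (hf p hp).1) F.card fun i _ => ?_).trans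
    (Nat.mul_le_mul_left _ (List.toFinset_card_le L))
  rcases (S.filter (f · = i)).eq_empty_or_nonempty with e | ⟨p, hp⟩
  · simp [e]
  · rw [Finset.mem_filter] at hp
    refine Finset.card_le_card_of_injOn (fun x => p⁻¹ * x) (fun x hx => ?_) fun _ _ _ _ e => by
      simpa using e
    rw [Finset.mem_coe, Finset.mem_filter] at hx
    refine h3 p hp.1 x hx.1 ((rho_eq_one h.es h.fr (c := (⟨p, mem_cen.mpr (h1 p hp.1)⟩ :
      centralizer ({z} : Set G))⁻¹ * ⟨x, mem_cen.mpr (h1 x hx.1)⟩)).mp ?_)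
    rw [map_mul, map_inv, inv_mul_eq_one]
    ext v
    rw [rho_val, rho_val, (hf p hp.1).2 v v.2, (hf x hx.1).2 v v.2, hp.2, hx.2]

theorem comm_iff {p q : G} (hp : p ∈ Q) (hq : q ∈ Q) :
    q * p = p * q ↔ bf (co a p) (co a q) = false := by
  have a1 := sq_co h.es h.fr hp
  have a2 := sq_co h.es h.fr hq
  have a3 := sq_co h.es h.fr (mul_mem hp hq)
  have z1 := h.es.z1
  rw [co_mul h.es h.fr hp hq] at a3
  unfold bf
  rw [show mt 0 = false from rfl] at a1 a2 a3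
  rcases h.es.comm p hp q hq with e | e
  · rw [mul_assoc, ← mul_assoc q, e, mul_assoc, ← mul_assoc, a1, a2] at a3
    revert a3
    cases qf false (co a p) <;> cases qf false (co a q) <;> cases qf false (co a p ^^^ co a q) <;>
      simp [e, z1, z1.symm, h.es.zz]
  · rw [h.es.sq_mul hp e, a1, a2] at a3
    revert a3
    cases qf false (co a p) <;> cases qf false (co a q) <;> cases qf false (co a p ^^^ co a q) <;>
      simp [e, z1, z1.symm, h.es.zz]

theorem sq_iff {p : G} (hp : p ∈ Q) : p * p = 1 ↔ qf false (co a p) = false := by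
  have a1 := sq_co h.es h.fr hp
  rw [show mt 0 = false from rfl] at a1
  rw [a1]
  cases qf false (co a p) <;> simp [h.es.z1]

theorem exv {v : ℕ} (hv : v < 256) : ∃ p ∈ Q, co a p = v :=
  ⟨_, ev_mem h.es h.fr _, co_bw h.es h.fr hv⟩

/-- All lifts of a vector commute with `s`. -/
def cz (a : ℕ → G) (Q : Subgroup G) (s : G) (v : ℕ) : Prop := ∀ p ∈ Q, co a p = v → p * s = s * p

variable {s : G} (e : s * z = z * s)
include e

theorem cz_of {p : G} (hp : p ∈ Q) (k : p * s = s * p) : cz a Q s (co a p) := fun q hq hc => by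
  rcases eq_of_co h.es h.fr hq hp hc with rfl | rfl
  · exact k
  · rw [mul_assoc, k, ← mul_assoc, ← e, mul_assoc]

theorem cz_xor {u v : ℕ} (hu : u < 256) (hv : v < 256) (k : cz a Q s u) (l : cz a Q s v) :
    cz a Q s (u ^^^ v) := by
  obtain ⟨p, hp, rfl⟩ := exv h hu
  obtain ⟨q, hq, rfl⟩ := exv h hv
  rw [← co_mul h.es h.fr hp hq]
  exact cz_of h e (mul_mem hp hq) (by rw [mul_assoc, l q hq rfl, ← mul_assoc, k p hp rfl, mul_assoc])

theorem anti_of {p : G} (hp : p ∈ Q) (k : rc z a s (co a p) = co a p) (n : ¬ cz a Q s (co a p)) :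
    p * s = z * (s * p) := by
  rw [← co_conj h.es h.fr e hp] at k
  rcases eq_of_co h.es h.fr (h.es.nrm _ e _ hp) hp k with k | k <;>
    rw [mul_inv_eq_iff_eq_mul] at k
  · exact absurd (cz_of h e hp k.symm) n
  · rw [k, mul_assoc, h.es.zzm]

theorem cz_anti {u v : ℕ} (hu : u < 256) (hv : v < 256) (ku : rc z a s u = u) (kv : rc z a s v = v)
    (k : ¬ cz a Q s u) (l : ¬ cz a Q s v) : cz a Q s (u ^^^ v) := by
  obtain ⟨p, hp, rfl⟩ := exv h hu
  obtain ⟨q, hq, rfl⟩ := exv h hv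
  rw [← co_mul h.es h.fr hp hq]
  exact cz_of h e (mul_mem hp hq)
    (h.es.anti (h.es.qz _ hp) (anti_of h e hp ku k) (anti_of h e hq kv l))

theorem co_n {q : G} (hq : q ∈ Q) : q * s * q⁻¹ * s⁻¹ ∈ Q ∧
    co a (q * s * q⁻¹ * s⁻¹) = co a q ^^^ rc z a s (co a q) := by
  have := h.es.nrm _ e _ (inv_mem hq)
  rw [mul_assoc q, mul_assoc q, co_mul h.es h.fr hq this, co_conj h.es h.fr e (inv_mem hq),
    co_inv h.es h.fr hq]
  exact ⟨mul_mem hq this, rfl⟩

theorem cz_W (ss : s * s = 1) {u : ℕ} (hu : u < 256) (k : qf false (u ^^^ rc z a s u) = false) :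
    cz a Q s (u ^^^ rc z a s u) := by
  obtain ⟨q, hq, rfl⟩ := exv h hu
  obtain ⟨h1, h2⟩ := co_n h e hq
  rw [← h2] at k ⊢
  refine cz_of h e h1 ?_
  have a1 := (sq_iff h h1).mpr k
  rw [inv_eq_of_mul_eq_one_right ss] at a1 ⊢
  have tt : q * s * q⁻¹ * (q * s * q⁻¹) = 1 := by rw [conj_mul, ss]; simp
  generalize q * s * q⁻¹ = t at *
  conv_rhs => rw [← inv_eq_of_mul_eq_one_right a1, mul_inv_rev, inv_eq_of_mul_eq_one_right ss,
    inv_eq_of_mul_eq_one_right tt, ← mul_assoc, ss, one_mul]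
  rw [mul_assoc, ss, mul_one]

theorem conj_W {p : G} (hp : p ∈ Q) {u : ℕ} (hu : u < 256) (k : co a p = u ^^^ rc z a s u) :
    IsConj s (p * s) ∨ IsConj (z * s) (p * s) := by
  obtain ⟨q, hq, rfl⟩ := exv h hu
  obtain ⟨h1, h2⟩ := co_n h e hq
  rcases eq_of_co h.es h.fr hp h1 (k.trans h2.symm) with rfl | rfl
  · exact Or.inl (isConj_iff.mpr ⟨q, by group⟩)
  · refine Or.inr (isConj_iff.mpr ⟨q, ?_⟩)
    rw [← mul_assoc q, h.es.qz q hq]
    group

theorem exS (T : List ℕ) (hT : T.Nodup) (h1 : ∀ v ∈ T, v < 256 ∧ qf false v = false)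
    (h2 : ∀ v ∈ T, cz a Q s v) : ∃ S : Finset G, S.card = 2 * T.length ∧
      ∀ p ∈ S, p ∈ Q ∧ p * s = s * p ∧ p * p = 1 := by
  classical
  have : ∀ v, ∃ p, v < 256 → p ∈ Q ∧ co a p = v := fun v => by
    by_cases hv : v < 256
    · obtain ⟨p, hp⟩ := exv h hv
      exact ⟨p, fun _ => hp⟩
    · exact ⟨1, fun e => absurd e hv⟩
  choose f hf using this
  have k : ∀ v ∈ T, ∀ b : Bool, (if b = true then z * f v else f v) ∈ Q ∧
      co a (if b = true then z * f v else f v) = v := fun v hv b => by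
    obtain ⟨k1, k2⟩ := hf v (h1 v hv).1
    cases b
    exacts [⟨k1, k2⟩, ⟨mul_mem h.es.zQ k1, (co_zm h.es h.fr k1).trans k2⟩]
  refine ⟨(T.toFinset ×ˢ Finset.univ).image fun x : ℕ × Bool =>
    if x.2 = true then z * f x.1 else f x.1, ?_, fun p hp => ?_⟩
  · rw [Finset.card_image_of_injOn, Finset.card_product, List.toFinset_card_of_nodup hT, mul_comm]
    · rfl
    · rintro ⟨u, b⟩ hu ⟨v, c⟩ hv e
      simp only [Finset.coe_product, Set.mem_prod, Finset.mem_coe, List.mem_toFinset] at hu hv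
      obtain rfl : u = v := by rw [← (k u hu.1 b).2, ← (k v hv.1 c).2]; exact congrArg _ e
      cases b <;> cases c
      exacts [rfl, absurd e.symm (h.es.ne _), absurd e (h.es.ne _), rfl]
  · obtain ⟨⟨v, b⟩, hv, rfl⟩ := Finset.mem_image.mp hp
    simp only [Finset.mem_product, List.mem_toFinset] at hv
    obtain ⟨k1, k2⟩ := k v hv.1 b
    exact ⟨k1, h2 v hv.1 _ k1 k2, (sq_iff h k1).mpr (k2.symm ▸ (h1 v hv.1).2)⟩

end Cfsg.Co2
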