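import Cfsg.Agent.Co2.S3

/-! Weak closure of the central involution in the extraspecial group. -/

set_option autoImplicit false
set_option maxRecDepth 100000
set_option synthInstance.maxSize 4096
set_option linter.unusedSectionVars false

namespace Cfsg.Co2

open Subgroup Cfsg.H6 Cfsg.Co.Rc
open Cfsg.Co3G (Sp)

variable {G : Type*} [Group G] [Finite G] {z s : G} {Q Q' : Subgroup G} {a a' : ℕ → G}
  {π : centralizer ({z} : Set G) →* Sp} {π' : centralizer ({s} : Set G) →* Sp}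

theorem rc_lt (c : G) (v : ℕ) : rc z a c v < 256 := co_lt _ _

section
variable (h : Ch 0 z Q a π)
include h

theorem cl0 {c : centralizer ({z} : Set G)} (k : Cl (π c) 0) : c.1 ∈ Q := by
  obtain ⟨y, hy⟩ := k
  exact (h.ker c).mp (by simpa [rep, evL_nil] using hy)

theorem cz_in (hs : s ∈ Q) {v : ℕ} (k : bf (co a s) v = false) : cz a Q s v :=
  fun _ hp e => (comm_iff h hs hp).mpr (e ▸ k)

theorem norm1 {x : G} (hx : x ∈ Q) (h2 : x * x = 1) (h1 : x ≠ 1) (hz : x ≠ z) :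
    ∃ a' π', Ch 0 z Q a' π' ∧ co a' x = 1 := by
  rcases hTW _ (co_lt a x) ((sq_iff h hx).mp h2) with e | ⟨e1, e2⟩
  · rcases eq_of_co_zero h.es h.fr hx e with e | e
    exacts [absurd e h1, absurd e hz]
  · obtain ⟨c, c1, c2, -⟩ := lift_word h e1
    obtain ⟨a', π', k1, k2, -⟩ := h.re ⟨c, mem_cen.mpr c1⟩
    exact ⟨a', π', k1, by rw [k2, co_conj h.es h.fr c1 hx, c2 _ (co_lt _ _), e2]⟩

theorem cmT {p : G} (e : s * z = z * s) (pz : p * z = z * p) (ps : p * s = s * p) (v : ℕ) :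
    rc z a p (rc z a s v) = rc z a s (rc z a p v) := by
  rw [← rc_mul h.es h.fr pz e, ← rc_mul h.es h.fr e pz, ps]

theorem exb (e : s * z = z * s) (ss : s * s = 1) (hT : ∀ v < 256, rc z a s v = tM (rep 2) v) :
    ∃ b < 16, ∀ v ∈ Hs b, v < 256 ∧ cz a Q s v := by
  classical
  refine ⟨Nat.ofBits (n := 4) fun i => decide (¬ cz a Q s (kk i)), Nat.ofBits_lt_two_pow _,
    fun v hv => ?_⟩
  have k1 : ∀ i < 4, kk i < 256 ∧ tM (rep 2) (kk i) = kk i := by decide +kernel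
  have k2 : ∀ v ∈ [1, 12], v < 256 ∧ qf false v = false ∧ ∃ u < 256, v = u ^^^ tM (rep 2) u := by
    decide +kernel
  have k3 : ∀ v ∈ [1, 12], v < 256 ∧ cz a Q s v := fun v hv => by
    obtain ⟨a1, a2, u, a3, rfl⟩ := k2 v hv
    rw [← hT u a3] at a1 a2 ⊢
    exact ⟨a1, cz_W h e ss a3 a2⟩
  rcases hHs _ (Nat.ofBits_lt_two_pow _) v hv with rfl | rfl | ⟨i, hi, rfl, k⟩ | ⟨i, hi, j, hj, rfl, k, l⟩
  · exact k3 _ (by simp)
  · exact k3 _ (by simp)
  · rw [Nat.testBit_ofBits_lt _ _ hi] at k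
    exact ⟨(k1 i hi).1, by simpa using k⟩
  · rw [Nat.testBit_ofBits_lt _ _ hi] at k
    rw [Nat.testBit_ofBits_lt _ _ hj] at l
    exact ⟨xor_lt (k1 i hi).1 (k1 j hj).1, cz_anti h e (k1 i hi).1 (k1 j hj).1
      ((hT _ (k1 i hi).1).trans (k1 i hi).2) ((hT _ (k1 j hj).1).trans (k1 j hj).2)
      (by simpa using k) (by simpa using l)⟩

theorem exX (hs : s ∈ Q) (s1 : co a s = 1) {w : List ℕ} (hw : inR 16 w = true) (h1 : tM w 1 = 1) :
    ∃ c, c * z = z * c ∧ c * s = s * c ∧ (∀ v < 256, rc z a c v = tM w v) ∧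
      ∀ v < 256, rc z a c⁻¹ v = tM w.reverse v := by
  obtain ⟨c, c1, c2, c3⟩ := lift_word h hw
  rcases eq_of_co h.es h.fr (h.es.nrm _ c1 _ hs) hs
    (by rw [co_conj h.es h.fr c1 hs, s1, c2 _ (by norm_num), h1]) with k | k <;>
    rw [mul_inv_eq_iff_eq_mul] at k
  · exact ⟨c, c1, k, c2, c3⟩
  obtain ⟨q, hq, q1⟩ := exv h (v := 16) (by norm_num)
  have qz := h.es.qz q hq
  have qs := (h.es.comm s hs q hq).resolve_left fun e => by
    rw [comm_iff h hs hq, s1, q1] at e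
    exact absurd e (by decide)
  refine ⟨c * q, by rw [mul_assoc, qz, ← mul_assoc, c1, mul_assoc], ?_, fun v hv => ?_,
    fun v hv => ?_⟩
  · rw [mul_assoc, qs, ← mul_assoc, c1, mul_assoc, ← mul_assoc c, k, mul_assoc z, mul_assoc z,
      h.es.zzm, mul_assoc]
  · rw [rc_mul h.es h.fr c1 qz, rc_Q h.es h.fr hq hv, c2 v hv]
  · rw [mul_inv_rev, rc_mul h.es h.fr (h.es.qz _ (inv_mem hq)) (mem_cen.mp (inv_mem (mem_cen.mpr c1))),
      rc_Q h.es h.fr (inv_mem hq) (rc_lt _ _), c3 v hv]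

variable (h' : Ch 0 s Q' a' π') (e : s * z = z * s)
include h' e

theorem mvR {p : G} (hp : p ∈ Q') (pz : p * z = z * p) {v : ℕ} (hv : v < 256) (k : cz a Q s v) :
    ∃ r ∈ Q, r ∈ Q' ∧ co a r = v ^^^ rc z a p v := by
  obtain ⟨b, hb, rfl⟩ := exv h hv
  obtain ⟨h1, h2⟩ := co_n h pz hb
  exact ⟨_, h1, mul_mem (h'.es.nrm _ (k b hb rfl) _ hp) (inv_mem hp), h2⟩

theorem R_bf (hz : z ∉ Q') {r : G} (hr : r ∈ Q) (hr' : r ∈ Q') {v : ℕ} (hv : v < 256)
    (k : cz a Q s v) : bf (co a r) v = false := by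
  obtain ⟨b, hb, rfl⟩ := exv h hv
  refine (comm_iff h hr hb).mp ((h.es.comm r hr b hb).resolve_right fun l => hz ?_)
  have := mul_mem (h'.es.nrm _ (mem_cen.mp (inv_mem (mem_cen.mpr (k b hb rfl)))) _ (inv_mem hr')) hr'
  rwa [inv_inv, show b⁻¹ * r⁻¹ * b * r = b⁻¹ * r⁻¹ * (b * r) by group, l, ← mul_assoc,
    h.es.qz _ (mul_mem (inv_mem hb) (inv_mem hr)), show z * (b⁻¹ * r⁻¹) * (r * b) = z by group] at this

theorem R_sq (ne : s ≠ z) {r : G} (hr : r ∈ Q) (hr' : r ∈ Q') : r * r = 1 :=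
  (h.es.sq r hr).resolve_right fun k => (h'.es.sq r hr').elim (fun l => h.es.z1 (k.symm.trans l))
    fun l => ne (l.symm.trans k)

theorem q8P {u v : ℕ} (hu : u < 256) (hv : v < 256) (ku : cz a' Q' z u) (kv : cz a' Q' z v)
    (q : qf false u = true ∧ qf false v = true ∧ qf false (u ^^^ v) = true) {k : ℕ}
    (hk : k = 1 ∨ k = 3) (c : Cl (π ⟨s, mem_cen.mpr e⟩) k) : False := by
  obtain ⟨p, hp, rfl⟩ := exv h' hu
  obtain ⟨r, hr, rfl⟩ := exv h' hv
  have k1 : ∀ {x : G}, x ∈ Q' → qf false (co a' x) = true → x * x = s := fun hx l =>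
    (h'.es.sq _ hx).resolve_left fun m => by simp [(sq_iff h' hx).mp m] at l
  refine no_q8 (g := π ⟨p, mem_cen.mpr (ku p hp rfl)⟩) (g' := π ⟨r, mem_cen.mpr (kv r hr rfl)⟩) hk c
    ?_ ?_ ?_ <;> simp only [← map_mul] <;> refine congrArg π (Subtype.ext (k1 ?_ ?_))
  exacts [hp, q.1, hr, q.2.1, mul_mem hp hr, (co_mul h'.es h'.fr hp hr).symm ▸ q.2.2]

theorem listA (hT : ∀ v < 256, rc z a s v = tM (rep 4) v) (hR : ∀ r ∈ Q, r ∈ Q' → co a r = 0)
    {p : G} (hp : p ∈ Q') (pz : p * z = z * p) {i : ℕ} (hi : i < 5104)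
    (k : ∀ v < 256, rc z a p v = ap8 (LM i) v) :
    i ∈ [4844, 4867, 4871, 4888, 4907, 4911, 4926, 4943, 4951, 5016, 5022, 5095, 5103] ∨
      (ik i = 4 ∧ i ∈ [4848, 4884, 4920] ∧ p ≠ s) := by
  have b1 : ∀ v ∈ b8, v < 256 := by decide
  refine (fA i hi (fun v hv => ?_) fun v hv => ?_).imp_right ?_
  · have : ∀ v ∈ [1, 8, 36], v < 256 ∧ qf false v = false ∧ ∃ u < 256, v = u ^^^ tM (rep 4) u := by
      decide +kernel
    obtain ⟨a1, a2, u, a3, a4⟩ := this v hv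
    rw [← hT u a3] at a4
    obtain ⟨r, r1, r2, r3⟩ := mvR h h' e hp pz a1 (a4 ▸ cz_W h e h'.es.zz a3 (a4 ▸ a2))
    rw [← k v a1, ← Nat.eq_of_xor_eq_zero (r3.symm.trans (hR r r1 r2))]
  · rw [← k v (b1 v hv), ← hT v (b1 v hv), ← k _ (rc_lt _ _), ← hT _ (rc_lt _ _),
      cmT h e pz (h'.es.qz p hp)]
  · rintro ⟨a1, a2, v, hv, a3⟩
    refine ⟨a1, a2, fun l => a3 ?_⟩
    rw [← k v (b1 v hv), ← hT v (b1 v hv), l]

theorem listB (hT : ∀ v < 256, rc z a s v = tM (rep 2) v) {b r0 : ℕ}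
    (hb : ∀ v ∈ Hs b, v < 256 ∧ cz a Q s v) (hR : ∀ r ∈ Q, r ∈ Q' → co a r = 0 ∨ co a r = r0)
    {p : G} (hp : p ∈ Q') (pz : p * z = z * p) {i : ℕ} (hi : i < 5104)
    (k : ∀ v < 256, rc z a p v = ap8 (LM i) v) : i ∈ LB b r0 := by
  refine List.mem_filter.mpr ⟨fF i hi fun v hv => ?_, ?_⟩
  · have b1 : v < 256 := by revert v; decide
    rw [← k v b1, ← hT v b1, ← k _ (rc_lt _ _), ← hT _ (rc_lt _ _), cmT h e pz (h'.es.qz p hp)]
  · rw [frcB_eq, decide_eq_true_eq]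
    intro v hv
    obtain ⟨r, r1, r2, r3⟩ := mvR h h' e hp pz (hb v hv).1 (hb v hv).2
    rw [← k v (hb v hv).1, ← r3]
    exact hR r r1 r2

theorem bigI (hz : z ∈ Q') (z1 : co a' z = 1) : ∃ S : Finset G, S.card = 34 ∧
    ∀ p ∈ S, p ∈ Q' ∧ p * z = z * p ∧ p * p = 1 :=
  exS h' e.symm (32 :: List.range 16) (by decide) (by decide +kernel) fun v hv =>
    cz_in h' hz (by rw [z1]; revert v; decide +kernel)

theorem wc1 (hz : z ∈ Q') (hs : s ∉ Q) : False := by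
  classical
  obtain ⟨a', π', h', z1⟩ := norm1 h' hz h.es.zz h.es.z1 fun k => hs (k ▸ h.es.zQ)
  have hR : ∀ r ∈ Q, r ∈ Q' → r = 1 ∨ r = z := fun r hr hr' => by
    have : ∀ u < 256, (∀ v ∈ [2, 4, 8, 1, 32, 64, 128], bf u v = false) → u = 0 ∨ u = 1 := by
      decide +kernel
    rcases this _ (co_lt a' r) fun v hv => R_bf h' h e.symm hs hr' hr (by revert v; decide)
      (cz_in h' hz (by rw [z1]; revert v; decide +kernel)) with k | k
    · exact (eq_of_co_zero h'.es h'.fr hr' k).imp_right fun l => absurd (l ▸ hr) hs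
    · refine (eq_of_co h'.es h'.fr hr' hz (k.trans z1.symm)).symm.imp_left fun l => absurd ?_ hs
      exact (Q.mul_mem_cancel_right h.es.zQ).mp (l ▸ hr)
  have hR0 : ∀ {a π}, Ch 0 z Q a π → ∀ r ∈ Q, r ∈ Q' → co a r = 0 := fun h r hr hr' => by
    rcases hR r hr hr' with rfl | rfl
    exacts [co_one, co_z h.es h.fr]
  obtain ⟨S, S1, S2⟩ := bigI h h' e hz z1
  have hF : ∀ p ∈ S, ∀ p' ∈ S, p⁻¹ * p' ∈ Q → p⁻¹ * p' ∈ ({1, z} : Finset G) := fun p hp p' hp' k => by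
    simpa only [Finset.mem_insert, Finset.mem_singleton] using
      hR _ k (mul_mem (inv_mem (S2 p hp).1) (S2 p' hp').1)
  have cF : ({1, z} : Finset G).card ≤ 2 := Finset.card_le_two
  obtain ⟨i, -, -, h5, hc⟩ := exL h e (h'.es.zz ▸ one_mem _)
  generalize ik i = k at h5 hc
  have q8 := fun hk => q8P h h' e (u := 34) (v := 70) (by norm_num) (by norm_num)
    (cz_in h' hz (by rw [z1]; decide +kernel)) (cz_in h' hz (by rw [z1]; decide +kernel))
    (by decide +kernel) hk hc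
  obtain ⟨a, π, h, hk, -⟩ := h.reC hc
  have hT := rc_rep h hk h'.es.zz
  interval_cases k
  · exact hs (cl0 h ⟨1, by simpa using hk⟩)
  · exact q8 (Or.inl rfl)
  · obtain ⟨b, b1, b2⟩ := exb h e h'.es.zz hT
    have := pig h (fun p hp => (S2 p hp).2.1) (fun p hp => (S2 p hp).2.2) hF fun p hp i hi k _ =>
      listB h h' e hT b2 (r0 := 0) (fun r r1 r2 => Or.inl (hR0 h r r1 r2)) (S2 p hp).1 (S2 p hp).2.1 hi k
    have := fB b b1 0 (by norm_num) (fun v _ => by simp [bf, qf]) (Or.inl rfl)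
    nlinarith
  · exact q8 (Or.inr rfl)
  · have := pig h (L := [4844, 4867, 4871, 4888, 4907, 4911, 4926, 4943, 4951, 5016, 5022, 5095, 5103] ++
      [4848, 4884, 4920]) (fun p hp => (S2 p hp).2.1) (fun p hp => (S2 p hp).2.2) hF
      fun p hp i hi k _ => List.mem_append.mpr
        ((listA h h' e hT (hR0 h) (S2 p hp).1 (S2 p hp).2.1 hi k).imp_right fun l => l.2.1)
    simp only [List.length_append, List.length_cons, List.length_nil] at this
    omega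

variable (ne : s ≠ z) (hs : s ∈ Q) (s1 : co a s = 1)
include ne hs s1

theorem R_W0 {r : G} (hr : r ∈ Q) (hr' : r ∈ Q') : co a r ∈ W0 := by
  have h4 : (co a r).testBit 4 = false := by
    have : ∀ v < 256, bf 1 v = false → v.testBit 4 = false := by decide +kernel
    exact this _ (co_lt _ _) (s1 ▸ (comm_iff h hs hr).mp (h'.es.qz r hr'))
  refine (hIW2 _ (co_lt a r) ((sq_iff h hr).mp (R_sq h h' e ne hr hr')) h4).resolve_right ?_
  rintro ⟨w, -, w1, w2, w3⟩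
  obtain ⟨c, c1, c2, c3, -⟩ := exX h hs s1 w1 w2
  have m := h.es.nrm _ c1 _ hr
  have := (sq_iff h (mul_mem hr m)).mp
    (R_sq h h' e ne (mul_mem hr m) (mul_mem hr' (h'.es.nrm _ c2 _ hr')))
  rw [co_mul h.es h.fr hr m, co_conj h.es h.fr c1 hr, c3 _ (co_lt _ _), w3] at this
  exact absurd this (by decide)

theorem R_full {r : G} (hr : r ∈ Q) (hr' : r ∈ Q') (k : ¬ co a r < 2) :
    ∀ w ∈ W0, ∃ x ∈ Q, x ∈ Q' ∧ co a x = w := fun w hw => by
  rcases hT4 _ (R_W0 h h' e ne hs s1 hr hr') w hw with l | l | ⟨w1, w2, w3⟩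
  · exact absurd l k
  · interval_cases w
    exacts [⟨1, one_mem _, one_mem _, co_one⟩, ⟨s, hs, h'.es.zQ, s1⟩]
  · obtain ⟨c, c1, c2, c3, -⟩ := exX h hs s1 w1 w2
    exact ⟨_, h.es.nrm _ c1 _ hr, h'.es.nrm _ c2 _ hr',
      by rw [co_conj h.es h.fr c1 hr, c3 _ (co_lt _ _), w3]⟩

theorem wc2 (hz : z ∈ Q') (z1 : co a' z = 1) : False := by
  classical
  have k0 : ∀ {p : G}, p ∈ Q' → p * z = z * p → ∀ {i : ℕ}, (∀ v < 256, rc z a p v = ap8 (LM i) v) →
      ap8 (LM i) 1 = 1 ∧ ∀ v ∈ [2, 4, 8, 32, 64, 128], ∃ r ∈ Q, r ∈ Q' ∧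
        co a r = v ^^^ ap8 (LM i) v := fun {p} hp pz i k => by
    refine ⟨?_, fun v hv => ?_⟩
    · rw [← k 1 (by norm_num), ← s1, ← co_conj h.es h.fr pz hs, h'.es.qz p hp, mul_inv_cancel_right]
    · have b1 : v < 256 := by revert v; decide
      rw [← k v b1]
      exact mvR h h' e hp pz b1 (cz_in h hs (by rw [s1]; clear b1; revert v; decide +kernel))
  have k1 : ∀ {p : G}, p ∈ Q' → p * z = z * p → ∀ {i : ℕ}, i < 5104 →
      (∀ v < 256, rc z a p v = ap8 (LM i) v) → _ := fun hp pz i hi k =>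
    fE i hi (k0 hp pz k).1 fun v hv => by
      obtain ⟨r, r1, r2, r3⟩ := (k0 hp pz k).2 v hv
      exact r3 ▸ R_W0 h h' e ne hs s1 r1 r2
  by_cases hA : ∀ r ∈ Q, r ∈ Q' → co a r < 2
  · obtain ⟨S, S1, S2⟩ := bigI h h' e hz z1
    have := pig h (F := {1, z, s, z * s}) (fun p hp => (S2 p hp).2.1) (fun p hp => (S2 p hp).2.2)
      (fun p hp p' hp' k => ?_) fun p hp i hi k _ => (k1 (S2 p hp).1 (S2 p hp).2.1 hi k).1
        fun v hv => by
          obtain ⟨r, r1, r2, r3⟩ := (k0 (S2 p hp).1 (S2 p hp).2.1 k).2 v hv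
          exact r3 ▸ hA r r1 r2
    · have c : ({1, z, s, z * s} : Finset G).card ≤ 4 := Finset.card_le_four
      simp only [List.length_cons, List.length_nil] at this
      omega
    · have := hA _ k (mul_mem (inv_mem (S2 p hp).1) (S2 p' hp').1)
      simp only [Finset.mem_insert, Finset.mem_singleton]
      rcases (by omega : co a (p⁻¹ * p') = 0 ∨ co a (p⁻¹ * p') = 1) with l | l
      · exact (eq_of_co_zero h.es h.fr k l).imp_right Or.inl
      · exact Or.inr (Or.inr (eq_of_co h.es h.fr k hs (l.trans s1.symm)))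
  simp only [not_forall] at hA
  obtain ⟨r0, r1, r2, r3⟩ := hA
  have fu := R_full h' h e.symm ne.symm hz z1 r2 r1 fun k => r3 (by
    rcases (by omega : co a' r0 = 0 ∨ co a' r0 = 1) with l | l
    · rcases eq_of_co_zero h'.es h'.fr r2 l with rfl | rfl
      · rw [co_one]; norm_num
      · rw [s1]; norm_num
    · rcases eq_of_co h'.es h'.fr r2 hz (l.trans z1.symm) with rfl | rfl
      · rw [co_z h.es h.fr]; norm_num
      · rw [e, co_zm h.es h.fr hs, s1]; norm_num)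
  have key : ∀ p ∈ Q', p * z = z * p → (∀ v ∈ W0, rc z a p v = v) → p ∈ Q := fun p hp pz k => by
    have : ∀ u < 256, (∀ w ∈ W0, bf w u = false) → u ∈ W0 := by decide +kernel
    obtain ⟨r, r1, r2, r3⟩ := fu _ (this _ (co_lt a' p) fun w hw => by
      obtain ⟨r, r1, r2, rfl⟩ := fu w hw
      refine (comm_iff h' r1 hp).mp ((h'.es.comm r r1 p hp).resolve_right fun l => ?_)
      rcases eq_of_co h.es h.fr (h.es.nrm _ pz _ r2) r2 (by
        rw [co_conj h.es h.fr pz r2, k _ (R_W0 h h' e ne hs s1 r2 r1)]) with m | m <;>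
        rw [mul_inv_eq_iff_eq_mul, l] at m
      · exact h'.es.ne _ m
      · exact ne (by simpa [mul_assoc] using m))
    rcases eq_of_co h'.es h'.fr hp r1 r3.symm with rfl | rfl
    exacts [r2, mul_mem hs r2]
  obtain ⟨p, hp, p2⟩ := exv h' (v := 2) (by norm_num)
  have pz : p * z = z * p := cz_in h' hz (by rw [z1]; decide +kernel) p hp p2
  have bW : ∀ v ∈ W0, v < 256 := by decide
  obtain ⟨i, hi, k, -⟩ := exL h pz (by
    rcases h'.es.sq p hp with l | l <;> rw [l]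
    exacts [one_mem _, hs])
  rcases (k1 hp pz hi k).2 with l | ⟨w, hw, l1, v, hv, l2⟩
  · have := R_W0 h' h e.symm ne.symm hz z1 hp (key p hp pz fun v hv => by rw [k v (bW v hv), l v hv])
    rw [p2] at this
    exact absurd this (by decide)
  obtain ⟨w1, w2, w3, w4⟩ := hEW w hw
  obtain ⟨c, c1, c2, c3, c4⟩ := exX h hs s1 w1 w3
  obtain ⟨d, d1, d2, d3, d4⟩ := exX h hs s1 w2 w4
  have mp := mem_cen.mpr pz
  have mc := mem_cen.mpr c1
  have md := mem_cen.mpr d1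
  have m1 := mul_mem (mul_mem mc mp) (inv_mem mc)
  have m2 := mul_mem (mul_mem md mp) (inv_mem md)
  have k2 : ∀ v < 256, rc z a (p * (c * p * c⁻¹ * (d * p * d⁻¹))) v = pr3 (LM i) w v := fun v hv => by
    rw [rc_mul h.es h.fr pz (mem_cen.mp (mul_mem m1 m2)), rc_mul h.es h.fr (mem_cen.mp m1) (mem_cen.mp m2),
      rc_mul h.es h.fr (mem_cen.mp (mul_mem mc mp)) (mem_cen.mp (inv_mem mc)), rc_mul h.es h.fr c1 pz,
      rc_mul h.es h.fr (mem_cen.mp (mul_mem md mp)) (mem_cen.mp (inv_mem md)), rc_mul h.es h.fr d1 pz,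
      k _ (rc_lt _ _), c3 _ (rc_lt _ _), k _ (rc_lt _ _), c4 _ (rc_lt _ _), d3 _ (rc_lt _ _),
      k _ (rc_lt _ _), d4 _ hv]
    rfl
  have b1 : v < 256 := by clear l2; revert v; decide
  exact l2 ((k2 v b1).symm.trans (rc_Q h.es h.fr (key _ (mul_mem hp (mul_mem (h'.es.nrm _ c2 _ hp)
    (h'.es.nrm _ d2 _ hp))) (mem_cen.mp (mul_mem mp (mul_mem m1 m2)))
    fun v hv => (k2 v (bW v hv)).trans (l1 v hv)) b1))

end

/-- The central involution is weakly closed in the extraspecial group. -/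
theorem wc (h : Ch 0 z Q a π) : ∀ g, g * z * g⁻¹ ∈ Q → g * z * g⁻¹ = z := fun g hs => by
  by_contra ne
  obtain ⟨Q', a', π', h', -⟩ := h.conj g rfl
  have e := h.es.qz _ hs
  by_cases hz : z ∈ Q'
  · obtain ⟨a, π, h, s1⟩ := norm1 h hs h'.es.zz h'.es.z1 ne
    obtain ⟨a', π', h', z1⟩ := norm1 h' hz h.es.zz h.es.z1 (Ne.symm ne)
    exact wc2 h h' e ne hs s1 hz z1
  · exact wc1 h' h e.symm hs hz

theorem wcI (h : Ch 0 z Q a π) {t : G} (c : IsConj z t) (ht : t ∈ Q) : t = z := by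
  obtain ⟨g, rfl⟩ := isConj_iff.mp c
  exact wc h g ht

end Cfsg.Co2
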