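import Cfsg.Agent.Co2.S4

/-! The classes of the commuting conjugates of the central involution. -/

set_option autoImplicit false
set_option maxRecDepth 100000
set_option synthInstance.maxSize 4096
set_option linter.unusedSectionVars false

namespace Cfsg.Co2

open Subgroup Cfsg.H6 Cfsg.Co.Rc
open Cfsg.Co3G (Sp)

variable {G : Type*} [Group G] [Finite G] {z s : G} {Q Q' : Subgroup G} {a a' : ℕ → G}
  {π : centralizer ({z} : Set G) →* Sp} {π' : centralizer ({s} : Set G) →* Sp}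

/-- The singular vectors in the span of a list. -/
def spS (L : List ℕ) : List ℕ :=
  ((L.sublists.map fun l => l.foldr (· ^^^ ·) 0).filter fun v => !qf false v).dedup

section
variable (h : Ch 0 z Q a π) (e : s * z = z * s)
include h e

theorem cz_fold : ∀ l : List ℕ, (∀ v ∈ l, v < 256 ∧ cz a Q s v) →
    l.foldr (· ^^^ ·) 0 < 256 ∧ cz a Q s (l.foldr (· ^^^ ·) 0)
  | [], _ => ⟨by norm_num, by
    have := cz_of h e (one_mem Q) (by simp)
    rwa [co_one] at this⟩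
  | x :: l, k => by
    obtain ⟨k1, k2⟩ := k x (by simp)
    obtain ⟨k3, k4⟩ := cz_fold l fun v hv => k v (by simp [hv])
    exact ⟨xor_lt k1 k3, cz_xor h e k1 k3 k2 k4⟩

theorem exS' {L : List ℕ} (k : ∀ v ∈ L, v < 256 ∧ cz a Q s v) : ∃ S : Finset G,
    S.card = 2 * (spS L).length ∧ ∀ p ∈ S, p ∈ Q ∧ p * s = s * p ∧ p * p = 1 := by
  have : ∀ v ∈ spS L, (v < 256 ∧ cz a Q s v) ∧ qf false v = false := fun v hv => by
    simp only [spS, List.mem_dedup, List.mem_filter, List.mem_map, List.mem_sublists] at hv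
    obtain ⟨⟨l, hl, rfl⟩, h2⟩ := hv
    exact ⟨cz_fold h e l fun v hv => k v (hl.subset hv), by simpa using h2⟩
  exact exS h e _ (List.nodup_dedup _) (fun v hv => ⟨(this v hv).1.1, (this v hv).2⟩)
    fun v hv => (this v hv).1.2

theorem bigS (ss : s * s = 1) (hs : s ∉ Q) : ∃ S : Finset G, 16 ≤ S.card ∧
    (¬ Cl (π ⟨s, mem_cen.mpr e⟩) 4 → 24 ≤ S.card) ∧ ∀ p ∈ S, p ∈ Q ∧ p * s = s * p ∧ p * p = 1 := by
  obtain ⟨i, -, -, h5, hc⟩ := exL h e (ss ▸ one_mem _)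
  generalize ik i = k at h5 hc
  obtain ⟨a', π', h', hk, -⟩ := h.reC hc
  have hT := rc_rep h' hk ss
  have k1 : ∀ L : List ℕ, (∀ v ∈ L, v < 256 ∧ qf false v = false ∧ ∃ u < 256,
      v = u ^^^ tM (rep k) u) → ∀ v ∈ L, v < 256 ∧ cz a' Q s v := fun L hL v hv => by
    obtain ⟨a1, a2, u, a3, rfl⟩ := hL v hv
    rw [← hT u a3] at a1 a2 ⊢
    exact ⟨a1, cz_W h' e ss a3 a2⟩
  interval_cases k
  · exact absurd (cl0 h hc) hs
  · obtain ⟨S, S1, S2⟩ := exS' h' e (k1 [1, 8, 32, 64] (by decide +kernel))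
    rw [show (spS [1, 8, 32, 64]).length = 16 by decide +kernel] at S1
    exact ⟨S, by omega, fun _ => by omega, S2⟩
  · obtain ⟨b, b1, b2⟩ := exb h' e ss hT
    obtain ⟨S, S1, S2⟩ := exS' h' e b2
    have : ∀ b < 16, 12 ≤ (spS (Hs b)).length := by decide +kernel
    have := this b b1
    exact ⟨S, by omega, fun _ => by omega, S2⟩
  · obtain ⟨S, S1, S2⟩ := exS' h' e (k1 [1, 4, 32, 128] (by decide +kernel))
    rw [show (spS [1, 4, 32, 128]).length = 16 by decide +kernel] at S1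
    exact ⟨S, by omega, fun _ => by omega, S2⟩
  · obtain ⟨S, S1, S2⟩ := exS' h' e (k1 [1, 8, 36] (by decide +kernel))
    rw [show (spS [1, 8, 36]).length = 8 by decide +kernel] at S1
    exact ⟨S, by omega, fun n => absurd hc n, S2⟩

theorem conj_zs {v : ℕ} (hv : v < 256) (k : rc z a s v = v) (n : ¬ cz a Q s v) :
    IsConj (z * s) s := by
  obtain ⟨p, hp, rfl⟩ := exv h hv
  refine (isConj_iff.mpr ⟨p, ?_⟩ : IsConj s (z * s)).symm
  rw [anti_of h e hp k n]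
  group

theorem conj_W' (c : IsConj (z * s) s) {p : G} (hp : p ∈ Q) {u : ℕ} (hu : u < 256)
    (k : co a p = u ^^^ rc z a s u) : IsConj s (p * s) :=
  (conj_W h e hp hu k).elim id fun l => c.symm.trans l

variable (h' : Ch 0 s Q' a' π')
include h'

theorem R_one (c : IsConj (z * s) s) {r : G} (hr : r ∈ Q) (hr' : r ∈ Q') {u : ℕ} (hu : u < 256)
    (k : co a r = u ^^^ rc z a s u) : r = 1 := by
  simpa using wcI h' (conj_W' h e c hr hu k) (mul_mem hr' h'.es.zQ)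

variable (ne : s ≠ z) (cj : IsConj z s)
include ne cj

theorem zn : z ∉ Q' := fun k => ne (wcI h' cj.symm k).symm

theorem not4 : ¬ Cl (π ⟨s, mem_cen.mpr e⟩) 4 := fun hc => by
  classical
  obtain ⟨a, π, h, hk, -⟩ := h.reC hc
  have ss := h'.es.zz
  have hT := rc_rep h hk ss
  have c : IsConj (z * s) s := by
    obtain ⟨q, hq, q1⟩ := exv h (v := 16) (by norm_num)
    obtain ⟨h1, h2⟩ := co_n h e hq
    rw [q1, hT _ (by norm_num), show 16 ^^^ tM (rep 4) 16 = 71 by decide +kernel] at h2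
    refine conj_zs h e (v := 71) (by norm_num) (by rw [hT _ (by norm_num)]; decide +kernel) fun k => ?_
    have k1 := k _ h1 h2
    have := (sq_iff h h1).mp (by
      have tt : q * s * q⁻¹ * (q * s * q⁻¹) = 1 := by rw [conj_mul, ss]; simp
      rw [inv_eq_of_mul_eq_one_right ss] at k1 ⊢
      generalize q * s * q⁻¹ = t at *
      rw [mul_assoc t, ← k1, mul_assoc t s s, ss, mul_one, tt])
    rw [h2] at this
    exact absurd this (by decide)
  have kW : ∀ q ∈ Q, rc z a s (co a q) = co a q → ∃ u < 256, co a q = u ^^^ rc z a s u :=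
    fun q _ k => by
      have : ∀ v < 256, tM (rep 4) v = v → ∃ u < 256, v = u ^^^ tM (rep 4) u := by decide +kernel
      obtain ⟨u, u1, u2⟩ := this _ (co_lt a q) ((hT _ (co_lt _ _)).symm.trans k)
      exact ⟨u, u1, by rw [hT u u1, ← u2]⟩
  have hR : ∀ r ∈ Q, r ∈ Q' → r = 1 := fun r hr hr' => by
    obtain ⟨u, u1, u2⟩ := kW r hr (by
      rw [← co_conj h.es h.fr e hr, ← h'.es.qz r hr', mul_inv_cancel_right])
    exact R_one h e h' c hr hr' u1 u2
  obtain ⟨S, S1, -, S2⟩ := bigS h' e.symm h.es.zz (zn h e h' ne cj)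
  have := pig h (F := {1}) (fun p hp => (S2 p hp).2.1) (fun p hp => (S2 p hp).2.2)
    (fun p hp p' hp' k => Finset.mem_singleton.mpr
      (hR _ k (mul_mem (inv_mem (S2 p hp).1) (S2 p' hp').1))) fun p hp i hi k l =>
    (listA h h' e hT (fun r r1 r2 => by rw [hR r r1 r2, co_one]) (S2 p hp).1 (S2 p hp).2.1 hi
      k).resolve_right (by
      rintro ⟨a1, -, a2⟩
      rw [a1] at l
      obtain ⟨y, hy⟩ := l
      obtain ⟨d, rfl⟩ := h.surj y
      have hq : d.1 * p * d.1⁻¹ * s⁻¹ ∈ Q := (h.ker (d * ⟨p, mem_cen.mpr (S2 p hp).2.1⟩ * d⁻¹ *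
        (⟨s, mem_cen.mpr e⟩ : centralizer ({z} : Set G))⁻¹)).mp (by
          rw [map_mul, map_mul, map_mul, map_inv, map_inv, hy, hk, mul_inv_cancel])
      have tt : d.1 * p * d.1⁻¹ * (d.1 * p * d.1⁻¹) = 1 := by rw [conj_mul, (S2 p hp).2.2]; simp
      have c1 : IsConj p (d.1 * p * d.1⁻¹) := isConj_iff.mpr ⟨_, rfl⟩
      generalize d.1 * p * d.1⁻¹ = t at *
      obtain ⟨u, u1, u2⟩ := kW _ hq (by
        rw [← co_conj h.es h.fr e hq, ← co_inv h.es h.fr hq, mul_inv_rev, inv_inv,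
          inv_eq_of_mul_eq_one_right tt, inv_eq_of_mul_eq_one_right ss, mul_assoc, mul_assoc, ss,
          mul_one])
      have := conj_W' h e c hq u1 u2
      rw [inv_mul_cancel_right] at this
      exact a2 (wcI h' (this.trans c1.symm) (S2 p hp).1))
  simp only [List.length_cons, List.length_nil, Finset.card_singleton] at this
  omega

theorem not_half (hT : ∀ v < 256, rc z a s v = tM (rep 2) v) : ¬ IsConj (z * s) s := fun c => by
  classical
  have hz := zn h e h' ne cj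
  obtain ⟨b, b1, b2⟩ := exb h e h'.es.zz hT
  have k1 : ∀ r ∈ Q, r ∈ Q' → co a r ∈ [0, 1, 12, 13] → r = 1 := fun r hr hr' k => by
    have : ∀ v ∈ [0, 1, 12, 13], ∃ u < 256, v = u ^^^ tM (rep 2) u := by decide +kernel
    obtain ⟨u, u1, u2⟩ := this _ k
    exact R_one h e h' c hr hr' u1 (by rw [hT u u1, ← u2])
  have k2 : ∀ r ∈ Q, r ∈ Q' → ∀ v ∈ Hs b, bf (co a r) v = false := fun r hr hr' v hv =>
    R_bf h h' e hz hr hr' (b2 v hv).1 (b2 v hv).2
  obtain ⟨r, r1, r2, r3⟩ : ∃ r ∈ Q, r ∈ Q' ∧ ∀ x ∈ Q, x ∈ Q' → x = 1 ∨ x = r := by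
    by_cases k : ∃ r ∈ Q, r ∈ Q' ∧ r ≠ 1
    · obtain ⟨r, r1, r2, r3⟩ := k
      refine ⟨r, r1, r2, fun x x1 x2 => or_iff_not_imp_left.mpr fun x3 => ?_⟩
      have := k1 _ (mul_mem x1 r1) (mul_mem x2 r2) (by
        rw [co_mul h.es h.fr x1 r1]
        exact hHs2 b b1 _ (co_lt _ _) (k2 x x1 x2) (fun l => x3 (k1 x x1 x2 l)) _ (co_lt _ _) (k2 r r1 r2)
          (fun l => r3 (k1 r r1 r2 l)))
      rw [eq_inv_of_mul_eq_one_left this, inv_eq_of_mul_eq_one_right (R_sq h h' e ne r1 r2)]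
    · exact ⟨1, one_mem _, one_mem _, fun x x1 x2 => Or.inl (by_contra fun n => k ⟨x, x1, x2, n⟩)⟩
  obtain ⟨S, -, S1, S2⟩ := bigS h' e.symm h.es.zz hz
  have := pig h (F := {1, r}) (fun p hp => (S2 p hp).2.1) (fun p hp => (S2 p hp).2.2)
    (fun p hp p' hp' k => by
      simpa only [Finset.mem_insert, Finset.mem_singleton] using
        r3 _ k (mul_mem (inv_mem (S2 p hp).1) (S2 p' hp').1)) fun p hp i hi k _ =>
    listB h h' e hT b2 (r0 := co a r) (fun x x1 x2 => (r3 x x1 x2).imp (fun l => by rw [l, co_one])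
      fun l => by rw [l]) (S2 p hp).1 (S2 p hp).2.1 hi k
  have := fB b b1 _ (co_lt a r) (k2 r r1 r2) (or_iff_not_imp_right.mpr fun l => by
    rw [k1 r r1 r2 (not_not.mp l), co_one])
  have := S1 (not4 h' e.symm h ne.symm cj.symm)
  have cF : ({1, r} : Finset G).card ≤ 2 := Finset.card_le_two
  nlinarith

theorem full2 (hT : ∀ v < 256, rc z a s v = tM (rep 2) v) {v : ℕ} (hv : v < 256)
    (k : rc z a s v = v) : cz a Q s v :=
  by_contra fun n => not_half h e h' ne cj hT (conj_zs h e hv k n)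

theorem cl2 (hc : Cl (π ⟨s, mem_cen.mpr e⟩) 2) : Cl (π' ⟨z, mem_cen.mpr e.symm⟩) 2 := by
  obtain ⟨a, π, h, hk, -⟩ := h.reC hc
  have hT := rc_rep h hk h'.es.zz
  obtain ⟨i, -, -, h5, hc⟩ := exL h' e.symm (h.es.zz ▸ one_mem _)
  generalize ik i = k at h5 hc
  have q8 := fun hk => q8P h' h e.symm (u := 34) (v := 198) (by norm_num) (by norm_num)
    (full2 h e h' ne cj hT (by norm_num) (by rw [hT _ (by norm_num)]; decide +kernel))
    (full2 h e h' ne cj hT (by norm_num) (by rw [hT _ (by norm_num)]; decide +kernel))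
    (by decide +kernel) hk hc
  interval_cases k
  · exact absurd (cl0 h' hc) (zn h e h' ne cj)
  · exact (q8 (Or.inl rfl)).elim
  · exact hc
  · exact (q8 (Or.inr rfl)).elim
  · exact absurd hc (not4 h' e.symm h ne.symm cj.symm)

theorem ex2 {k : ℕ} (hk : k = 1 ∨ k = 3) (hc : Cl (π' ⟨z, mem_cen.mpr e.symm⟩) k) :
    ∃ t, ∃ l : t * z = z * t, t ≠ z ∧ IsConj z t ∧ Cl (π ⟨t, mem_cen.mpr l⟩) 2 := by
  classical
  by_contra hn
  obtain ⟨a', π', h', hk', -⟩ := h'.reC hc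
  have hT := rc_rep h' hk' h.es.zz
  have zi := h.es.zinv
  have d1 : ∀ k ∈ [1, 3], ∀ u < 256, qf false (u ^^^ tM (rep k) u) = false ∧
      (tM (rep k) u = u → qf false u = false) := by decide +kernel
  replace d1 := d1 k (by simpa using hk)
  have : ∀ v, ∃ p, v < 256 → p ∈ Q' ∧ co a' p = v := fun v => by
    by_cases hv : v < 256
    · obtain ⟨p, hp⟩ := exv h' hv
      exact ⟨p, fun _ => hp⟩
    · exact ⟨1, fun e => absurd e hv⟩
  choose f hf using this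
  have n1 : ∀ q ∈ Q', q * z * q⁻¹ * z⁻¹ ∈ centralizer {z} := fun q hq => by
    obtain ⟨h1, h2⟩ := co_n h' e.symm hq
    exact mem_cen.mpr (cz_W h' e.symm h.es.zz (co_lt a' q)
      (by rw [hT _ (co_lt _ _)]; exact (d1 _ (co_lt _ _)).1) _ h1 h2)
  let N : ℕ → Sp := fun v => if hv : v < 256 then π ⟨_, n1 _ (hf v hv).1⟩ else 1
  let A := (Q'.subgroupOf (centralizer {z})).map π
  have hA : ∀ x ∈ A, x * x = 1 := by
    rintro _ ⟨p, hp, rfl⟩
    rw [← map_mul, ← map_one π]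
    refine congrArg π (Subtype.ext ((sq_iff h' hp).mpr ((d1 _ (co_lt _ _)).2 ?_)))
    rw [← hT _ (co_lt _ _), ← co_conj h'.es h'.fr e.symm hp, coe_subtype, ← mem_cen.mp p.2,
      mul_inv_cancel_right]
  have hN : ∀ v, N v ∈ A := fun v => by
    by_cases hv : v < 256
    · exact ⟨⟨_, n1 _ (hf v hv).1⟩, (co_n h' e.symm (hf v hv).1).1, by simp only [N, dif_pos hv]⟩
    · simp only [N, dif_neg hv]
      exact one_mem _
  have hσ : π ⟨s, mem_cen.mpr e⟩ ∈ A := ⟨_, h'.es.zQ, rfl⟩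
  have cm : ∀ x ∈ A, ∀ y ∈ A, x * y = y * x := fun x hx y hy => by
    rw [← inv_eq_of_mul_eq_one_right (hA _ (mul_mem hx hy)), mul_inv_rev,
      inv_eq_of_mul_eq_one_right (hA _ hx), inv_eq_of_mul_eq_one_right (hA _ hy)]
  have m : ∀ u < 256, ∀ v < 256, N (u ^^^ v) = N u * N v *
      if bf (v ^^^ tM (rep k) v) u = true then π ⟨s, mem_cen.mpr e⟩ else 1 := fun u hu v hv => by
    obtain ⟨u1, u2⟩ := hf u hu
    obtain ⟨v1, v2⟩ := hf v hv
    obtain ⟨w1, w2⟩ := hf _ (xor_lt hu hv)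
    obtain ⟨x1, x2⟩ := co_n h' e.symm v1
    have x3 := comm_iff h' x1 u1
    rw [x2, u2, v2, hT v hv] at x3
    have e1 : f (u ^^^ v) * z * (f (u ^^^ v))⁻¹ * z⁻¹ =
        f u * (f v * z * (f v)⁻¹ * z⁻¹) * (f u)⁻¹ * (f u * z * (f u)⁻¹ * z⁻¹) := by
      rcases eq_of_co h'.es h'.fr w1 (mul_mem u1 v1)
        (by rw [w2, co_mul h'.es h'.fr u1 v1, u2, v2]) with l | l <;> rw [l]
      · group
      · rw [← h'.es.qz _ (mul_mem u1 v1), mul_assoc _ s z, e]
        group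
    rw [cm _ (mul_mem (hN u) (hN v)) _ (by split_ifs; exacts [hσ, one_mem _]), cm _ (hN u) _ (hN v)]
    simp only [N, dif_pos hu, dif_pos hv, dif_pos (xor_lt hu hv)]
    split_ifs with l
    · rw [← map_mul, ← map_mul]
      refine congrArg π (Subtype.ext (e1.trans ?_))
      rw [(h'.es.comm _ x1 _ u1).resolve_left (by simp [x3, l])]
      simp [mul_assoc]
    · rw [one_mul, ← map_mul]
      refine congrArg π (Subtype.ext (e1.trans ?_))
      rw [x3.mpr (by simpa using l)]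
      simp [mul_assoc]
  have cl : ∀ v < 256, tM (rep k) v ≠ v → Cl (N v) 1 ∨ Cl (N v) 3 := fun v hv l => by
    obtain ⟨v1, v2⟩ := hf v hv
    have t1 : f v * z * (f v)⁻¹ * z = z * (f v * z * (f v)⁻¹) := mem_cen.mp
      ((mul_mem_cancel_right (inv_mem (mem_cen.mpr rfl))).mp (n1 _ v1))
    have t2 : f v * z * (f v)⁻¹ ≠ z := fun n => l (by
      have := (co_n h' e.symm v1).2
      rw [n, mul_inv_cancel, co_one, v2, hT v hv] at this
      exact (Nat.eq_of_xor_eq_zero this.symm).symm)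
    have t3 : IsConj z (f v * z * (f v)⁻¹) := isConj_iff.mpr ⟨_, rfl⟩
    obtain ⟨Q'', a'', π'', h'', -⟩ := h.conj (f v) rfl
    obtain ⟨i, -, -, h5, hc⟩ := exL h t1 (h''.es.zz ▸ one_mem _)
    have t4 : N v = π ⟨_, mem_cen.mpr t1⟩ := by
      have := (h.ker ⟨z, mem_cen.mpr rfl⟩).mpr h.es.zQ
      rw [← mul_one (π _), ← inv_one, ← this, ← map_inv, ← map_mul]
      exact dif_pos hv
    rw [t4]
    generalize ik i = j at h5 hc
    interval_cases j
    · exact absurd (wcI h t3 (cl0 h hc)) t2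
    · exact Or.inl hc
    · exact absurd ⟨_, t1, t2, t3, hc⟩ hn
    · exact Or.inr hc
    · exact absurd hc (not4 h t1 h'' t2 t3)
  obtain ⟨x, y, u, v, b1, b2, b3⟩ : ∃ x y u v : ℕ, (x < 256 ∧ y < 256 ∧ u < 256 ∧ v < 256) ∧
      (∀ p ∈ [(x, y), (u, v)], bf (p.2 ^^^ tM (rep k) p.2) p.1 = true) ∧
      (∀ p ∈ [(x, u), (x, v), (y, u), (y, v), (x ^^^ y, u), (x ^^^ y, v), (u ^^^ v, x), (u ^^^ v, y),
        (x ^^^ y, u ^^^ v)], bf (p.2 ^^^ tM (rep k) p.2) p.1 = false) ∧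
      ∀ w ∈ [x, y, u, v, x ^^^ u, x ^^^ v, y ^^^ u, y ^^^ v, x ^^^ y, u ^^^ v, x ^^^ y ^^^ u,
        x ^^^ y ^^^ v, u ^^^ v ^^^ x, u ^^^ v ^^^ y, x ^^^ y ^^^ (u ^^^ v)],
        w < 256 ∧ tM (rep k) w ≠ w := by
    rcases hk with rfl | rfl
    exacts [⟨2, 128, 4, 18, by decide +kernel⟩, ⟨2, 64, 8, 18, by decide +kernel⟩]
  obtain ⟨b3, b4⟩ := b3
  obtain ⟨c1, c2, c3, c4⟩ := b1
  replace b4 := fun w hw => cl w (b4 w hw).1 (b4 w hw).2
  simp only [List.forall_mem_cons, List.not_mem_nil, false_imp_iff, implies_true, and_true] at b2 b3 b4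
  have c5 := xor_lt c1 c2
  have c6 := xor_lt c3 c4
  simp only [m _ c5 _ c6, m _ c5 _ c3, m _ c5 _ c4, m _ c6 _ c1, m _ c6 _ c2, m _ c1 _ c2, m _ c3 _ c4,
    m _ c1 _ c3, m _ c1 _ c4, m _ c2 _ c3, m _ c2 _ c4, b2, b3, if_true, Bool.false_eq_true, if_false,
    mul_one] at b4
  refine no_four hA hσ (hN x) (hN y) (hN u) (hN v) ?_
  simpa only [List.forall_mem_cons, List.not_mem_nil, false_imp_iff, implies_true, and_true] using b4

end

/-- A conjugate over the second class centralises all lifts of its fixed vectors. -/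
theorem no_half (h : Ch 0 z Q a π) {g : G} (hs : g * z * g⁻¹ ∈ centralizer ({z} : Set G))
    (k : π ⟨_, hs⟩ = evL Co3G.evM (rep 2)) : ∀ q ∈ Q, rc z a (g * z * g⁻¹) (co a q) = co a q →
    q * (g * z * g⁻¹) = g * z * g⁻¹ * q := fun q hq l => by
  obtain ⟨Q', a', π', h', -⟩ := h.conj g rfl
  have hT := rc_rep h k h'.es.zz
  refine full2 h (mem_cen.mp hs) h' (fun n => ?_) (isConj_iff.mpr ⟨g, rfl⟩) hT (co_lt _ _) l q hq rfl
  have := hT 16 (by norm_num)
  rw [show ((⟨_, hs⟩ : centralizer ({z} : Set G)) : G) = z from n,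
    rc_Q h.es h.fr h.es.zQ (by norm_num)] at this
  exact absurd this (by decide +kernel)

/-- There is a commuting conjugate with both involutions over the second class. -/
theorem good (h : Ch 0 z Q a π) {g0 : G} (e : g0 * z * g0⁻¹ * z = z * (g0 * z * g0⁻¹))
    (ne : g0 * z * g0⁻¹ ≠ z) : ∃ g, ∃ (hs : g * z * g⁻¹ ∈ centralizer ({z} : Set G))
      (hs' : g⁻¹ * z * g ∈ centralizer ({z} : Set G)),
      π ⟨_, hs⟩ = evL Co3G.evM (rep 2) ∧ π ⟨_, hs'⟩ = evL Co3G.evM (rep 2) := by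
  have k1 : ∀ g, g * z * g⁻¹ * z = z * (g * z * g⁻¹) → g⁻¹ * z * g * z = z * (g⁻¹ * z * g) :=
    fun g e => by
      calc _ = g⁻¹ * (z * (g * z * g⁻¹)) * g := by group
        _ = _ := by rw [← e]; group
  obtain ⟨t, l, t1, t2, t3⟩ : ∃ t, ∃ l : t * z = z * t, t ≠ z ∧ IsConj z t ∧
      Cl (π ⟨t, mem_cen.mpr l⟩) 2 := by
    obtain ⟨Q', a', π', h', -⟩ := h.conj g0 rfl
    have cj : IsConj z (g0 * z * g0⁻¹) := isConj_iff.mpr ⟨_, rfl⟩
    obtain ⟨i, -, -, h5, hc⟩ := exL h' e.symm (h.es.zz ▸ one_mem _)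
    generalize ik i = k at h5 hc
    interval_cases k
    · exact absurd (cl0 h' hc) (zn h e h' ne cj)
    · exact ex2 h e h' ne cj (Or.inl rfl) hc
    · exact ⟨_, e, ne, cj, cl2 h' e.symm h ne.symm cj.symm hc⟩
    · exact ex2 h e h' ne cj (Or.inr rfl) hc
    · exact absurd hc (not4 h' e.symm h ne.symm cj.symm)
  obtain ⟨g, rfl⟩ := isConj_iff.mp t2
  obtain ⟨Q', a', π', h', -, -, h4⟩ := h.conj g rfl
  obtain ⟨y', hy'⟩ := cl2 h l h' t1 t2 t3
  rw [h4 ⟨_, mem_cen.mpr (k1 g l)⟩ _ (by simp [mul_assoc])] at hy'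
  obtain ⟨y, hy⟩ := t3
  obtain ⟨c, rfl⟩ := h.surj y
  obtain ⟨d, rfl⟩ := h.surj y'
  rw [← map_inv, ← map_mul, ← map_mul] at hy hy'
  have e1 : c * g * d.1⁻¹ * z * (c * g * d.1⁻¹)⁻¹ = c * (g * z * g⁻¹) * c.1⁻¹ := by
    rw [mul_assoc _ _ z, mem_cen.mp (inv_mem d.2)]; group
  have e2 : (c * g * d.1⁻¹)⁻¹ * z * (c * g * d.1⁻¹) = d * (g⁻¹ * z * g) * d.1⁻¹ := by
    rw [mul_assoc _ z, ← mul_assoc z, ← mul_assoc z, ← mem_cen.mp c.2]; group
  exact ⟨c * g * d.1⁻¹, e1 ▸ (c * ⟨_, mem_cen.mpr l⟩ * c⁻¹).2,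
    e2 ▸ (d * ⟨_, mem_cen.mpr (k1 g l)⟩ * d⁻¹).2, (congrArg π (Subtype.ext e1)).trans hy,
    (congrArg π (Subtype.ext e2)).trans hy'⟩

end Cfsg.Co2
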