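import Cfsg.Agent.Co3.F3
import Cfsg.Agent.Co2.E1

/-! The upper bound for the order of `Co₂`: at most 47104 conjugates of the vector fixed by `McL`. -/

set_option autoImplicit false
set_option maxRecDepth 100000

namespace Cfsg.Co2T

open Cfsg.H4.Golay Cfsg.H6 Cfsg.H6.Leech Cfsg.Co Cfsg.Spor Cfsg.Co3U

theorem lab_orb {G : Type*} [Group G] {Ω : Type*} {ψ : G →* Equiv.Perm Ω} {ev : ℕ → G} {f : ℕ → Ω}
    {tab : ℕ → ℕ → ℕ} {n m : ℕ} (h : Lab ψ ev f tab n m) {b : ℕ} {Ws Vs : List (List ℕ)}
    {S us : List ℕ} (hc : dvChk tab n m b Ws Vs S us = true) :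
    ∃ T ⊆ orb ψ (gen ev (Ws ++ Vs)) (f b), T.ncard = S.length := by
  unfold dvChk at hc
  rw [frcB_eq] at hc
  simp only [Bool.and_eq_true, List.all_eq_true, decide_eq_true_eq, Nat.beq_eq] at hc
  obtain ⟨⟨⟨⟨⟨c1, c2⟩, c3⟩, c4⟩, c5, c6⟩, c7⟩ := hc
  have hS := ltB_spec c3
  have hb := List.mem_of_elem_eq_true c4
  have hnd : S.Nodup := (List.isChain_iff_pairwise.mp c2).imp ne_of_lt
  refine ⟨f '' {p | p ∈ S}, ?_, ?_⟩
  · rintro _ ⟨p, hp, rfl⟩
    refine (orbRun2_sound (Q := fun q => q < n ∧ f q ∈ orb ψ (gen ev (Ws ++ Vs)) (f b)) ?_ us _ ?_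
      c6 p (mem_maskL hp)).2
    · rintro w hw q ⟨h1, h2⟩
      obtain ⟨h3, h4⟩ := h.tr (c1 w hw) h1
      exact ⟨h4, h3 ▸ orb_step h2 (evL_mem_gen ev hw)⟩
    · intro q hq
      have hq' : (1 <<< b).testBit q = true := hq
      rw [Nat.one_shiftLeft, Nat.testBit_two_pow, decide_eq_true_eq] at hq'
      exact hq' ▸ ⟨hS b hb, mem_orb_self _ _ _⟩
  · rw [Set.InjOn.ncard_image (s := {p | p ∈ S})
      (fun p hp p' hp' e => h.inj p (hS p hp) p' (hS p' hp') e),
      ← List.coe_toFinset, Set.ncard_coe_finset, List.toFinset_card_of_nodup hnd]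

theorem yv530 : yv 530 = leechU := Subtype.ext (funext fun i => by
  rw [yv_val (by norm_num)]
  revert i
  decide +kernel)

theorem finite3 : Finite Co3 :=
  Finite.of_injective _ (Subgroup.inclusion_injective (inf_le_left : Co3 ≤ Co0))

theorem card_McL_le : Nat.card (fixS Co3.subtype [leechU]) ≤ 898128000 := by
  have := finite3
  obtain ⟨T, h1, h2⟩ := lab_orb lab v0
  have h3 : gen ev Ws ≤ Co3 := gen_le fun w hw =>
    mem (List.all_eq_true.mp (by decide +kernel : Ws.all (fixB img 6 [0]) = true) w hw)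
  have h4 : T ⊆ orb Co3.subtype ⊤ leechU := fun x hx => by
    obtain ⟨g, hg, e⟩ := h1 hx
    exact ⟨⟨g, h3 hg⟩, trivial, yv530 ▸ e⟩
  have h5 := card_fixS_cons Co3.subtype leechU []
  rw [fixS_nil, Subgroup.card_top, exists_equiv.2.1] at h5
  have h6 : (orb Co3.subtype ⊤ leechU).Finite := Set.finite_of_ncard_ne_zero fun e => by
    rw [e, zero_mul] at h5
    omega
  have h7 := Set.ncard_le_ncard h4 h6
  rw [h2, show List.length _ = 552 by decide +kernel] at h7
  have := Nat.mul_le_mul_right (Nat.card (fixS Co3.subtype [leechU])) h7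
  omega

/-- The three shapes of the minimal vectors. -/
theorem shp {z : leechLattice} (h1 : sqNorm z.1 = 32) : (∀ i, z.1 i % 4 = 0) ∨
    (∃ c : golayCode, wt c.1 = 8 ∧ ∃ P ⊆ support₂ c.1, Even P.card ∧ z.1 = fB c P) ∨
    ∃ c : golayCode, ∃ j, z.1 = fC c j := by
  unfold sqNorm at h1
  rcases types z.2 with ⟨c, hc, k, k8⟩ | ⟨c, hc, k, -⟩
  · have n1 : ∀ i ∈ Finset.univ, 0 ≤ z.1 i ^ 2 - 4 * lf c i := fun i _ => by
      have a := k i
      rcases lf_cases c i with b | b <;> rw [b] at a ⊢
      · nlinarith [sq_nonneg (z.1 i)]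
      · rcases le_or_gt (z.1 i) 0 with d | d
        · have : z.1 i ≤ -2 := by omega
          nlinarith
        · have : 2 ≤ z.1 i := by omega
          nlinarith
    have n2 : ∑ i, (z.1 i ^ 2 - 4 * lf c i) = 32 - 4 * wt c := by
      rw [Finset.sum_sub_distrib, ← Finset.mul_sum, h1, wt]
    have n3 := Finset.sum_nonneg n1
    rcases wt_cases hc with w | w | w | w | w
    · exact Or.inl fun i => by rw [k, lf_of_wt_zero w, mul_zero]
    · have n4 := (Finset.sum_eq_zero_iff_of_nonneg n1).mp (by omega)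
      have n5 : ∀ i, (lf c i = 0 ∧ z.1 i = 0) ∨ (lf c i = 1 ∧ (z.1 i = 2 ∨ z.1 i = -2)) := fun i => by
        have a := n4 i (Finset.mem_univ i)
        rcases lf_cases c i with b | b <;> rw [b] at a
        · exact Or.inl ⟨b, pow_eq_zero_iff two_ne_zero |>.mp (by omega)⟩
        · refine Or.inr ⟨b, ?_⟩
          have : (z.1 i - 2) * (z.1 i + 2) = 0 := by linear_combination a
          rcases mul_eq_zero.mp this with d | d <;> omega
      let P := Finset.univ.filter fun i => z.1 i < 0
      have n6 : z.1 = fB ⟨c, hc⟩ P := funext fun i => by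
        have := n5 i
        simp only [fB, P, Finset.mem_filter, Finset.mem_univ, true_and]
        split_ifs <;> omega
      have n7 : ∑ i, z.1 i = 16 - 4 * P.card := by
        rw [n6]
        simp only [fB, Finset.sum_sub_distrib, ← Finset.mul_sum, Finset.sum_ite_mem,
          Finset.univ_inter, Finset.sum_const]
        rw [show ∑ i, lf c i = wt c from rfl, w]
        simp [mul_comm]
      refine Or.inr (Or.inl ⟨⟨c, hc⟩, w, P, fun i hi => mem_supp.mpr ?_, ?_, n6⟩)
      · have d : z.1 i < 0 := (Finset.mem_filter.mp hi).2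
        have := n5 i
        show lf c i = 1
        omega
      · rw [Nat.even_iff]
        omega
    · omega
    · omega
    · omega
  · have k' : ∀ i, (Co.sg c i * z.1 i) % 4 = 1 := fun i => by
      have := k i
      unfold Co.sg
      rcases lf_cases c i with b | b <;> rw [b] at this ⊢ <;> omega
    have q : ∀ i, (Co.sg c i * z.1 i) ^ 2 = z.1 i ^ 2 := fun i => by
      rw [mul_pow, sq (Co.sg c i), sg_mul_self, one_mul]
    have n1 : ∀ i, 0 ≤ z.1 i ^ 2 - 1 := fun i => by
      have a := k i
      have : z.1 i ≠ 0 := by omega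
      have := (one_le_sq_iff_one_le_abs _).mpr (Int.one_le_abs this)
      omega
    have n2 : ∑ i, (z.1 i ^ 2 - 1) = 8 := by
      rw [Finset.sum_sub_distrib, h1, sum_one]
      rfl
    obtain ⟨j, n3⟩ : ∃ j, z.1 j ^ 2 - 1 ≠ 0 := by
      by_contra hn
      push Not at hn
      simp [hn] at n2
    rw [split _ j] at n2
    have n4 : 0 ≤ ∑ i ∈ Finset.univ.erase j, (z.1 i ^ 2 - 1) := Finset.sum_nonneg fun i _ => n1 i
    have n5 : Co.sg c j * z.1 j = -3 := by
      have a := k' j
      rw [← q] at n2 n3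
      generalize Co.sg c j * z.1 j = y at *
      have : -3 ≤ y := by nlinarith
      have : y ≤ 3 := by nlinarith
      have : y ≠ 1 := by
        rintro rfl
        exact n3 rfl
      omega
    rw [← q j, n5] at n2
    have n6 := (Finset.sum_eq_zero_iff_of_nonneg fun i _ => n1 i).mp
      (by omega : ∑ i ∈ Finset.univ.erase j, (z.1 i ^ 2 - 1) = 0)
    refine Or.inr (Or.inr ⟨⟨c, hc⟩, j, funext fun i => ?_⟩)
    have a : z.1 i = Co.sg c i * (Co.sg c i * z.1 i) := by rw [← mul_assoc, sg_mul_self, one_mul]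
    rw [a]
    unfold fC
    split_ifs with b
    · rw [b, n5]
    · have d := n6 i (by simp [b])
      rw [← q] at d
      have f := k' i
      generalize Co.sg c i * z.1 i = y at *
      have : (y - 1) * (y + 1) = 0 := by linear_combination d
      rcases mul_eq_zero.mp this with d | d
      · rw [show y = 1 by omega]
      · omega

theorem card_P (P : (GolayPt → ZMod 2) → Prop) [DecidablePred P] (B : ℕ → Bool)
    (h : ∀ m, B m = true ↔ P (wd m)) :
    (Finset.univ.filter fun c : golayCode => P c.1).card = cnt (fun p => frcB B (xv rb p 12)) 4096 := by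
  rw [card_filter_code fun c => P c.1, cnt_eq]
  exact congrArg Finset.card (Finset.filter_congr fun p _ => by rw [frcB_eq, h]; exact Iff.rfl)

/-- The octads that separate the two points. -/
noncomputable def CB : Finset golayCode :=
  Finset.univ.filter fun c => lf c.1 none + lf c.1 (some 0) = 1 ∧ wt c.1 = 8

/-- The words with the same value at the two points. -/
noncomputable def CC (b : ℤ) : Finset golayCode :=
  Finset.univ.filter fun c => lf c.1 none = b ∧ lf c.1 (some 0) = b

theorem card_CB : CB.card = 352 := by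
  refine (card_P (fun c => lf c none + lf c (some 0) = 1 ∧ wt c = 8) (fun m =>
    ((if m.testBit 23 then 1 else 0) + (if m.testBit 0 then 1 else 0) : ℤ) == 1 &&
      (sm fun i => if m.testBit i then 1 else 0) == 8) fun m => ?_).trans (by decide +kernel)
  rw [Bool.and_eq_true, beq_iff_eq, beq_iff_eq, ← wt_wd, lf_wd, lf_wd]
  exact Iff.rfl

theorem card_CC {b : ℤ} (hb : b = 0 ∨ b = 1) : (CC b).card = 1024 := by
  refine (card_P (fun c => lf c none = b ∧ lf c (some 0) = b) (fun m =>
    (if m.testBit 23 then 1 else 0 : ℤ) == b && (if m.testBit 0 then 1 else 0 : ℤ) == b)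
      fun m => ?_).trans (by rcases hb with rfl | rfl <;> decide +kernel)
  rw [Bool.and_eq_true, beq_iff_eq, beq_iff_eq, lf_wd, lf_wd]
  exact Iff.rfl

/-- The subsets of even size. -/
def EP (s : Finset GolayPt) : Finset (Finset GolayPt) :=
  ({0, 2, 4, 6} : Finset ℕ).biUnion fun k => s.powersetCard k

theorem card_EP {s : Finset GolayPt} (h : s.card = 7) : (EP s).card ≤ 64 := by
  refine Finset.card_biUnion_le.trans ?_
  simp only [Finset.card_powersetCard, h]
  decide

theorem mem_EP {s P : Finset GolayPt} (h : s.card = 7) (h1 : P ⊆ s) (h2 : Even P.card) :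
    P ∈ EP s := by
  have := Finset.card_le_card h1
  rw [Nat.even_iff] at h2
  refine Finset.mem_biUnion.mpr ⟨P.card, ?_, Finset.mem_powersetCard.mpr ⟨h1, rfl⟩⟩
  simp only [Finset.mem_insert, Finset.mem_singleton]
  omega

/-- The support without the two points. -/
def su (c : golayCode) : Finset GolayPt := ((support₂ c.1).erase none).erase (some 0)

theorem card_su {c : golayCode} (h : c ∈ CB) : (su c).card = 7 := by
  obtain ⟨a, b⟩ := (Finset.mem_filter.mp h).2
  rw [wt_eq_card] at b
  have b' : (support₂ c.1).card = 8 := by exact_mod_cast b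
  have d := lf_cases c.1 none
  unfold su
  by_cases e : lf c.1 none = 1
  · rw [Finset.erase_eq_of_notMem, Finset.card_erase_of_mem (mem_supp.mpr e), b']
    intro f
    have := mem_supp.mp (Finset.mem_erase.mp f).2
    omega
  · rw [Finset.erase_eq_of_notMem (a := none) fun f => e (mem_supp.mp f),
      Finset.card_erase_of_mem (mem_supp.mpr (by omega)), b']

open Classical in
/-- All candidates. -/
noncomputable def GG : Finset (GolayPt → ℤ) :=
  ((CB.sigma fun c => EP (su c)).image fun x => fB x.1 x.2) ∪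
    ((CC 0 ×ˢ T).image fun x => fC x.1 x.2) ∪
    ((CC 1 ×ˢ ({none, some 0} : Finset GolayPt)).image fun x => fC x.1 x.2)

theorem card_GG : GG.card ≤ 47104 := by
  have a1 : (CB.sigma fun c => EP (su c)).card ≤ 352 * 64 := by
    rw [Finset.card_sigma, ← card_CB, ← smul_eq_mul]
    exact Finset.sum_le_card_nsmul _ _ _ fun c hc => card_EP (card_su hc)
  unfold GG
  refine (Finset.card_union_le _ _).trans ((Nat.add_le_add ((Finset.card_union_le _ _).trans
    (Nat.add_le_add (Finset.card_image_le.trans a1) Finset.card_image_le))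
      Finset.card_image_le).trans ?_)
  rw [Finset.card_product, Finset.card_product, card_CC (Or.inl rfl), card_CC (Or.inr rfl), card_T]
  decide

theorem mem_GG {z : leechLattice} (h1 : sqNorm z.1 = 32) (e : z.1 none + z.1 (some 0) = 2) :
    z.1 ∈ GG := by
  unfold GG
  simp only [Finset.mem_union, Finset.mem_image, Finset.mem_sigma, Finset.mem_product]
  rcases shp h1 with a | ⟨c, w, P, a, b, d⟩ | ⟨c, j, d⟩
  · have := a none
    have := a (some 0)
    omega
  · have k : ∀ i, z.1 i = 2 * lf c.1 i - if i ∈ P then 4 else 0 := congrFun d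
    have k1 := k none
    have k2 := k (some 0)
    have l1 := lf_cases c.1 none
    have l2 := lf_cases c.1 (some 0)
    have m : ∀ i ∈ P, lf c.1 i = 1 := fun i hi => mem_supp.mp (a hi)
    have n : (none ∉ P ∧ some 0 ∉ P) ∧ lf c.1 none + lf c.1 (some 0) = 1 := by
      have := m none
      have := m (some 0)
      split_ifs at k1 k2 <;> simp_all <;> omega
    have hc : c ∈ CB := Finset.mem_filter.mpr ⟨Finset.mem_univ _, n.2, w⟩
    refine Or.inl (Or.inl ⟨⟨c, P⟩, ⟨hc, mem_EP (card_su hc) (fun i hi => ?_) b⟩, d.symm⟩)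
    exact Finset.mem_erase.mpr ⟨fun f => n.1.2 (f ▸ hi),
      Finset.mem_erase.mpr ⟨fun f => n.1.1 (f ▸ hi), a hi⟩⟩
  · have k : ∀ i, z.1 i = (1 - 2 * lf c.1 i) * if i = j then -3 else 1 := congrFun d
    have k1 := k none
    have k2 := k (some 0)
    have l1 := lf_cases c.1 none
    have l2 := lf_cases c.1 (some 0)
    by_cases hj : j ∈ T
    · obtain ⟨p1, p2⟩ := mem_T.mp hj
      rw [if_neg p1.symm] at k1
      rw [if_neg p2.symm] at k2
      exact Or.inl (Or.inr ⟨(c, j), ⟨Finset.mem_filter.mpr ⟨Finset.mem_univ _, by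
        constructor <;> (dsimp only; omega)⟩, hj⟩, d.symm⟩)
    · refine Or.inr ⟨(c, j), ⟨Finset.mem_filter.mpr ⟨Finset.mem_univ _, ?_⟩, ?_⟩, d.symm⟩
      · rw [mem_T, not_and_or, not_not, not_not] at hj
        rcases hj with rfl | rfl
        · rw [if_pos rfl] at k1
          rw [if_neg (by simp)] at k2
          constructor <;> (dsimp only; omega)
        · rw [if_pos rfl] at k2
          rw [if_neg (by simp)] at k1
          constructor <;> (dsimp only; omega)
      · rw [mem_T, not_and_or, not_not, not_not] at hj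
        simpa using hj

theorem dotU (x : GolayPt → ℤ) : dotInt x leechU.1 = 4 * x none + 4 * x (some 0) := by
  rw [← yv530]
  exact dot_u x (j := some 0) (by simp)

theorem card_le : Nat.card Spor.Co2 ≤ 42305421312000 := by
  have h1 : (fun x : leechLattice => (x + leechU).1) ''
      orb Spor.Co2.subtype (fixS Spor.Co2.subtype []) leechV ⊆ (GG : Set _) := by
    rintro _ ⟨_, ⟨g, _, rfl⟩, rfl⟩
    have hg := Spor.Co2.inv_mem g.2
    have hv : g.1⁻¹ leechU = leechU := hg.2
    have e : g.1⁻¹ leechV + leechU = g.1⁻¹ (leechV + leechU) := by rw [hg.1.1, hv]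
    show (g.1⁻¹ leechV + leechU).1 ∈ GG
    rw [e]
    refine mem_GG ((hg.1.2 _).trans (by decide +kernel)) ?_
    have := dot_map hg.1 (leechV + leechU) leechU
    rw [hv, dotU, show dotInt (leechV + leechU).1 leechU.1 = 8 by decide +kernel] at this
    omega
  have h2 := Set.ncard_le_ncard h1 (Finset.finite_toSet _)
  rw [Set.ncard_image_of_injective _ fun x y e => add_right_cancel (Subtype.ext e),
    Set.ncard_coe_finset] at h2
  have h3 := card_fixS_cons Spor.Co2.subtype leechV []
  have h4 : Nat.card (fixS Spor.Co2.subtype [leechV]) ≤ 898128000 := by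
    have := finite3
    refine le_trans (Nat.card_le_card_of_injective (β := fixS Co3.subtype [leechU])
      (fun g => ⟨⟨g.1.1, g.1.2.1, g.2 _ List.mem_cons_self⟩, fun b hb => ?_⟩) fun g h e => ?_)
      card_McL_le
    · rw [List.mem_singleton.mp hb]
      exact g.1.2.2
    · exact Subtype.ext (Subtype.ext (congrArg (fun x : fixS Co3.subtype [leechU] => x.1.1) e))
  rw [fixS_nil, Subgroup.card_top] at h3
  rw [fixS_nil] at h2
  rw [h3]
  exact Nat.mul_le_mul (h2.trans card_GG) h4

end Cfsg.Co2T
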