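import Cfsg.Agent.Co2.B0
import Cfsg.Agent.Co2.E4
import Cfsg.Agent.Co2.N2
import Cfsg.Agent.Co2.R5
import Cfsg.Agent.H5.ZStar

/-! The assembly of the characterisation of `Co₂` from its parts. -/

set_option autoImplicit false
set_option maxRecDepth 100000

namespace Cfsg.Co2

open Subgroup Cfsg.H6 Cfsg.Co Cfsg.Co.Rc Cfsg.H4.Golay Cfsg.H6.Leech Cfsg.H2
open Cfsg.Co3G (Sp)

variable {G : Type*} [Group G] [Finite G]

theorem ES.odd_index {z : G} {Q : Subgroup G} (E : ES z Q) :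
    Odd (centralizer ({z} : Set G)).index := by
  have : Fact (Nat.Prime 2) := ⟨Nat.prime_two⟩
  have hQ : IsPGroup 2 Q := IsPGroup.of_card (n := 9) E.card
  have h1 := hQ.card_modEq_card_fixedPoints (G ⧸ centralizer ({z} : Set G))
  have h2 : MulAction.fixedPoints Q (G ⧸ centralizer ({z} : Set G)) = {((1 : G) : G ⧸ _)} := by
    ext x
    obtain ⟨x, rfl⟩ := QuotientGroup.mk_surjective x
    have key : ∀ q : Q, q • (x : G ⧸ centralizer ({z} : Set G)) = x ↔
        x * z * x⁻¹ * q = q * (x * z * x⁻¹) := fun q => by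
      show ((q.1 * x : G) : G ⧸ centralizer ({z} : Set G)) = (x : G ⧸ centralizer ({z} : Set G)) ↔ _
      rw [eq_comm, QuotientGroup.eq, mem_cen]
      constructor
      · intro e
        calc x * z * x⁻¹ * q = x * (z * (x⁻¹ * (q * x))) * x⁻¹ := by group
          _ = _ := by rw [← e]; group
      · intro e
        calc x⁻¹ * (q * x) * z = x⁻¹ * (q * (x * z * x⁻¹)) * x := by group
          _ = _ := by rw [← e]; group
    rw [MulAction.mem_fixedPoints, Set.mem_singleton_iff, eq_comm, QuotientGroup.eq, mem_cen,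
      inv_one, one_mul, ← mul_inv_eq_iff_eq_mul]
    simp only [key]
    exact ⟨fun a => (E.cen _ (a ⟨z, E.zQ⟩) fun q hq => a ⟨q, hq⟩).resolve_left
      (by simpa using E.z1), fun a q => by rw [a, E.qz q q.2]⟩
  rw [h2, Nat.card_coe_set_eq, Set.ncard_singleton] at h1
  exact Nat.odd_iff.mpr h1

/-- There is a spin chart and a commuting conjugate. -/
theorem start0 (hO : oddCore G = ⊥) (hZ : center G = ⊥) {t : G} (ht : orderOf t = 2)
    (hcon : IsPConstrained 2 (centralizer ({t} : Set G)))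
    (hQ : IsExtraspecial 2 (pCore 2 (centralizer ({t} : Set G))))
    (hcard : Nat.card (pCore 2 (centralizer ({t} : Set G))) = 2 ^ 9)
    (e : (centralizer ({t} : Set G)) ⧸ pCore 2 (centralizer ({t} : Set G)) ≃*
      Matrix.symplecticGroup (Fin 3) (ZMod 2)) :
    ∃ Q a π, Ch 0 t Q a π ∧ ∃ g : G, g * t * g⁻¹ * t = t * (g * t * g⁻¹) ∧ g * t * g⁻¹ ≠ t := by
  obtain ⟨Q, μ, a, π, h⟩ := start ht hcon hQ hcard e
  have k : ¬ IsIsolated t := fun k => by
    have := H5.mem_center_of_isIsolated hO ht k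
    rw [hZ, mem_bot] at this
    exact h.es.z1 this
  obtain ⟨g, k⟩ := not_forall.mp k
  obtain ⟨k1, k2⟩ := Classical.not_imp.mp k
  obtain rfl : μ = 0 := by
    by_contra hμ
    exact k2 (not_nat h hμ k1.symm.eq)
  exact ⟨Q, a, π, h, g, k1.symm.eq, k2⟩

theorem fin0 {M : Type*} [Group M] [IsSimpleGroup M] {m1 m2 m3 : M} (i : M ≃* Spor.Co2)
    {c16 c8 c12 : GolayPt → ZMod 2} {m16 : c16 ∈ golayCode} {m8 : c8 ∈ golayCode}
    {m12 : c12 ∈ golayCode} {z16 : c16 none = 0 ∧ c16 (some 0) = 0}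
    {z8 : c8 none = 0 ∧ c8 (some 0) = 0} {z12 : c12 none = 0 ∧ c12 (some 0) = 0}
    (w16 : wt c16 = 16) (w8 : wt c8 = 8) (w12 : wt c12 = 12)
    (i1 : i m1 = ep2 c16 m16 z16) (i2 : i m2 = ep2 c8 m8 z8) (i3 : i m3 = ep2 c12 m12 z12)
    (hinv : ∀ x : Spor.Co2, x * x = 1 → ∃ c hc h, IsConj x (ep2 c hc h))
    {z : G} {Q : Subgroup G} (E : ES z Q) (Φ : M →* G) (h1 : Φ m1 = z)
    (hC : centralizer {z} ≤ Φ.range) (n2 : ¬ IsConj z (Φ m2)) (n3 : ¬ IsConj z (Φ m3)) :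
    Spor.IsoCo2 G := by
  have hi : Function.Injective Φ := by
    rw [← MonoidHom.ker_eq_bot_iff]
    refine (IsSimpleGroup.eq_bot_or_eq_top_of_normal Φ.ker inferInstance).resolve_right fun k => ?_
    have : m1 ∈ Φ.ker := k ▸ mem_top _
    exact E.z1 (h1.symm.trans this)
  let Ψ : Spor.Co2 →* G := Φ.comp i.symm.toMonoidHom
  have hΨ : ∀ m, Ψ (i m) = Φ m := fun m => congrArg Φ (i.symm_apply_apply m)
  have hj : Function.Injective Ψ := hi.comp i.symm.injective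
  have e1 : Ψ (ep2 c16 m16 z16) = z := by rw [← i1, hΨ, h1]
  refine ⟨(MulEquiv.ofBijective Ψ ⟨hj, surj2 Ψ hj (m16 := m16) (m8 := m8) (m12 := m12)
    (z16 := z16) (z8 := z8) (z12 := z12) w16 w8 w12 ?_ ?_ hinv ?_ ?_⟩).symm⟩
  · rw [e1]
    intro c hc
    obtain ⟨m, rfl⟩ := hC hc
    exact ⟨i m, hΨ m⟩
  · rw [e1]
    exact E.odd_index
  · rwa [e1, ← i2, hΨ]
  · rwa [e1, ← i3, hΨ]

end Cfsg.Co2
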