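import Cfsg.Agent.Co2.Z1
import Cfsg.Agent.Co2.B1
import Cfsg.Agent.Co2.E5
import Cfsg.Agent.Co2.T3
import Cfsg.Agent.Co2.P.Main

/-! The characterisation of `Co₂` from the amalgam and the model. -/

set_option autoImplicit false

namespace Cfsg.Co2

open Subgroup Cfsg.H6 Cfsg.Co Cfsg.Co.Rc Cfsg.H4.Golay Cfsg.H6.Leech Cfsg.H2
open Cfsg.Co3G (Sp)

variable {G : Type*} [Group G] [Finite G]

theorem fin (hiso : ∃ i : P.Grp ≃* Spor.Co2, ∃ c16 m16 z16 c8 m8 z8 c12 m12 z12,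
      wt c16 = 16 ∧ wt c8 = 8 ∧ wt c12 = 12 ∧ i (P.ev 1) = ep2 c16 m16 z16 ∧
      i (P.ev 24) = ep2 c8 m8 z8 ∧ i (evL P.ev [17, 2]) = ep2 c12 m12 z12)
    (hO : oddCore G = ⊥) (hZ : center G = ⊥) {t : G} (ht : orderOf t = 2)
    (hcon : IsPConstrained 2 (centralizer ({t} : Set G)))
    (hQ : IsExtraspecial 2 (pCore 2 (centralizer ({t} : Set G))))
    (hcard : Nat.card (pCore 2 (centralizer ({t} : Set G))) = 2 ^ 9)
    (e : (centralizer ({t} : Set G)) ⧸ pCore 2 (centralizer ({t} : Set G)) ≃*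
      Matrix.symplecticGroup (Fin 3) (ZMod 2))
    (hamal : ∀ {s Q Q' a a' π π'}, Sit t s Q Q' a a' π π' → ∃ Φ : P.Grp →* G, Φ (P.ev 1) = t ∧
      centralizer {t} ≤ Φ.range ∧ ¬ IsConj t (Φ (P.ev 24)) ∧ ¬ IsConj t (Φ (evL P.ev [17, 2]))) :
    Spor.IsoCo2 G := by
  obtain ⟨i, c16, m16, z16, c8, m8, z8, c12, m12, z12, w16, w8, w12, i1, i2, i3⟩ := hiso
  obtain ⟨Q, a, π, h, g, k1, k2⟩ := start0 hO hZ ht hcon hQ hcard e
  obtain ⟨s, Q', a, a', π, π', S⟩ := exists_sit h k1 k2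
  obtain ⟨Φ, h1, hC, n2, n3⟩ := hamal S
  have := P.simple
  exact fin0 i w16 w8 w12 i1 i2 i3 (hinv Co2T.card_Co2) h.es Φ h1 hC n2 n3

end Cfsg.Co2
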